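import Mathlib

/-!
Dihedral groups generated by conjugates of a rigid family of involutions.
-/

set_option autoImplicit false

namespace CfsgLib.C7

variable {G : Type*} [Group G] {ι : Type*}

theorem inv_zpow_of_inv {x k : G} (hx : x * x = 1) (h : x * k * x = k⁻¹) (n : ℤ) :
    x * k ^ n * x = (k ^ n)⁻¹ := by
  have e : x⁻¹ = x := inv_eq_of_mul_eq_one_right hx
  have := conj_zpow (a := x) (b := k) (i := n)
  rw [e, h, inv_zpow] at this
  exact this.symm

theorem conj_of_inv {x k : G} (hx : x * x = 1) (h : x * k * x = k⁻¹) : k⁻¹ * x * k = x * (k * k) := by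
  rw [← h, mul_assoc _ x x, hx, mul_one, mul_assoc]

theorem mul_inv_of_sq {x y : G} (hx : x * x = 1) (hy : y * y = 1) : x * (x * y) * x = (x * y)⁻¹ := by
  rw [← mul_assoc, hx, one_mul, mul_inv_rev, inv_eq_of_mul_eq_one_right hx,
    inv_eq_of_mul_eq_one_right hy]

theorem exists_sqrt {k : G} (h : Odd (orderOf k)) : ∃ m : ℤ, k ^ m * k ^ m = k := by
  obtain ⟨m, hm⟩ := h
  refine ⟨m + 1, ?_⟩
  rw [← zpow_add, show (m : ℤ) + 1 + (m + 1) = ((2 * m + 1 : ℕ) : ℤ) + 1 by push_cast; ring, ← hm,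
    zpow_add, zpow_natCast, pow_orderOf_eq_one, one_mul, zpow_one]

theorem eq_of_sq_eq {a b : G} (ha : Odd (orderOf a)) (hb : Odd (orderOf b)) (h : a * a = b * b) :
    a = b := by
  obtain ⟨m, hm⟩ := ha.mul hb
  have key : ∀ c : G, c ^ (2 * m + 1) = 1 → c = (c * c) ^ (m + 1) := fun c hc => by
    rw [← pow_two, ← pow_mul, show 2 * (m + 1) = 2 * m + 1 + 1 by ring, pow_succ, hc, one_mul]
  rw [key a (by rw [← hm, pow_mul, pow_orderOf_eq_one, one_pow]), h,
    ← key b (by rw [← hm, mul_comm, pow_mul, pow_orderOf_eq_one, one_pow])]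

/-- A rigid family of involutions, divided into slots. -/
structure DH (H : Subgroup G) (R : ι → G → Prop) : Prop where
  mem : ∀ {i x}, R i x → x ∈ H
  sq : ∀ {i x}, R i x → x * x = 1
  conj : ∀ {i x g}, R i x → g ∈ H → ∃ j, R j (g * x * g⁻¹)
  conjs : ∀ {i x y}, R i x → R i y → R i (y * x * y)
  rig : ∀ {i x g}, R i x → g * x * g⁻¹ ∈ H → g ∈ H
  comm : ∀ {i j x y}, i ≠ j → R i x → R j y → Commute x y
  inv : ∀ {i x y k}, R i x → R i y → x ≠ y → Commute x y → Odd (orderOf k) → x * k * x = k⁻¹ →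
    y * k * y = k⁻¹ → k ∈ H
  uniq : ∀ {i j l l' x y a b}, i ≠ j → R i x → R j y → R l a → R l' b → a * b = x * y →
    b = x ∨ b = y
  ex : ∀ {i x}, R i x → ∃ e, R i e ∧ e ≠ x ∧ Commute e x

/-- The conjugates of the family. -/
def Cj (R : ι → G → Prop) (y : G) : Prop := ∃ j x g, R j x ∧ y = g * x * g⁻¹

namespace DH

variable {H : Subgroup G} {R : ι → G → Prop} (D : DH H R)
include D

theorem cj_sq {y : G} (hy : Cj R y) : y * y = 1 := by
  obtain ⟨j, x, g, h, rfl⟩ := hy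
  rw [conj_mul, D.sq h, mul_one, mul_inv_cancel]

theorem two_mem {i : ι} {x : G} (hx : R i x) (a : ℕ) :
    ∀ s : G, x * s * x = s⁻¹ → s ^ 2 ^ a = 1 → s ∈ H := by
  induction a with
  | zero => intro s _ h; rw [show s = 1 by simpa using h]; exact one_mem _
  | succ a ih =>
    intro s h1 h2
    have h3 := ih (s ^ (2 : ℤ)) (inv_zpow_of_inv (D.sq hx) h1 2) (by
      rw [zpow_ofNat, ← pow_mul, ← h2, pow_succ'])
    refine inv_mem_iff.1 (D.rig hx ?_)
    rw [inv_inv, conj_of_inv (D.sq hx) h1]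
    exact mul_mem (D.mem hx) (by simpa [zpow_ofNat, pow_two] using h3)

theorem same {i : ι} {x k : G} (hx : R i x) (hk : Odd (orderOf k)) (h1 : x * k * x = k⁻¹) (a : ℕ) :
    ∀ y, R i y → x ≠ y → (x * y) ^ 2 ^ a = 1 → y * k * y = k⁻¹ → k ∈ H := by
  induction a with
  | zero =>
    intro y hy hne h _
    exact absurd (mul_left_cancel ((D.sq hx).trans (by simpa using h.symm))) hne
  | succ a ih =>
    intro y hy hne h h2
    by_cases hc : Commute x y
    · exact D.inv hx hy hne hc hk h1 h2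
    refine ih (y * x * y) (D.conjs hx hy) (fun e => hc ?_) ?_ ?_
    · rw [Commute, SemiconjBy]
      conv_lhs => rw [e, mul_assoc, D.sq hy, mul_one]
    · rw [← h, pow_succ', pow_mul, pow_two]; simp only [mul_assoc]
    · have h3 := inv_zpow_of_inv (D.sq hy) h2 (-1)
      simp only [zpow_neg, zpow_one, inv_inv] at h3
      calc _ = y * (x * (y * k * y) * x) * y := by simp only [mul_assoc]
        _ = k⁻¹ := by
          have h4 := inv_zpow_of_inv (D.sq hx) h1 (-1)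
          simp only [zpow_neg, zpow_one, inv_inv] at h4
          rw [h2, h4, h2]

theorem red [Finite G] {i : ι} {x y : G} (hx : R i x) (hy : Cj R y) (hH : y ∉ H) :
    ∃ l z, R l z ∧ Odd (orderOf (z * y)) ∧ x * (z * y) * x = (z * y)⁻¹ ∧
      (∃ a, (x * z) ^ 2 ^ a = 1) ∧ ∀ c, Commute c x → Commute c y → Commute c z := by
  have hi := mul_inv_of_sq (D.sq hx) (D.cj_sq hy)
  obtain ⟨a, b, hb, hn⟩ := Nat.exists_eq_two_pow_mul_odd (orderOf_pos (x * y)).ne'
  rcases a with _ | a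
  · exact ⟨i, x, hx, by simpa [hn] using hb, hi, ⟨0, by simpa using D.sq hx⟩, fun c h _ => h⟩
  obtain ⟨p, q, hpq⟩ : IsCoprime ((2 : ℤ) ^ (a + 1)) b := by
    have := Nat.isCoprime_iff_coprime.2 ((Nat.coprime_two_left.2 hb).pow_left (a + 1))
    simpa using this
  have h0 : ∀ n : ℤ, (x * y) ^ (n * (2 ^ (a + 1) * b)) = 1 := fun n => by
    rw [mul_comm n, zpow_mul, show (2 : ℤ) ^ (a + 1) * b = (orderOf (x * y) : ℤ) by
      rw [hn]; push_cast; rfl, zpow_natCast, pow_orderOf_eq_one, one_zpow]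
  have h1 : ((x * y) ^ (q * b)) ^ 2 ^ (a + 1) = 1 := by
    rw [← zpow_natCast, ← zpow_mul, ← h0 q]; congr 1; push_cast; ring
  have h2 := mul_mem (D.mem hx) (D.two_mem hx _ _ (inv_zpow_of_inv (D.sq hx) hi _) h1)
  have h3 : x * (x * y) ^ (q * b) = (x * y) ^ (p * 2 ^ a) * y * ((x * y) ^ (p * 2 ^ a))⁻¹ := by
    have h4 := conj_of_inv (D.sq hx) (inv_zpow_of_inv (D.sq hx) hi (-(p * 2 ^ a)))
    rw [zpow_neg, inv_inv] at h4
    have h5 : y = x * (x * y) := by rw [← mul_assoc, D.sq hx, one_mul]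
    generalize x * y = ρ at h4 h5 ⊢
    rw [h5, ← mul_assoc _ x, mul_assoc, ((Commute.refl ρ).zpow_right _).inv_right.eq, ← mul_assoc,
      h4, mul_assoc, ← zpow_neg, ← zpow_add, ← zpow_add_one]
    congr 2
    linear_combination hpq
  have h4 : x * (x * y) ^ (q * b) * y = (x * y) ^ (p * 2 ^ (a + 1)) := by
    have h5 := inv_zpow_of_inv (D.sq hx) hi (q * b)
    rw [← mul_one (x * _), ← D.sq hx, ← mul_assoc, h5, mul_assoc, ← zpow_neg, ← zpow_add_one]
    congr 1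
    rw [← hpq]; ring
  obtain ⟨j, x₀, g, h5, rfl⟩ := hy
  have h6 : ∀ c : G, c * (g * x₀ * g⁻¹) * c⁻¹ = c * g * x₀ * (c * g)⁻¹ := fun c => by group
  rw [h6] at h3
  obtain ⟨l, hl⟩ := D.conj h5 (D.rig h5 (h3 ▸ h2))
  refine ⟨l, _, h3 ▸ hl, ?_, h4 ▸ inv_zpow_of_inv (D.sq hx) hi _, ⟨a + 1, by
    rwa [← mul_assoc, D.sq hx, one_mul]⟩, fun c c1 c2 => c1.mul_right ((c1.mul_right c2).zpow_right _)⟩
  refine hb.of_dvd_nat (orderOf_dvd_of_pow_eq_one ?_)
  rw [h4, ← zpow_natCast, ← zpow_mul, ← h0 p, mul_assoc p]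

theorem exists_conj {i : ι} {x y : G} (hx : R i x) (hy : Cj R y) (h : Odd (orderOf (x * y))) :
    ∃ m : ℤ, y = ((x * y) ^ m)⁻¹ * x * (x * y) ^ m := by
  obtain ⟨m, hm⟩ := exists_sqrt h
  exact ⟨m, by rw [conj_of_inv (D.sq hx) (inv_zpow_of_inv (D.sq hx)
    (mul_inv_of_sq (D.sq hx) (D.cj_sq hy)) m), hm, ← mul_assoc, D.sq hx, one_mul]⟩

theorem odd [Finite G] {i : ι} {x y : G} (hx : R i x) (hy : Cj R y) (hH : y ∉ H) :
    Odd (orderOf (x * y)) := by
  obtain ⟨l, z, hz, h1, h2, ⟨a, h3⟩, -⟩ := D.red hx hy hH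
  have nm : ∀ {l z}, R l z → z * y ∉ H := fun hz h => hH ((H.mul_mem_cancel_left (D.mem hz)).1 h)
  have hi := fun {l z} (hz : R l z) => mul_inv_of_sq (D.sq hz) (D.cj_sq hy)
  by_cases hxz : x = z
  · exact hxz ▸ h1
  have hil : i ≠ l := by
    rintro rfl
    exact nm hz (D.same hx h1 h2 a z hz hxz h3 (hi hz))
  obtain ⟨e, he, hez, hc⟩ := D.ex hz
  obtain ⟨l', z', hz', h4, h5, -, h6⟩ := D.red he hy hH
  have c1 : Commute (x * z) z := (D.comm hil hx hz).mul_left (Commute.refl z)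
  have c2 : Commute (x * z) (z * y) := by
    have h7 := inv_zpow_of_inv (D.sq hx) h2 (-1)
    simp only [zpow_neg, zpow_one, inv_inv] at h7
    rw [Commute, SemiconjBy]
    conv_rhs => rw [← h7, ← hi hz]
    simp only [mul_assoc, ← mul_assoc x x, D.sq hx, one_mul, D.sq hz, mul_one]
  have c3 : Commute (x * z) y := by
    simpa [← mul_assoc, D.sq hz] using c1.mul_right c2
  have c4 := h6 _ ((D.comm hil hx he).mul_left hc.symm) c3
  obtain ⟨m, hm⟩ := D.exists_conj hz hy h1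
  obtain ⟨m', hm'⟩ := D.exists_conj hz' hy h4
  generalize hk : (z * y) ^ m = k at hm
  generalize hk' : (z' * y) ^ m' = k' at hm'
  have c5 : Commute (x * z) (k' * k⁻¹) :=
    (hk' ▸ (c4.mul_right c3).zpow_right m').mul_right (hk ▸ c2.zpow_right m).inv_right
  have h7 : k' * k⁻¹ * z * (k' * k⁻¹)⁻¹ = z' := by
    rw [mul_inv_rev, inv_inv, mul_assoc k', mul_assoc k', ← mul_assoc _ k, ← hm, hm']; group
  obtain ⟨j, hj⟩ := D.conj hx (D.rig hz (h7 ▸ D.mem hz'))
  rcases D.uniq hil hx hz hj hz' (by rw [← h7, conj_mul, ← c5.eq, mul_inv_cancel_right]) with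
    rfl | rfl
  · exact h4
  · exact absurd (D.inv he hz hez hc h4 h5 (hi hz)) (nm hz)

theorem exists_swap {i : ι} {x y : G} (hx : R i x) (hy : Cj R y) (h : Odd (orderOf (x * y))) :
    ∃ w ∈ Subgroup.closure {x, y}, Cj R w ∧ w * x * w = y := by
  have hi := mul_inv_of_sq (D.sq hx) (D.cj_sq hy)
  obtain ⟨m, hm⟩ := exists_sqrt h
  refine ⟨x * (x * y) ^ m, mul_mem (Subgroup.subset_closure (by simp)) (zpow_mem (mul_mem
    (Subgroup.subset_closure (by simp)) (Subgroup.subset_closure (by simp))) _),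
    ⟨i, x, ((x * y) ^ (m * m))⁻¹, hx, ?_⟩, ?_⟩
  · rw [inv_inv, conj_of_inv (D.sq hx) (inv_zpow_of_inv (D.sq hx) hi _), zpow_mul,
      ← ((Commute.refl _).mul_zpow m), hm]
  · simp only [mul_assoc, ← mul_assoc x x, D.sq hx, one_mul, hm]

/-- The swapping argument. -/
theorem swap [Finite G] {g : G} (hg : g ∉ H) {i j : ι} {x x' : G} (hx : R i x) (hx' : R j x')
    (hne : x ≠ x') : ∃ y, Cj R y ∧ (∀ l t, R l t → ∃ w ∈ Subgroup.closure {t, y}, w * w = 1 ∧
      w * t * w = y) ∧ ∃ k ∈ H, k ∈ Subgroup.closure {x, x', y} ∧ k * x * k⁻¹ = x' ∧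
        ∀ l t, R l t → ¬ Commute k t := by
  have hy : Cj R (g * x * g⁻¹) := ⟨i, x, g, hx, rfl⟩
  have hH : g * x * g⁻¹ ∉ H := fun h => hg (D.rig hx h)
  generalize g * x * g⁻¹ = y at hy hH
  obtain ⟨w, h1, h2, h3⟩ := D.exists_swap hx hy (D.odd hx hy hH)
  obtain ⟨w', h4, h5, h6⟩ := D.exists_swap hx' hy (D.odd hx' hy hH)
  have e : w' * w * x * (w' * w)⁻¹ = x' := by
    rw [mul_inv_rev, inv_eq_of_mul_eq_one_right (D.cj_sq h2), inv_eq_of_mul_eq_one_right (D.cj_sq h5),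
      mul_assoc w', mul_assoc w', ← mul_assoc _ w, h3, ← h6]
    simp only [mul_assoc, ← mul_assoc w' w', D.cj_sq h5, one_mul, mul_one]
  refine ⟨y, hy, fun l t ht => ?_, w' * w, D.rig hx (e ▸ D.mem hx'), mul_mem
    (Subgroup.closure_mono (by grind) h4) (Subgroup.closure_mono (by grind) h1), e,
    fun l t ht hc => hne ?_⟩
  · obtain ⟨w, h1, h2, h3⟩ := D.exists_swap ht hy (D.odd ht hy hH)
    exact ⟨w, h1, D.cj_sq h2, h3⟩
  · have h7 := eq_of_sq_eq
      (D.odd ht h2 fun h => hH (h3 ▸ mul_mem (mul_mem h (D.mem hx)) h))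
      (D.odd ht h5 fun h => hH (h6 ▸ mul_mem (mul_mem h (D.mem hx')) h)) (by
        have := congrArg (fun a => t * w' * a * w) hc.eq
        simpa only [mul_assoc, ← mul_assoc w' w', D.cj_sq h5, D.cj_sq h2, one_mul, mul_one] using this)
    rw [← e, ← mul_left_cancel h7, D.cj_sq h2]; simp

end DH

end CfsgLib.C7
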