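import Mathlib
import Cfsg.Agent.Lib.ClMax.TenBasic

/-!
A tensor factor of a space `V`, given as an algebra map `End U → End V`.
-/

set_option autoImplicit false

namespace CfsgLib.C7

open Module CfsgLib.ClMax

variable {F U V : Type*} [Field F] [AddCommGroup U] [Module F U] [AddCommGroup V] [Module F V]
  (s s' : End F U →ₐ[F] End F V)

/-- The image of the rank one map `u φ`. -/
def r : U →ₗ[F] Dual F U →ₗ[F] End F V :=
  LinearMap.mk₂ F (fun u φ => s (φ.smulRight u))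
    (fun _ _ _ => by rw [← map_add]; congr 1; ext; simp)
    (fun _ _ _ => by rw [← map_smul]; congr 1; ext; simp [smul_smul, mul_comm])
    (fun _ _ _ => by rw [← map_add]; congr 1; ext; simp [add_smul])
    (fun _ _ _ => by rw [← map_smul]; congr 1; ext; simp [smul_smul])

theorem r_def (u : U) (φ : Dual F U) : r s u φ = s (φ.smulRight u) := rfl

theorem s_mul_r (a : End F U) (u : U) (φ : Dual F U) : s a * r s u φ = r s (a u) φ := by
  rw [r_def, r_def, ← map_mul]; congr 1; ext; simp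

theorem r_mul_s (a : End F U) (u : U) (φ : Dual F U) : r s u φ * s a = r s u (φ ∘ₗ a) := by
  rw [r_def, r_def, ← map_mul]; congr 1

@[simp] theorem r_mul (u w : U) (φ ψ : Dual F U) : r s u φ * r s w ψ = φ w • r s u ψ := by
  rw [r_def s u, s_mul_r]; simp

@[simp] theorem r_mul' (u w : U) (φ ψ : Dual F U) (E : End F V) :
    r s u φ * (r s w ψ * E) = φ w • (r s u ψ * E) := by
  rw [← mul_assoc, r_mul, smul_mul_assoc]

@[simp] theorem r_r (u w : U) (φ ψ : Dual F U) (v : V) :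
    r s u φ (r s w ψ v) = φ w • r s u ψ v := LinearMap.congr_fun (r_mul s u w φ ψ) v

/-- The commutant of the factor. -/
def Cm : Subalgebra F (End F V) := Subalgebra.centralizer F (Set.range s)

variable {s s'}

theorem mem_Cm {E : End F V} : E ∈ Cm s ↔ ∀ a, s a * E = E * s a := by
  simp [Cm, Subalgebra.mem_centralizer_iff]

theorem Cm_r {E : End F V} (h : E ∈ Cm s) (u : U) (φ : Dual F U) : E * r s u φ = r s u φ * E :=
  (mem_Cm.1 h _).symm

theorem Cm_r' {E : End F V} (h : E ∈ Cm s) (u : U) (φ : Dual F U) (G : End F V) :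
    E * (r s u φ * G) = r s u φ * (E * G) := by rw [← mul_assoc, Cm_r h, mul_assoc]

theorem Cm_r_apply {E : End F V} (h : E ∈ Cm s) (u : U) (φ : Dual F U) (v : V) :
    E (r s u φ v) = r s u φ (E v) := LinearMap.congr_fun (Cm_r h u φ) v

variable (s) in
/-- The subspace `u ⊗ W`. -/
def L (u : U) : Submodule F V where
  carrier := {v | ∀ ψ : Dual F U, ψ u = 0 → ∀ w, r s w ψ v = 0}
  add_mem' ha hb ψ h w := by rw [map_add, ha ψ h, hb ψ h, add_zero]
  zero_mem' _ _ _ := map_zero _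
  smul_mem' c v hv ψ h w := by rw [map_smul, hv ψ h, smul_zero]

theorem r_mem_L (u : U) (φ : Dual F U) (v : V) : r s u φ v ∈ L s u := fun ψ h w => by simp [h]

theorem L_le_of_mem_span {u u' : U} (h : u ∈ Submodule.span F {u'}) : L s u ≤ L s u' := by
  obtain ⟨c, rfl⟩ := Submodule.mem_span_singleton.1 h
  exact fun v hv ψ h w => hv ψ (by simp [h]) w

theorem Cm_mem_L {E : End F V} (h : E ∈ Cm s) {u : U} {v : V} (hv : v ∈ L s u) : E v ∈ L s u :=
  fun ψ h0 w => by rw [← Cm_r_apply h, hv ψ h0, map_zero]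

/-- `g` carries the factor `s` to the factor `s'`. -/
def Nm (g : V ≃ₗ[F] V) (s s' : End F U →ₐ[F] End F V) : Prop :=
  ∀ a, ∃ a', (g : End F V) * s a = s' a' * g

/-- `g` carries the factor `s` to the factor `s'` through `α`. -/
def Nma (g : V ≃ₗ[F] V) (s s' : End F U →ₐ[F] End F V) (α : U ≃ₗ[F] U) : Prop :=
  ∀ u φ, (g : End F V) * r s u φ = r s' (α u) (φ ∘ₗ α.symm) * g

theorem Nm.mul {s'' : End F U →ₐ[F] End F V} {g h : V ≃ₗ[F] V} (h1 : Nm g s' s'')
    (h2 : Nm h s s') : Nm (g * h) s s'' := fun a => by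
  obtain ⟨b, hb⟩ := h2 a
  obtain ⟨c, hc⟩ := h1 b
  exact ⟨c, by rw [LinearEquiv.coe_toLinearMap_mul, mul_assoc, hb, ← mul_assoc, hc, mul_assoc]⟩

theorem nm_of_Cm {g : V ≃ₗ[F] V} (h : (g : End F V) ∈ Cm s) : Nm g s s :=
  fun a => ⟨a, (mem_Cm.1 h a).symm⟩

theorem Nma.apply {g : V ≃ₗ[F] V} {α : U ≃ₗ[F] U} (h : Nma g s s' α) (u : U) (φ : Dual F U)
    (v : V) : g (r s u φ v) = r s' (α u) (φ ∘ₗ α.symm) (g v) := LinearMap.congr_fun (h u φ) v

theorem Nma.mem_L {g : V ≃ₗ[F] V} {α : U ≃ₗ[F] U} (h : Nma g s s' α) {u : U} {v : V}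
    (hv : v ∈ L s u) : g v ∈ L s' (α u) := fun ψ h0 w => by
  have := h.apply (α.symm w) (ψ ∘ₗ α) v
  rw [hv _ (by simpa using h0), map_zero, α.apply_symm_apply, LinearMap.comp_assoc] at this
  simpa using this.symm

theorem Nma.symm {g : V ≃ₗ[F] V} {α : U ≃ₗ[F] U} (h : Nma g s s' α) : Nma g⁻¹ s' s α.symm :=
  fun u φ => LinearMap.ext fun v => g.injective (by
    change g (g⁻¹ (r s' u φ v)) = g (r s _ _ (g⁻¹ v))
    rw [h.apply, apply_inv_apply, apply_inv_apply, α.apply_symm_apply, LinearMap.comp_assoc]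
    simp)

variable [FiniteDimensional F U]

theorem eq_sum_r (a : End F U) :
    s a = ∑ i, r s (a (finBasis F U i)) ((finBasis F U).coord i) := by
  simp only [r_def, ← map_sum]
  congr 1
  exact (finBasis F U).ext fun j => by simp [Finsupp.single_apply]

variable (s) in
theorem sum_r : ∑ i, r s (finBasis F U i) ((finBasis F U).coord i) = 1 := by
  simpa using (eq_sum_r (s := s) 1).symm

theorem mem_Cm_of_r {E : End F V} (h : ∀ u φ, r s u φ * E = E * r s u φ) : E ∈ Cm s :=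
  mem_Cm.2 fun a => by simp only [eq_sum_r, Finset.sum_mul, Finset.mul_sum, h]

theorem mem_of_r {A : Submodule F (End F V)} {E : End F V} (h : ∀ u φ, r s u φ * E ∈ A)
    (a : End F U) : s a * E ∈ A := by
  rw [eq_sum_r, Finset.sum_mul]
  exact A.sum_mem fun _ _ => h _ _

theorem Nma.nm {g : V ≃ₗ[F] V} {α : U ≃ₗ[F] U} (h : Nma g s s' α) : Nm g s s' := fun a =>
  ⟨∑ i, ((finBasis F U).coord i ∘ₗ α.symm).smulRight (α (a (finBasis F U i))), by
    simp only [Nma] at h
    simp only [eq_sum_r a, Finset.mul_sum, h, map_sum, Finset.sum_mul]; rfl⟩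

theorem eq_zero_of_r {u : U} (hu : u ≠ 0) {v : V} (h : ∀ φ, r s u φ v = 0) : v = 0 := by
  obtain ⟨θ, hθ⟩ := exists_dual_one_of_ne (F := F) hu
  have := LinearMap.congr_fun (sum_r s) v
  rw [End.one_apply, LinearMap.sum_apply] at this
  rw [← this]
  refine Finset.sum_eq_zero fun i _ => ?_
  simpa [hθ, h] using (r_r s (finBasis F U i) u θ ((finBasis F U).coord i) v).symm

theorem r_eq_of_mem_L {u : U} {φ : Dual F U} (h : φ u = 1) {v : V} (hv : v ∈ L s u) :
    r s u φ v = v := by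
  have hu : u ≠ 0 := by rintro rfl; simp at h
  refine sub_eq_zero.1 (eq_zero_of_r (s := s) hu fun ψ => ?_)
  have := hv (ψ - ψ u • φ) (by simp [h]) u
  simp only [map_sub, map_smul, LinearMap.sub_apply, LinearMap.smul_apply, sub_eq_zero] at this
  simp [this]

theorem exists_of_mem_L {u : U} {φ : Dual F U} (hu : u ≠ 0) (hφ : φ ≠ 0) {v : V}
    (hv : v ∈ L s u) : ∃ w, r s u φ w = v := by
  obtain ⟨θ, hθ⟩ := exists_dual_one_of_ne (F := F) hu
  obtain ⟨y, hy⟩ := exists_apply_eq_one hφ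
  exact ⟨r s y θ v, by simp [hy, r_eq_of_mem_L hθ hv]⟩

theorem range_r {u : U} {φ : Dual F U} (hu : u ≠ 0) (hφ : φ ≠ 0) :
    LinearMap.range (r s u φ) = L s u :=
  le_antisymm (by rintro _ ⟨v, rfl⟩; exact r_mem_L _ _ _) fun _ hv => exists_of_mem_L hu hφ hv

theorem eq_zero_of_mem_L {u u' : U} (h : u ∉ Submodule.span F {u'}) {v : V} (hv : v ∈ L s u)
    (hv' : v ∈ L s u') : v = 0 := by
  obtain ⟨φ, h1, h2⟩ := exists_dual_one_zero h
  rw [← r_eq_of_mem_L h1 hv, hv' φ h2]

theorem finrank_L_mul [FiniteDimensional F V] {u : U} (hu : u ≠ 0) : finrank F U * finrank F (L s u) = finrank F V := by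
  classical
  obtain ⟨θ, hθ⟩ := exists_dual_one_of_ne (F := F) hu
  let b := finBasis F U
  let e : V ≃ₗ[F] (Fin (finrank F U) → L s u) := LinearEquiv.ofLinearMap
    (LinearMap.pi fun i => (r s u (b.coord i)).codRestrict _ (r_mem_L _ _))
    (∑ i, r s (b i) θ ∘ₗ (L s u).subtype ∘ₗ LinearMap.proj i) (by
      ext i z j
      simp [Finsupp.single_apply, r_eq_of_mem_L hθ z.2, Pi.single_apply, apply_ite Subtype.val,
        apply_ite (r s u θ), eq_comm]) (by
      ext v
      simpa [hθ] using LinearMap.congr_fun (sum_r s) v)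
  rw [e.finrank_eq, finrank_pi_fintype]
  simp

variable (F U V) in
/-- The dimension of the complementary factor. -/
noncomputable def dd : ℕ := finrank F V / finrank F U

theorem finrank_L [FiniteDimensional F V] {u : U} (hu : u ≠ 0) : finrank F (L s u) = dd F U V := by
  have : Nontrivial U := nontrivial_of_ne u 0 hu
  rw [dd, ← finrank_L_mul (s := s) hu, Nat.mul_div_cancel_left _ finrank_pos]

variable (s) in
/-- The matrix coefficients of an endomorphism. -/
noncomputable def co (N : End F V) : Dual F U →ₗ[F] U →ₗ[F] End F V :=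
  LinearMap.mk₂ F (fun φ z => ∑ i, r s (finBasis F U i) φ * N * r s z ((finBasis F U).coord i))
    (fun _ _ _ => by simp [add_mul, Finset.sum_add_distrib])
    (fun _ _ _ => by simp [Finset.smul_sum])
    (fun _ _ _ => by simp [mul_add, Finset.sum_add_distrib])
    (fun _ _ _ => by simp [Finset.smul_sum])

theorem co_def (N : End F V) (φ : Dual F U) (z : U) : co s N φ z =
    ∑ i, r s (finBasis F U i) φ * N * r s z ((finBasis F U).coord i) := rfl

theorem r_co (N : End F V) (φ ψ : Dual F U) (w z : U) :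
    r s w φ * N * r s z ψ = r s w ψ * co s N φ z := by
  conv_lhs => rw [← (finBasis F U).sum_dual_apply_smul_coord ψ]
  simp only [co_def, Finset.mul_sum, mul_assoc, map_sum, map_smul, r_mul', mul_smul_comm]

theorem co_mem (N : End F V) (φ : Dual F U) (z : U) : co s N φ z ∈ Cm s :=
  mem_Cm_of_r fun w ψ => by
    rw [← r_co]
    conv_lhs => rw [← (finBasis F U).sum_repr w]
    simp only [co_def, Finset.sum_mul, mul_assoc, map_sum, map_smul, r_mul, mul_smul_comm,
      LinearMap.sum_apply, LinearMap.smul_apply, smul_mul_assoc, Basis.coord_apply]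

theorem co_comm {N E : End F V} (hE : E ∈ Cm s) (h : E * N = N * E) (φ : Dual F U) (z : U) :
    E * co s N φ z = co s N φ z * E := by
  simp only [co_def, Finset.sum_mul, Finset.mul_sum, mul_assoc, Cm_r' hE, ← Cm_r hE]
  simp only [← mul_assoc _ N, ← mul_assoc N, h]

theorem eq_sum_co (N : End F V) : N = ∑ i, ∑ j, r s (finBasis F U i) ((finBasis F U).coord j) *
    co s N ((finBasis F U).coord i) (finBasis F U j) := by
  simp only [← r_co, ← Finset.mul_sum, sum_r, mul_one, ← Finset.sum_mul, one_mul]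

theorem s_mul_eq_zero {a : End F U} (ha : a ≠ 0) {E : End F V} (hE : E ∈ Cm s)
    (h : s a * E = 0) : E = 0 := by
  obtain ⟨z, hz⟩ : ∃ z, a z ≠ 0 := by
    by_contra h'; push Not at h'; exact ha (LinearMap.ext h')
  obtain ⟨θ, hθ⟩ := exists_dual_one_of_ne (F := F) hz
  rw [← one_mul E, ← sum_r s, Finset.sum_mul]
  refine Finset.sum_eq_zero fun i _ => ?_
  have := congrArg (fun N => r s (finBasis F U i) θ * N * r s z ((finBasis F U).coord i)) h
  simpa [mul_assoc, Cm_r hE, ← mul_assoc (s a), s_mul_r, hθ] using this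

theorem smulRight_ne_zero {u : U} {φ : Dual F U} (hu : u ≠ 0) (hφ : φ ≠ 0) :
    φ.smulRight u ≠ 0 := fun h => by
  obtain ⟨y, hy⟩ := exists_apply_eq_one hφ
  exact hu (by simpa [hy] using LinearMap.congr_fun h y)

theorem r_mul_eq_zero {u : U} {φ : Dual F U} (hu : u ≠ 0) (hφ : φ ≠ 0) {E : End F V}
    (hE : E ∈ Cm s) (h : r s u φ * E = 0) : E = 0 :=
  s_mul_eq_zero (smulRight_ne_zero hu hφ) hE h

theorem r_mul_cancel {u : U} {φ : Dual F U} (hu : u ≠ 0) (hφ : φ ≠ 0) {E G : End F V}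
    (hE : E ∈ Cm s) (hG : G ∈ Cm s) (h : r s u φ * E = r s u φ * G) : E = G :=
  sub_eq_zero.1 (r_mul_eq_zero hu hφ (sub_mem hE hG) (by rw [mul_sub, h, sub_self]))

theorem s_inj [Nontrivial V] : Function.Injective s :=
  (injective_iff_map_eq_zero s).2 fun a h => by
    by_contra ha
    exact one_ne_zero (s_mul_eq_zero ha (one_mem _) (by rw [h, zero_mul]))

theorem r_ne_zero [Nontrivial V] {u : U} {φ : Dual F U} (hu : u ≠ 0) (hφ : φ ≠ 0) :
    r s u φ ≠ 0 := fun h => smulRight_ne_zero hu hφ (s_inj (h.trans (map_zero s).symm))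

theorem Nm.nma [Nontrivial V] [Nontrivial U] {g : V ≃ₗ[F] V} (h : Nm g s s') :
    ∃ α, Nma g s s' α := by
  choose θ hθ using h
  have key : ∀ {a b}, (g : End F V) * s a = s' b * g → θ a = b := fun {a b} e => s_inj (by
    rw [← mul_one (s' _), ← mul_one (s' b), ← coe_mul_inv g, ← mul_assoc, ← mul_assoc, ← hθ, e])
  have hm : ∀ a b, θ (a * b) = θ a * θ b := fun a b =>
    key (by rw [map_mul, map_mul, ← mul_assoc, hθ, mul_assoc, hθ, mul_assoc])
  obtain ⟨u₀, hu₀⟩ := exists_ne (0 : U)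
  obtain ⟨φ₀, h₀⟩ := exists_dual_one_of_ne (F := F) hu₀
  obtain ⟨w₀, hw₀⟩ : ∃ w₀, θ (φ₀.smulRight u₀) w₀ ≠ 0 := by
    by_contra h'
    push Not at h'
    have := hθ (φ₀.smulRight u₀)
    rw [show θ _ = 0 from LinearMap.ext h', map_zero, zero_mul] at this
    have h1 := congrArg (((g⁻¹ : V ≃ₗ[F] V) : End F V) * ·) this
    simp only [← mul_assoc, coe_inv_mul, one_mul, mul_zero] at h1
    exact r_ne_zero hu₀ (by rintro rfl; simp at h₀) h1
  let α₀ : U →ₗ[F] U :=
    { toFun v := θ (φ₀.smulRight v) w₀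
      map_add' v w := by
        rw [key (b := θ (φ₀.smulRight v) + θ (φ₀.smulRight w)) (by
          rw [map_add, add_mul, ← hθ, ← hθ, ← mul_add, ← map_add]; congr 2; ext; simp)]; rfl
      map_smul' c v := by
        rw [key (b := c • θ (φ₀.smulRight v)) (by
          rw [map_smul, smul_mul_assoc, ← hθ, ← mul_smul_comm, ← map_smul]
          congr 2; ext; simp [smul_smul, mul_comm])]; rfl }
  have h1 : ∀ a v, θ a (α₀ v) = α₀ (a v) := fun a v => by
    change (θ a * θ _) w₀ = θ _ w₀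
    rw [← hm]; congr 2; ext; simp
  have hinj : Function.Injective α₀ := by
    rw [← LinearMap.ker_eq_bot, LinearMap.ker_eq_bot']
    intro v hv
    by_contra h0
    obtain ⟨ψ, hψ⟩ := exists_dual_one_of_ne (F := F) h0
    have := h1 (ψ.smulRight u₀) v
    rw [hv, map_zero] at this
    exact hw₀ (show α₀ u₀ = 0 by simpa [hψ] using this.symm)
  let α := LinearEquiv.ofInjectiveEndo α₀ hinj
  refine ⟨α, fun u φ => ?_⟩
  rw [r_def, hθ, r_def]
  congr 2
  ext v
  obtain ⟨v, rfl⟩ := α.surjective v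
  exact (h1 (φ.smulRight u) v).trans (by simp; rfl)

theorem Nm.symm [Nontrivial V] [Nontrivial U] {g : V ≃ₗ[F] V} (h : Nm g s s') : Nm g⁻¹ s' s :=
  let ⟨_, h⟩ := h.nma; h.symm.nm

theorem Nm.conj_Cm [Nontrivial V] [Nontrivial U] {g : V ≃ₗ[F] V} (h : Nm g s s') {E G : End F V}
    (hE : E ∈ Cm s) (e : (g : End F V) * E = G * g) : G ∈ Cm s' := by
  obtain ⟨α, h⟩ := h.nma
  refine mem_Cm_of_r fun u φ => LinearMap.ext fun v => ?_
  obtain ⟨v, rfl⟩ := g.surjective v
  have h1 := fun v => h.apply (α.symm u) (φ ∘ₗ α) v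
  have h2 : ∀ v, g (E v) = G (g v) := LinearMap.congr_fun e
  simp only [α.apply_symm_apply, LinearMap.comp_assoc, LinearEquiv.comp_symm,
    LinearMap.comp_id] at h1
  rw [End.mul_apply, End.mul_apply, ← h2, ← h1, ← h1, ← h2, Cm_r_apply hE]

/-- An element normalising the factor is `α ⊗ β`. -/
theorem Nma.exists_Cm {g : V ≃ₗ[F] V} {α : U ≃ₗ[F] U} (h : Nma g s s α) :
    ∃ β ∈ Cm s, (g : End F V) = s α * β ∧ ∀ u φ, (g : End F V) * r s u φ = r s (α u) φ * β := by
  have e : ∀ u φ, s (α.symm : End F U) * g * r s u φ = r s u φ * (s (α.symm : End F U) * g) :=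
    fun u φ => by rw [mul_assoc, h, ← mul_assoc, s_mul_r, ← mul_assoc, r_mul_s]; simp
  have e1 : (g : End F V) = s α * (s (α.symm : End F U) * g) := by
    rw [← mul_assoc, ← map_mul, show (α : End F U) * α.symm = 1 by ext; simp]; simp
  refine ⟨_, mem_Cm_of_r fun u φ => (e u φ).symm, e1, fun u φ => ?_⟩
  conv_lhs => rw [e1, mul_assoc, e, ← mul_assoc, s_mul_r]
  rfl

variable [FiniteDimensional F V]

theorem dd_le {u : U} {φ : Dual F U} (hu : u ≠ 0) (hφ : φ ≠ 0) {P T : End F V}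
    (h : P * T = r s u φ) {Z : Submodule F V} (hZ : ∀ v, T v ∈ Z) :
    dd F U V ≤ finrank F (Z.map P) := by
  rw [← finrank_L (s := s) hu, ← range_r hu hφ, ← h]
  refine Submodule.finrank_mono ?_
  rintro _ ⟨v, rfl⟩
  exact ⟨_, hZ v, rfl⟩

theorem eq_range_of_le {u : U} {φ : Dual F U} (hu : u ≠ 0) (hφ : φ ≠ 0) {P T : End F V}
    (h : P * T = r s u φ) {Z : Submodule F V} (hZ : ∀ v, T v ∈ Z) (hd : finrank F Z ≤ dd F U V) :
    Z = LinearMap.range T :=
  (Submodule.eq_of_le_of_finrank_le (by rintro _ ⟨v, rfl⟩; exact hZ v) (hd.trans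
    ((dd_le hu hφ h fun v => LinearMap.mem_range_self T v).trans
      (Submodule.finrank_map_le _ _)))).symm

theorem two_dd_le {u : U} {φ : Dual F U} (hu : u ≠ 0) (hφ : φ ≠ 0) {P T P' T' : End F V}
    (h : P * T = r s u φ) (h' : P' * T' = r s u φ) (h0 : P * T' = 0) {Z : Submodule F V}
    (hZ : ∀ v, T v ∈ Z) (hZ' : ∀ v, T' v ∈ Z) : 2 * dd F U V ≤ finrank F Z := by
  have h1 := dd_le hu hφ h hZ
  have h2 := (dd_le hu hφ h' (Z := Z ⊓ LinearMap.ker P) fun v =>
    ⟨hZ' v, LinearMap.congr_fun h0 v⟩).trans (Submodule.finrank_map_le _ _)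
  have h3 := (P.domRestrict Z).finrank_range_add_finrank_ker
  rw [LinearMap.range_domRestrict, LinearMap.ker_domRestrict,
    ← Submodule.finrank_map_subtype_eq, Submodule.map_comap_subtype] at h3
  omega

theorem eq_sup_of_le {u : U} {φ : Dual F U} (hu : u ≠ 0) (hφ : φ ≠ 0) {P T P' T' : End F V}
    (h : P * T = r s u φ) (h' : P' * T' = r s u φ) (h0 : P * T' = 0) {Z : Submodule F V}
    (hZ : ∀ v, T v ∈ Z) (hZ' : ∀ v, T' v ∈ Z) (hd : finrank F Z ≤ 2 * dd F U V) {z : V}
    (hz : z ∈ Z) : ∃ v v', z = T v + T' v' := by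
  have := Submodule.eq_of_le_of_finrank_le (S₁ := LinearMap.range T ⊔ LinearMap.range T') (sup_le
    (by rintro _ ⟨v, rfl⟩; exact hZ v) (by rintro _ ⟨v, rfl⟩; exact hZ' v)) (hd.trans
      (two_dd_le hu hφ h h' h0 (fun v => Submodule.mem_sup_left ⟨v, rfl⟩)
        fun v => Submodule.mem_sup_right ⟨v, rfl⟩))
  obtain ⟨_, ⟨v, rfl⟩, _, ⟨v', rfl⟩, e⟩ := Submodule.mem_sup.1 (this ▸ hz)
  exact ⟨v, v', e.symm⟩

end CfsgLib.C7
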