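import Mathlib
import Cfsg.Agent.Lib.C7.Slot

/-!
Tensor powers, the stabiliser `Wr` of the decomposition and its quadratic elements of small rank.
-/

set_option autoImplicit false

namespace CfsgLib.C7

open Module CfsgLib.ClMax

variable {F U V : Type*} [Field F] [AddCommGroup U] [Module F U] [AddCommGroup V] [Module F V]
  {T : Type*} {s : T → End F U →ₐ[F] End F V}

theorem exists_not_mem_two (h : 2 ≤ finrank F U) (a b : U) :
    ∃ y, y ∉ Submodule.span F {a} ∧ y ∉ Submodule.span F {b} := by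
  have key : ∀ a : U, ∃ y, y ∉ Submodule.span F {a} := fun a => by
    by_contra h'
    push Not at h'
    have := (finrank_span_le_card (R := F) ({a} : Set U))
    rw [show Submodule.span F {a} = ⊤ from eq_top_iff.2 fun x _ => h' x, finrank_top] at this
    simp at this; omega
  obtain ⟨x, hx⟩ := key a
  obtain ⟨y, hy⟩ := key b
  by_cases h1 : x ∈ Submodule.span F {b}
  · by_cases h2 : y ∈ Submodule.span F {a}
    · exact ⟨x + y, fun h => hx (by simpa using sub_mem h h2), fun h => hy (by simpa using sub_mem h h1)⟩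
    · exact ⟨y, h2, hy⟩
  · exact ⟨x, hx, h1⟩

theorem not_mem_span_symm' {a b : U} (ha : a ≠ 0) (h : b ∉ Submodule.span F {a}) :
    a ∉ Submodule.span F {b} := fun h1 => by
  obtain ⟨c, rfl⟩ := Submodule.mem_span_singleton.1 h1
  exact h ((Submodule.smul_mem_iff _ (left_ne_zero_of_smul ha)).1
    (Submodule.mem_span_singleton_self _))

theorem not_mem_span_map (α : U ≃ₗ[F] U) {a b : U} (h : b ∉ Submodule.span F {α.symm a}) :
    α b ∉ Submodule.span F {a} := fun h1 => by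
  obtain ⟨c, hc⟩ := Submodule.mem_span_singleton.1 h1
  exact h (Submodule.mem_span_singleton.2 ⟨c, by rw [← map_smul, hc, α.symm_apply_apply]⟩)

/-- `V` is a tensor power of `U`. -/
structure TP (s : T → End F U →ₐ[F] End F V) : Prop where
  comm : ∀ {i j}, i ≠ j → ∀ a, s j a ∈ Cm (s i)
  gen : ∀ A : Subalgebra F (End F V), (∀ i a, s i a ∈ A) → A = ⊤
  two : 2 ≤ finrank F U
  nt : Nontrivial V

namespace TP

variable (h : TP s)
include h

theorem ntU : Nontrivial U := Module.nontrivial_of_finrank_pos (R := F) (by have := h.two; omega)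

theorem r_mem {i j : T} (hij : i ≠ j) (u : U) (φ : Dual F U) : r (s j) u φ ∈ Cm (s i) :=
  h.comm hij _

theorem scalar {E : End F V} (hE : ∀ i, E ∈ Cm (s i)) : ∃ c : F, E = c • 1 := by
  have h1 := h.gen (Subalgebra.centralizer F {E}) fun i a => by
    simpa [Subalgebra.mem_centralizer_iff] using (mem_Cm.1 (hE i) a).symm
  obtain ⟨c, hc⟩ := scalar_of_forall_mem_span (f := E) fun v => by
    by_cases hv : v = 0
    · simp [hv]
    obtain ⟨φ, hφ⟩ := exists_dual_one_of_ne (F := F) hv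
    have h2 : φ.smulRight v ∈ Subalgebra.centralizer F {E} := h1 ▸ Algebra.mem_top
    have h3 := LinearMap.congr_fun ((Subalgebra.mem_centralizer_iff F).1 h2 E rfl) v
    exact Submodule.mem_span_singleton.2 ⟨φ (E v), by simpa [hφ] using h3.symm⟩
  exact ⟨c, LinearMap.ext hc⟩

theorem eq_top {Z : Submodule F V} (hZ : ∀ i a, ∀ v ∈ Z, s i a v ∈ Z) {z : V} (hz : z ∈ Z)
    (h0 : z ≠ 0) (v : V) : v ∈ Z := by
  let A : Subalgebra F (End F V) :=
    { carrier := {E | ∀ v ∈ Z, E v ∈ Z}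
      mul_mem' ha hb v hv := ha _ (hb v hv)
      add_mem' ha hb v hv := Z.add_mem (ha v hv) (hb v hv)
      algebraMap_mem' c v hv := Z.smul_mem c hv }
  obtain ⟨φ, hφ⟩ := exists_dual_one_of_ne (F := F) h0
  have h2 : φ.smulRight v ∈ A := h.gen A hZ ▸ Algebra.mem_top
  simpa [hφ] using h2 z hz

variable [FiniteDimensional F U]

theorem mem_range {i : T} {E : End F V} (hE : ∀ l, l ≠ i → E ∈ Cm (s l)) : ∃ a, E = s i a := by
  have key : ∀ φ z, ∃ c : F, co (s i) E φ z = c • 1 := fun φ z => h.scalar fun l => by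
    by_cases hl : l = i
    · exact hl ▸ co_mem _ _ _
    · exact mem_Cm.2 fun a => co_comm (h.comm (Ne.symm hl) a) (mem_Cm.1 (hE l hl) a) φ z
  choose c hc using key
  refine ⟨∑ a, ∑ b, c ((finBasis F U).coord a) (finBasis F U b) •
    ((finBasis F U).coord b).smulRight (finBasis F U a), ?_⟩
  rw [eq_sum_co (s := s i) E]
  simp only [hc, map_sum, map_smul, mul_smul_comm, mul_one, r_def]

theorem mem_of_Cm {i : T} {A : Subalgebra F (End F V)} (hA : ∀ l, l ≠ i → ∀ a, s l a ∈ A)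
    (hC : A ≤ Cm (s i)) {E : End F V} (hE : E ∈ Cm (s i)) : E ∈ A := by
  let B : Subalgebra F (End F V) :=
    { carrier := {N | ∀ φ z, co (s i) N φ z ∈ A}
      mul_mem' {N M} hN hM φ z := by
        have : co (s i) (N * M) φ z = ∑ a, co (s i) N φ (finBasis F U a) *
            co (s i) M ((finBasis F U).coord a) z := by
          have := h.ntU
          obtain ⟨u, hu⟩ := exists_ne (0 : U)
          obtain ⟨θ, hθ⟩ := exists_dual_one_of_ne (F := F) hu
          refine r_mul_cancel hu (φ := θ) (by rintro rfl; simp at hθ) (co_mem _ _ _)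
            (Subalgebra.sum_mem _ fun _ _ => mul_mem (co_mem _ _ _) (co_mem _ _ _)) ?_
          rw [← r_co, Finset.mul_sum]
          conv_lhs => rw [← mul_one N, ← sum_r (s i)]
          simp only [Finset.mul_sum, Finset.sum_mul]
          refine Finset.sum_congr rfl fun a _ => ?_
          rw [← mul_assoc _ (co _ _ _ _), ← r_co, mul_assoc _ (r _ _ θ), ← r_co]
          simp only [mul_assoc]
        exact this ▸ A.sum_mem fun _ _ => A.mul_mem (hN _ _) (hM _ _)
      add_mem' {N M} hN hM φ z := by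
        simpa [co_def, mul_add, add_mul, Finset.sum_add_distrib] using A.add_mem (hN φ z) (hM φ z)
      algebraMap_mem' c φ z := by
        simpa [co_def, Algebra.algebraMap_eq_smul_one, ← Finset.smul_sum, sum_r] using
          A.smul_mem (A.smul_mem A.one_mem (φ z)) c }
  have key : ∀ {G}, G ∈ Cm (s i) → ∀ φ z, co (s i) G φ z = φ z • G := fun hG φ z => by
    simp [co_def, mul_assoc, Cm_r hG, ← Finset.smul_sum, ← Finset.sum_mul, sum_r]
  have h1 : E ∈ B := h.gen B (fun l a φ z => by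
    by_cases hl : l = i
    · subst hl
      simpa [co_def, mul_assoc, s_mul_r, ← Finset.smul_sum, sum_r] using
        A.smul_mem A.one_mem (φ (a z))
    · exact key (hC (hA l hl a)) φ z ▸ A.smul_mem (hA l hl a) _) ▸ Algebra.mem_top
  have := h.ntU
  obtain ⟨u, hu⟩ := exists_ne (0 : U)
  obtain ⟨θ, hθ⟩ := exists_dual_one_of_ne (F := F) hu
  simpa [key hE, hθ] using h1 θ u

theorem nm_one {i j : T} (h1 : Nm 1 (s i) (s j)) : i = j := by
  by_contra hij
  have := h.nt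
  have := h.ntU
  obtain ⟨u, hu⟩ := exists_ne (0 : U)
  obtain ⟨y, hy, -⟩ := exists_not_mem_two (F := F) h.two u u
  obtain ⟨φ, h2, h3⟩ := exists_dual_one_zero hy
  obtain ⟨θ, hθ⟩ := exists_dual_one_of_ne (F := F) hu
  obtain ⟨a, ha⟩ := h1 (φ.smulRight u)
  have h4 : r (s i) u φ ∈ Cm (s i) := by
    simp only [LinearEquiv.coe_toLinearMap_one, End.mul_eq_comp, LinearMap.id_comp,
      LinearMap.comp_id] at ha
    exact (r_def _ _ _).trans ha ▸ h.comm hij a
  have h5 := Cm_r h4 u θ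
  simp only [r_mul, h3, hθ, zero_smul, one_smul] at h5
  exact r_ne_zero hu (by rintro rfl; simp at h2) h5.symm

theorem nm_unique {g : V ≃ₗ[F] V} {i j k : T} (h1 : Nm g (s i) (s j)) (h2 : Nm g (s i) (s k)) :
    j = k := by
  have := h.nt
  have := h.ntU
  exact h.nm_one (mul_inv_cancel g ▸ h2.mul h1.symm)

theorem nm_inj {g : V ≃ₗ[F] V} {i j k : T} (h1 : Nm g (s i) (s k)) (h2 : Nm g (s j) (s k)) :
    i = j := by
  have := h.nt
  have := h.ntU
  exact h.nm_unique h1.symm h2.symm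

theorem exists_pure [Finite T] {x : T → U} (hx : ∀ l, x l ≠ 0) : ∃ v, v ≠ 0 ∧ ∀ l, v ∈ L (s l) (x l) := by
  classical
  have := Fintype.ofFinite T
  have key : ∀ S : Finset T, ∃ v, v ≠ 0 ∧ ∀ l ∈ S, v ∈ L (s l) (x l) := fun S => by
    induction S using Finset.induction_on with
    | empty => have := h.nt; exact let ⟨v, hv⟩ := exists_ne (0 : V); ⟨v, hv, by simp⟩
    | insert l S hl ih =>
      obtain ⟨v, hv, h1⟩ := ih
      obtain ⟨φ, hφ⟩ : ∃ φ, r (s l) (x l) φ v ≠ 0 := by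
        by_contra h'; push Not at h'; exact hv (eq_zero_of_r (hx l) h')
      refine ⟨_, hφ, fun j hj => ?_⟩
      rcases Finset.mem_insert.1 hj with rfl | hj
      · exact r_mem_L _ _ _
      · exact Cm_mem_L (h.r_mem (i := j) (j := l) (fun e => hl (e ▸ hj)) _ _) (h1 j hj)
  exact let ⟨v, h1, h2⟩ := key Finset.univ; ⟨v, h1, fun l => h2 l (Finset.mem_univ l)⟩

/-- The stabiliser of the decomposition. -/
def Wr [Finite T] : Subgroup (V ≃ₗ[F] V) where
  carrier := {g | ∀ i, ∃ j, Nm g (s i) (s j)}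
  mul_mem' ha hb i := let ⟨j, h1⟩ := hb i; let ⟨k, h2⟩ := ha j; ⟨k, h2.mul h1⟩
  one_mem' i := ⟨i, nm_of_Cm (one_mem _)⟩
  inv_mem' {g} hg i := by
    choose π hπ using hg
    obtain ⟨j, rfl⟩ := Finite.surjective_of_injective (f := π)
      (fun a b e => h.nm_inj (hπ a) (e ▸ hπ b)) i
    have := h.nt
    have := h.ntU
    exact ⟨j, (hπ j).symm⟩

variable [Finite T]

theorem mem_Wr {g : V ≃ₗ[F] V} : g ∈ h.Wr ↔ ∀ i, ∃ j, Nm g (s i) (s j) := Iff.rfl

theorem exists_perm {g : V ≃ₗ[F] V} (hg : g ∈ h.Wr) :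
    ∃ (π : Equiv.Perm T) (α : T → U ≃ₗ[F] U), ∀ i, Nma g (s i) (s (π i)) (α i) := by
  have := h.nt
  have := h.ntU
  choose π hπ using hg
  choose α hα using fun i => (hπ i).nma
  exact ⟨Equiv.ofBijective π (Finite.injective_iff_bijective.1
    fun a b e => h.nm_inj (hπ a) (e ▸ hπ b)), α, hα⟩

theorem mem_Wr_of_eq {g : V ≃ₗ[F] V} {i : T} {a : End F U} (e : (g : End F V) = s i a) :
    g ∈ h.Wr := fun l => ⟨l, by
  by_cases hl : l = i
  · subst hl
    obtain ⟨b, hb⟩ := h.mem_range (i := l) (E := (g⁻¹ : V ≃ₗ[F] V)) fun j hj => mem_Cm.2 fun c => by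
      have := mem_Cm.1 (e ▸ h.comm hj a) c
      rw [← one_mul (s j c * _), ← coe_inv_mul g, mul_assoc, ← mul_assoc _ (s j c), ← this,
        mul_assoc, coe_mul_inv, mul_one]
    exact fun c => ⟨a * c * b, by rw [map_mul, map_mul, ← e, ← hb, mul_assoc, coe_inv_mul, mul_one]⟩
  · exact nm_of_Cm (e ▸ h.comm hl a)⟩

omit [Finite T] in
theorem Cm_of_scalar {g : V ≃ₗ[F] V} {i : T} {α : U ≃ₗ[F] U} (h1 : Nma g (s i) (s i) α)
    (h2 : ∀ v, α v ∈ Submodule.span F {v}) : (g : End F V) ∈ Cm (s i) := by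
  obtain ⟨c, hc⟩ := scalar_of_forall_mem_span (f := (α : End F U)) h2
  obtain ⟨β, hβ, e, -⟩ := h1.exists_Cm
  rw [e, show (α : End F U) = c • 1 from LinearMap.ext hc, map_smul, map_one]
  exact mul_mem (Subalgebra.smul_mem _ (one_mem _) _) hβ

/-- Quadratic elements of `Wr` in odd characteristic. -/
theorem rec_odd (h2 : (2 : F) ≠ 0) {g : V ≃ₗ[F] V} (hg : g ∈ h.Wr) {A : End F V}
    (e : (g : End F V) = 1 + A) (hA : A * A = 0) (hA0 : A ≠ 0) : ∃ j a, A = s j a := by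
  classical
  have := h.nt
  have := h.ntU
  obtain ⟨π, α, hα⟩ := h.exists_perm hg
  have key : ∀ x : T → U, (∀ l, x l ≠ 0) → ∀ i j, i ≠ j →
      α i (x i) ∉ Submodule.span F {x (π i)} → α j (x j) ∉ Submodule.span F {x (π j)} → False := by
    intro x hx i j hij hi hj
    obtain ⟨v, hv, h1⟩ := h.exists_pure hx
    have h3 : g (g v) = (2 : F) • g v - v := by
      have h4 : ∀ v, g v = v + A v := LinearMap.congr_fun e
      have h5 : A (A v) = 0 := LinearMap.congr_fun hA v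
      rw [h4, h4, map_add, h5]; module
    obtain ⟨φ, h4, h5⟩ := exists_dual_one_zero hj
    have h6 := fun l => (hα l).mem_L (h1 l)
    obtain ⟨k, hk⟩ := π.surjective i
    have h7 := (hα i).mem_L (hk ▸ h6 k)
    have hne := π.injective.ne hij
    have h8 : r (s (π j)) (α j (x j)) φ (g (g v)) = (2 : F) • g v := by
      rw [h3, map_sub, map_smul, r_eq_of_mem_L h4 (h6 j), h1 _ φ h5, sub_zero]
    have h9 := h8 ▸ Cm_mem_L (h.r_mem hne (α j (x j)) φ) h7
    have h10 : α i (α k (x k)) ∈ Submodule.span F {α i (x i)} := by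
      by_contra h0
      exact hv (by simpa [h2] using eq_zero_of_mem_L h0 h9 (Submodule.smul_mem _ _ (h6 i)))
    refine hv (eq_zero_of_mem_L hi ?_ (h1 _))
    rw [show v = (2 : F) • g v - g (g v) by rw [h3]; abel]
    exact sub_mem (Submodule.smul_mem _ _ (h6 i)) (L_le_of_mem_span h10 h7)
  have hπ : ∀ i, π i = i := fun i => by
    by_contra hi
    obtain ⟨u, hu⟩ := exists_ne (0 : U)
    obtain ⟨k, hk⟩ := π.surjective i
    have hki : k ≠ i := by rintro rfl; exact hi hk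
    obtain ⟨y, h1, h3⟩ := exists_not_mem_two (F := F) h.two (α i u) ((α k).symm u)
    refine key (fun l => if l = i then u else y) (fun l => ?_) i k hki.symm ?_ ?_
    · split_ifs
      · exact hu
      · rintro rfl; simp at h1
    · simpa [hi] using not_mem_span_symm' (by simpa using hu) h1
    · simpa [hki, hk] using not_mem_span_map _ h3
  simp only [hπ] at hα key
  have hC : ∀ {l}, (g : End F V) ∈ Cm (s l) → A ∈ Cm (s l) := fun h1 => by
    simpa [e] using sub_mem h1 (one_mem _)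
  by_cases hs : ∃ j v, α j v ∉ Submodule.span F {v}
  · obtain ⟨j, v, hv⟩ := hs
    refine ⟨j, h.mem_range fun l hl => hC (h.Cm_of_scalar (hα l) fun w => ?_)⟩
    by_contra hw
    refine key (fun k => if k = l then w else v) (fun k => ?_) l j hl (by simpa) (by simpa [hl.symm])
    split_ifs
    · rintro rfl; simp at hw
    · rintro rfl; simp at hv
  push Not at hs
  obtain ⟨c, rfl⟩ := h.scalar fun l => hC (h.Cm_of_scalar (hα l) (hs l))
  simp_all

variable [FiniteDimensional F V]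

omit [Finite T] in
theorem rank_one {j : T} {a : End F U} (hd : finrank F (LinearMap.range (s j a)) ≤ dd F U V)
    (ha : s j a ≠ 0) : ∃ u φ, u ≠ 0 ∧ φ ≠ 0 ∧ s j a = r (s j) u φ := by
  obtain ⟨y, hy⟩ : ∃ y, a y ≠ 0 := by
    by_contra h'; push Not at h'; exact ha (by rw [show a = 0 from LinearMap.ext h', map_zero])
  obtain ⟨θ, hθ⟩ := exists_dual_one_of_ne (F := F) hy
  have hθ0 : θ ≠ 0 := by rintro rfl; simp at hθ
  have h1 := eq_range_of_le hy hθ0 (P := 1) (T := s j a * r (s j) y θ)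
    (Z := LinearMap.range (s j a)) (by rw [one_mul, s_mul_r]) (fun v => ⟨_, rfl⟩) hd
  rw [s_mul_r, range_r hy hθ0] at h1
  refine ⟨a y, θ ∘ₗ a, hy, fun h0 => by simpa [hθ] using LinearMap.congr_fun h0 y, ?_⟩
  rw [← r_mul_s]
  ext v
  exact (r_eq_of_mem_L hθ (h1 ▸ LinearMap.mem_range_self _ v)).symm

omit [Finite T] in
/-- An element of small rank normalising a factor of dimension at least three and acting on it
as a non-scalar. -/
theorem range_le_L (h3 : 3 ≤ finrank F U) {g : V ≃ₗ[F] V} {i : T} {α : U ≃ₗ[F] U}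
    (h1 : Nma g (s i) (s i) α) {A : End F V} (e : (g : End F V) = 1 + A)
    (hd : finrank F (LinearMap.range A) ≤ dd F U V) {y : U} (hy : α y ∉ Submodule.span F {y}) :
    ∃ u, u ≠ 0 ∧ ∀ v, A v ∈ L (s i) u := by
  obtain ⟨β, hβ, -, e1⟩ := h1.exists_Cm
  have key : ∀ y, α y ∉ Submodule.span F {y} → ∃ θ : Dual F U, θ y = 1 ∧ θ (α y) = 0 ∧
      ∀ v, ∃ z, A v = r (s i) (α y) θ (β z) - r (s i) y θ z := fun y hy => by
    have hy0 : y ≠ 0 := by rintro rfl; simp at hy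
    obtain ⟨θ, h4, h5⟩ := exists_dual_one_zero (not_mem_span_symm' hy0 hy)
    have e2 : A * r (s i) y θ = r (s i) (α y) θ * β - r (s i) y θ := by
      rw [← e1, e, add_mul, one_mul, add_sub_cancel_left]
    have h6 := eq_range_of_le (s := s i) hy0 (φ := θ) (by rintro rfl; simp at h4) (P := -r (s i) y θ)
      (T := A * r (s i) y θ) (Z := LinearMap.range A) (by simp [e2, mul_sub, h4, h5])
      (fun v => ⟨_, rfl⟩) hd
    refine ⟨θ, h4, h5, fun v => ?_⟩
    obtain ⟨z, hz⟩ := h6 ▸ LinearMap.mem_range_self A v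
    exact ⟨z, by rw [← hz, e2]; rfl⟩
  obtain ⟨θ, h4, h5, h6⟩ := key y hy
  obtain ⟨ψ, hψ, h7, h8⟩ := exists_ann_two h3 y (α y)
  obtain ⟨y', h9, hy'⟩ : ∃ y', ψ y' = 1 ∧ α y' ∉ Submodule.span F {y'} := by
    obtain ⟨w, hw⟩ := exists_apply_eq_one hψ
    by_cases h0 : α w ∈ Submodule.span F {w}
    · refine ⟨y + w, by simp [h7, hw], fun h9 => hy ?_⟩
      obtain ⟨c, hc⟩ := Submodule.mem_span_singleton.1 h0
      obtain ⟨c', hc'⟩ := Submodule.mem_span_singleton.1 h9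
      rw [map_add, ← hc] at hc'
      have := congrArg ψ hc'
      simp only [map_smul, map_add, h7, h8, hw, smul_eq_mul, zero_add, mul_one] at this
      exact Submodule.mem_span_singleton.2 ⟨c, by linear_combination (norm := module) hc' - this • (y + w)⟩
    · exact ⟨w, hw, h0⟩
  obtain ⟨θ', h10, h11, h12⟩ := key y' hy'
  refine ⟨α y' - ψ (α y') • y', fun h0 => hy' (sub_eq_zero.1 h0 ▸ Submodule.smul_mem _ _
    (Submodule.mem_span_singleton_self _)), fun v => ?_⟩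
  obtain ⟨z, hz⟩ := h6 v
  obtain ⟨z', hz'⟩ := h12 v
  have h13 := congrArg (r (s i) y' ψ) (hz.symm.trans hz')
  simp only [map_sub, r_r, h7, h8, h9, zero_smul, sub_zero, one_smul] at h13
  rw [hz', ← sub_eq_zero.1 h13.symm, ← LinearMap.smul_apply, ← LinearMap.sub_apply,
    ← LinearMap.smul_apply, ← map_smul, ← LinearMap.sub_apply, ← map_sub]
  exact r_mem_L _ _ _

/-- Involutions of small rank in `Wr`. -/
theorem rec_two (h3 : 3 ≤ finrank F U) {g : V ≃ₗ[F] V} (hg : g ∈ h.Wr) (h2 : g * g = 1) {A : End F V}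
    (e : (g : End F V) = 1 + A) (hA : A * A = 0) (hA0 : A ≠ 0)
    (hd : finrank F (LinearMap.range A) ≤ dd F U V) : (∃ j u, u ≠ 0 ∧ ∀ v, A v ∈ L (s j) u) ∨
      (finrank F U = 3 ∧ ∃ i j, i ≠ j ∧ Nm g (s i) (s j) ∧
        ∀ u φ, φ u = 1 → r (s i) u φ * (g * r (s i) u φ * g) * A = 0) := by
  have := h.nt
  obtain ⟨π, α, hα⟩ := h.exists_perm hg
  by_cases hπ : ∀ i, π i = i
  · simp only [hπ] at hα
    by_cases hs : ∃ j v, α j v ∉ Submodule.span F {v}
    · obtain ⟨j, v, hv⟩ := hs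
      exact Or.inl ⟨j, h.range_le_L h3 (hα j) e hd hv⟩
    push Not at hs
    obtain ⟨c, rfl⟩ := h.scalar (E := A) fun l => by
      simpa [e] using sub_mem (h.Cm_of_scalar (hα l) (hs l)) (one_mem _)
    simp_all
  push Not at hπ
  obtain ⟨i, hi⟩ := hπ
  have gg : (g : End F V) * g = 1 := by rw [← LinearEquiv.coe_toLinearMap_mul, h2]; rfl
  obtain ⟨t, ht⟩ : ∃ t : U → Dual F U → End F V, ∀ u φ, t u φ = g * r (s i) u φ * g := ⟨_, fun _ _ => rfl⟩
  have t1 : ∀ u φ, t u φ ∈ Cm (s i) := fun u φ => by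
    rw [ht, hα i, mul_assoc, gg, mul_one]; exact h.r_mem hi.symm _ _
  have t2 : ∀ u φ w ψ E, t u φ * (t w ψ * E) = φ w • (t u ψ * E) := fun u φ w ψ E => by
    simp only [ht, mul_assoc, ← mul_assoc (g : End F V) g, gg, one_mul, r_mul', mul_smul_comm]
  have t3 : ∀ u φ E, g * (t u φ * E) = r (s i) u φ * (g * E) := fun u φ E => by
    simp only [ht, mul_assoc, ← mul_assoc (g : End F V) g, gg, one_mul]
  have t4 : ∀ u φ E, g * (r (s i) u φ * E) = t u φ * (g * E) := fun u φ E => by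
    simp only [ht, mul_assoc, ← mul_assoc (g : End F V) g, gg, one_mul]
  have eA : A = g - 1 := by rw [e, add_sub_cancel_left]
  have key : ∀ (u₁ : U) (φ₁ : Dual F U), φ₁ u₁ = 1 → ∃ (u₂ u₃ : U) (φ₂ : Dual F U), φ₂ u₂ = 1 ∧
      ∀ (a : U) (φ : Dual F U) (b : U) (ψ : Dual F U), (φ u₁ = 0 ∨ a = u₁ ∧ φ = φ₁) →
      (ψ u₁ = 0 ∨ b = u₁ ∧ ψ = φ₁) → (φ u₁ = 0 ↔ ψ u₁ = 0) → (φ u₂ = 0 ∨ ψ u₃ = 0) →
      (φ u₃ = 0 ∨ ψ u₂ = 0) → φ₂ u₁ = 0 ∧ φ₂ u₃ = 0 ∧ φ₁ u₂ = 0 ∧ φ₁ u₃ = 0 ∧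
        r (s i) a φ * t b ψ * A = 0 := fun u₁ φ₁ h11 => by
    have hu : u₁ ≠ 0 := by rintro rfl; simp at h11
    obtain ⟨u₂, h12, h4⟩ := exists_ker_not_mem h3 φ₁ hu
    obtain ⟨φ, h5, h6⟩ := exists_dual_one_zero h4
    obtain ⟨u₃, hu₃, h13, h23⟩ := exists_ker_two h3 φ₁ φ
    obtain ⟨χ, hχ⟩ := exists_dual_one_of_ne (F := F) hu₃
    obtain ⟨φ₃, h31, h32, h33⟩ : ∃ φ₃ : Dual F U, φ₃ u₁ = 0 ∧ φ₃ u₂ = 0 ∧ φ₃ u₃ = 1 :=
      ⟨χ - χ u₁ • φ₁ - χ u₂ • φ, by simp [h11, h6], by simp [h12, h5], by simp [h13, h23, hχ]⟩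
    have h7 := eq_range_of_le (s := s i) (Z := LinearMap.range A) hu (φ := φ₁)
      (by rintro rfl; simp at h11)
      (P := -(r (s i) u₁ φ₁ - r (s i) u₁ φ₁ * t u₁ φ₁ + r (s i) u₁ φ * t u₁ φ₃))
      (T := A * (r (s i) u₁ φ₁ * 1 - r (s i) u₁ φ₁ * (t u₁ φ₁ * 1) + r (s i) u₂ φ₁ * (t u₃ φ₁ * 1)))
      (by
        simp only [eA, mul_add, mul_sub, add_mul, sub_mul, neg_mul, mul_assoc, one_mul, t2, t3, t4,
          Cm_r' (t1 _ _), r_mul', mul_smul_comm, h11, h12, h13, h5, h6, h23, h31, h32, h33,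
          zero_smul, one_smul, smul_zero]
        simp only [mul_one, mul_zero]
        abel) (fun v => ⟨_, rfl⟩) hd
    refine ⟨u₂, u₃, φ, h5, fun a φ' b ψ c1 c2 c3 c4 c5 => ⟨h6, h23, h12, h13, LinearMap.ext fun v => ?_⟩⟩
    obtain ⟨z, hz⟩ := h7 ▸ LinearMap.mem_range_self A v
    rw [End.mul_apply, ← hz, ← End.mul_apply]
    refine LinearMap.congr_fun (g := 0) ?_ z
    simp only [eA, mul_add, mul_sub, add_mul, sub_mul, mul_assoc, one_mul, t2, t3, t4,
      Cm_r' (t1 _ _), r_mul', mul_smul_comm, smul_smul]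
    rcases c1 with c1 | ⟨rfl, rfl⟩ <;> rcases c2 with c2 | ⟨rfl, rfl⟩
    · rcases c4 with c4 | c4 <;> rcases c5 with c5 | c5 <;> simp [c1, c2, c4, c5]
    · simp [c1, h11] at c3
    · simp [c2, h11] at c3
    · simp [h11, h12, h13]
  refine Or.inr ⟨?_, i, π i, hi.symm, (hα i).nm, fun u φ h1 => ?_⟩
  · by_contra h4
    have := h.ntU
    obtain ⟨u₁, hu⟩ := exists_ne (0 : U)
    obtain ⟨φ₁, h11⟩ := exists_dual_one_of_ne (F := F) hu
    obtain ⟨u₂, u₃, φ₂, h5, h6⟩ := key u₁ φ₁ h11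
    obtain ⟨ψ, hψ, h7⟩ := exists_ne_zero_map_eq_zero (LinearMap.pi fun a : Fin 3 =>
      Dual.eval F U (![u₁, u₂, u₃] a)) (by simp; omega)
    have h71 : ψ u₁ = 0 := congrFun h7 0
    have h72 : ψ u₂ = 0 := congrFun h7 1
    have h73 : ψ u₃ = 0 := congrFun h7 2
    obtain ⟨h21, -, -, -, -⟩ := h6 0 0 0 0 (by simp) (by simp) (by simp) (by simp) (by simp)
    obtain ⟨-, -, -, -, h8⟩ := h6 u₂ φ₂ u₁ ψ (Or.inl h21) (Or.inl h71) (by simp [h21, h71])
      (Or.inr h73) (Or.inr h72)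
    have h9 := congrArg (· * (r (s i) u₂ φ₂ * 1)) h8
    simp only [eA, mul_sub, sub_mul, mul_assoc, one_mul, t2, t4, Cm_r' (t1 _ _), r_mul', h72, h5,
      zero_smul, one_smul, mul_zero, zero_mul, zero_sub, neg_eq_zero] at h9
    rw [mul_one] at h9
    have h10 := r_mul_eq_zero (u := u₂) (φ := φ₂) (by rintro rfl; simp at h5)
      (by rintro rfl; simp at h5) (t1 _ _) h9
    have h11 := t3 u₁ ψ g
    rw [h10, gg, mul_one, zero_mul, mul_zero] at h11
    exact r_ne_zero hu hψ h11.symm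
  · obtain ⟨u₂, u₃, φ₂, -, h6⟩ := key u φ h1
    obtain ⟨-, -, h12, h13, -⟩ := h6 0 0 0 0 (by simp) (by simp) (by simp) (by simp) (by simp)
    exact ht u φ ▸ (h6 u φ u φ (Or.inr ⟨rfl, rfl⟩) (Or.inr ⟨rfl, rfl⟩) Iff.rfl (Or.inl h12)
      (Or.inl h13)).2.2.2.2

end TP

end CfsgLib.C7
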