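import Mathlib
import Cfsg.Agent.Lib.C7.Wr

/-!
Overgroups of the root elements of a tensor power: induction on the set of factors.
-/

set_option autoImplicit false

namespace CfsgLib.C7

open Module CfsgLib.ClMax

variable {F U V : Type*} [Field F] [AddCommGroup U] [Module F U] [AddCommGroup V] [Module F V]

section One

variable {s s' : End F U →ₐ[F] End F V} {g x : V ≃ₗ[F] V} {A : End F V}

theorem coe_conj (g : V ≃ₗ[F] V) (hx : (x : End F V) = 1 + A) :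
    ((g * x * g⁻¹ : V ≃ₗ[F] V) : End F V) = 1 + g * A * (g⁻¹ : V ≃ₗ[F] V) := by
  simp only [LinearEquiv.coe_toLinearMap_mul, hx, mul_add, add_mul, mul_one, coe_mul_inv]

theorem conj_sq (g : V ≃ₗ[F] V) (h : A * A = 0) :
    g * A * (g⁻¹ : V ≃ₗ[F] V) * (g * A * (g⁻¹ : V ≃ₗ[F] V)) = 0 := by
  simp only [mul_assoc, ← mul_assoc _ (g : End F V), coe_inv_mul, one_mul]
  rw [← mul_assoc A, h, zero_mul, mul_zero]

theorem conj_ne_zero (g : V ≃ₗ[F] V) (h : A ≠ 0) : g * A * (g⁻¹ : V ≃ₗ[F] V) ≠ 0 := fun e => h (by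
  have := congrArg (fun N => (g⁻¹ : V ≃ₗ[F] V) * N * (g : End F V)) e
  simpa [mul_assoc, ← mul_assoc _ (g : End F V), coe_inv_mul] using this)

theorem inv_mem_Cm (h : (g : End F V) ∈ Cm s) : ((g⁻¹ : V ≃ₗ[F] V) : End F V) ∈ Cm s :=
  mem_Cm.2 fun c => by
    rw [← one_mul (s c * _), ← coe_inv_mul g, mul_assoc, ← mul_assoc _ (s c), ← mem_Cm.1 h c,
      mul_assoc, coe_mul_inv, mul_one]

theorem r_sq {u : U} {φ : Dual F U} (h : φ u = 0) : r s u φ * r s u φ = 0 := by simp [h]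

theorem sq_eq_one (h2 : (2 : F) = 0) (hx : (x : End F V) = 1 + A) (h : A * A = 0) : x * x = 1 :=
  LinearEquiv.toLinearMap_injective (by
    have : A + A = 0 := by rw [← two_smul F, h2, zero_smul]
    rw [LinearEquiv.coe_toLinearMap_mul, hx, add_mul, one_mul, mul_add, h, mul_one, add_zero,
      add_assoc, this, add_zero]; rfl)

theorem coe_eq_s {u : U} {φ : Dual F U} (hx : (x : End F V) = 1 + r s u φ) :
    (x : End F V) = s (1 + φ.smulRight u) := by rw [hx, map_add, map_one, r_def]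

theorem Nma.conj {α : U ≃ₗ[F] U} (h : Nma g s s' α) (u : U) (φ : Dual F U) :
    g * r s u φ * (g⁻¹ : V ≃ₗ[F] V) = r s' (α u) (φ ∘ₗ α.symm) := by
  rw [h, mul_assoc, coe_mul_inv, mul_one]

variable [FiniteDimensional F U]

theorem r_not_mem_Cm [Nontrivial V] {u : U} {φ : Dual F U} (hu : u ≠ 0) (hφ : φ ≠ 0) (h : φ u = 0) :
    r s u φ ∉ Cm s := fun h1 => by
  obtain ⟨θ, hθ⟩ := exists_dual_one_of_ne (F := F) hu
  have h5 := Cm_r h1 u θ
  simp only [r_mul, h, hθ, zero_smul, one_smul] at h5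
  exact r_ne_zero hu hφ h5.symm

theorem map_L_of_conj {u a : U} {φ : Dual F U} (hu : u ≠ 0) (hφ : φ ≠ 0)
    (h : ∀ v, (g * r s u φ * (g⁻¹ : V ≃ₗ[F] V)) v ∈ L s' a) (v : V) (hv : v ∈ L s u) :
    g v ∈ L s' a := by
  obtain ⟨w, rfl⟩ := exists_of_mem_L hu hφ hv
  simpa using h (g w)

theorem map_L_of_comm {u : U} {φ : Dual F U} (hu : u ≠ 0) (hφ : φ ≠ 0)
    (hx : (x : End F V) = 1 + r s u φ) (h : Commute g x) (v : V) (hv : v ∈ L s u) : g v ∈ L s u := by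
  refine map_L_of_conj hu hφ (fun w => ?_) v hv
  have := coe_conj g hx
  rw [h.eq, mul_inv_cancel_right, hx, add_right_inj] at this
  exact this ▸ r_mem_L _ _ _

theorem Nma.exists_smul {α : U ≃ₗ[F] U} {β : End F V} (hβ : β ∈ Cm s)
    (e : ∀ u φ, (g : End F V) * r s u φ = r s (α u) φ * β) {a : U} {χ θ : Dual F U}
    (hχ : χ a = 1) (hθ : θ ≠ 0) (h : ∀ z, r s a χ (g (r s a θ z) - r s a θ z) = 0) :
    χ (α a) • β = 1 := by
  refine r_mul_cancel (u := a) (by rintro rfl; simp at hχ) hθ (Subalgebra.smul_mem _ hβ _)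
    (one_mem _) (LinearMap.ext fun z => ?_)
  have := h z
  rw [show g (r s a θ z) = r s (α a) θ (β z) from LinearMap.congr_fun (e a θ) z] at this
  simpa [hχ, sub_eq_zero] using this

theorem Nma.exists_eq {α : U ≃ₗ[F] U} (hα : Nma g s s α) {a : U} {χ θ : Dual F U}
    (hχ : χ a = 1) (hθ : θ ≠ 0) (h : ∀ z, r s a χ (g (r s a θ z) - r s a θ z) = 0) :
    ∃ b, (g : End F V) = s b := by
  obtain ⟨β, hβ, e1, e⟩ := hα.exists_Cm
  have h1 := Nma.exists_smul hβ e hχ hθ h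
  by_cases hc : χ (α a) = 0
  · exact ⟨0, by rw [← mul_one (g : End F V), ← h1, hc]; simp⟩
  · exact ⟨(χ (α a))⁻¹ • α, by rw [e1, (eq_inv_smul_iff₀ hc).2 h1]; simp⟩

variable [FiniteDimensional F V]

theorem rank_conj {u : U} (hu : u ≠ 0) (φ : Dual F U) :
    finrank F (LinearMap.range (g * r s u φ * (g⁻¹ : V ≃ₗ[F] V) : End F V)) ≤ dd F U V := by
  rw [← finrank_L (s := s) hu]
  refine le_trans (Submodule.finrank_mono ?_) (Submodule.finrank_map_le (g : End F V) _)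
  rintro _ ⟨v, rfl⟩
  exact ⟨_, r_mem_L _ _ _, rfl⟩

end One

variable {T : Type*} {s : T → End F U →ₐ[F] End F V} [FiniteDimensional F U] [Finite T]
  (h : TP s) (Y : Subgroup (V ≃ₗ[F] V)) (P : U → Dual F U → Prop)

/-- Conjugates of root elements in `Wr` come from maps between the subspaces `L`. -/
def Rec : Prop := ∀ g ∈ Y, ∀ x ∈ Y, ∀ i u φ, P u φ → (x : End F V) = 1 + r (s i) u φ →
  g * x * g⁻¹ ∈ h.Wr → ∃ j a, a ≠ 0 ∧ ∀ v ∈ L (s i) u, g v ∈ L (s j) a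

variable (s) in
/-- A rigid group with root elements described by `P`. -/
structure Glob : Prop where
  nz : ∀ {u φ}, P u φ → u ≠ 0 ∧ φ ≠ 0 ∧ φ u = 0
  uin : ∀ {u φ}, P u φ → ∀ i, UIn Y (r (s i) u φ)
  sat : ∀ {i u φ}, u ≠ 0 → φ ≠ 0 → φ u = 0 → UIn Y (r (s i) u φ) → P u φ
  ex : ∃ u φ, P u φ
  kron : ∀ {g}, g ∈ Y → ∀ {i j u φ a}, P u φ → a ≠ 0 → (∀ v ∈ L (s i) u, g v ∈ L (s j) a) →
    Nm g (s i) (s j)

/-- The situation of the inductive step. -/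
structure Core (J : Set T) : Prop where
  nz : ∀ {u φ}, P u φ → u ≠ 0 ∧ φ ≠ 0 ∧ φ u = 0
  uin : ∀ {u φ}, P u φ → ∀ i ∈ J, UIn Y (r (s i) u φ)
  sat : ∀ {i u φ}, u ≠ 0 → φ ≠ 0 → φ u = 0 → UIn Y (r (s i) u φ) → i ∈ J ∧ P u φ
  ex : ∃ u φ, P u φ
  kr : ∀ {g}, g ∈ Y → ∀ {i j u φ a}, i ∈ J → P u φ → a ≠ 0 → (∀ v ∈ L (s i) u, g v ∈ L (s j) a) →
    g ∈ h.Wr
  rig : ∀ {g x}, g ∈ Y → x ∈ Y → ∀ {i u φ}, i ∈ J → P u φ → (x : End F V) = 1 + r (s i) u φ →
    g * x * g⁻¹ ∈ h.Wr → g ∈ h.Wr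
  two : ∃ i ∈ J, ∃ j ∈ J, i ≠ j

variable {h Y P}

theorem Glob.le (G : Glob s Y P) (hr : Rec h Y P)
    (main : ∀ Y' ≤ Y, ∀ J, Core h Y' P J → Y' ≤ h.Wr) : Y ≤ h.Wr := by
  classical
  have := Fintype.ofFinite T
  have := h.nt
  have := h.ntU
  let C : Finset T → Subgroup (V ≃ₗ[F] V) := fun J =>
    { carrier := {g | g ∈ Y ∧ ∀ l ∉ J, (g : End F V) ∈ Cm (s l)}
      mul_mem' ha hb := ⟨mul_mem ha.1 hb.1, fun l hl => mul_mem (ha.2 l hl) (hb.2 l hl)⟩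
      one_mem' := ⟨one_mem _, fun _ _ => one_mem _⟩
      inv_mem' ha := ⟨inv_mem ha.1, fun l hl => inv_mem_Cm (ha.2 l hl)⟩ }
  have key : ∀ J, C J ≤ h.Wr := fun J => by
    induction J using Finset.strongInduction with | H J ih => ?_
    by_cases h2 : ∃ i ∈ J, ∃ j ∈ J, i ≠ j
    swap
    · intro g hg l
      by_cases hl : l ∈ J
      · obtain ⟨a, ha⟩ := h.mem_range (i := l) fun j hj => hg.2 j fun h' => h2 ⟨j, h', l, hl, hj⟩
        exact h.mem_Wr_of_eq ha l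
      · exact ⟨l, nm_of_Cm (hg.2 l hl)⟩
    have uin : ∀ {u φ}, P u φ → ∀ i ∈ J, UIn (C J) (r (s i) u φ) := fun hP i hi =>
      let ⟨x, hx, e⟩ := G.uin hP i
      ⟨x, ⟨hx, fun l hl => e ▸ add_mem (one_mem _) (h.r_mem (i := l) (j := i) (fun e => hl (e ▸ hi)) _ _)⟩, e⟩
    have nm : ∀ g ∈ C J, ∀ i ∈ J, ∀ j, Nm g (s i) (s j) → g ∈ h.Wr := fun g hg i hi j hn l => by
      by_cases hl : l ∈ J
      swap
      · exact ⟨l, nm_of_Cm (hg.2 l hl)⟩
      by_cases hli : l = i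
      · exact ⟨j, hli ▸ hn⟩
      have hj : j ∈ J := by
        by_contra hj
        exact hj (h.nm_inj hn (nm_of_Cm (hg.2 j hj)) ▸ hi)
      obtain ⟨u, φ, hP⟩ := G.ex
      obtain ⟨x, hx, e⟩ := uin hP l hl
      have h1 := mul_mem (mul_mem hg hx) (inv_mem hg)
      obtain ⟨k, a, ha, h3⟩ := hr g hg.1 x hx.1 l u φ hP e (ih _ (Finset.erase_ssubset hj)
        ⟨h1.1, fun k hk => by
          by_cases hkj : k = j
          · exact hkj ▸ hn.conj_Cm (E := x) (e ▸ add_mem (one_mem _) (h.r_mem (Ne.symm hli) _ _)) (by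
              rw [← LinearEquiv.coe_toLinearMap_mul, ← LinearEquiv.coe_toLinearMap_mul,
                inv_mul_cancel_right])
          · exact h1.2 k (by simpa [hkj] using hk)⟩)
      exact ⟨k, G.kron hg.1 hP ha h3⟩
    refine main _ (fun g hg => hg.1) J ⟨G.nz, uin, fun {i u φ} h1 h3 h4 ⟨x, hx, e⟩ =>
      ⟨?_, G.sat h1 h3 h4 ⟨x, hx.1, e⟩⟩, G.ex, fun hg i j u φ a hi hP ha h3 =>
        nm _ hg i hi j (G.kron hg.1 hP ha h3), fun hg hx i u φ hi hP e h3 => ?_, h2⟩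
    · by_contra hi
      exact r_not_mem_Cm h1 h3 h4 (by simpa [e] using sub_mem (hx.2 i hi) (one_mem _))
    · obtain ⟨j, a, ha, h4⟩ := hr _ hg.1 _ hx.1 i u φ hP e h3
      exact nm _ hg i hi j (G.kron hg.1 hP ha h4)
  exact fun g hg => key Finset.univ ⟨hg, by simp⟩

variable [FiniteDimensional F V]

theorem Glob.rec_odd (G : Glob s Y P) (h2 : (2 : F) ≠ 0) : Rec h Y P := by
  intro g _ x _ i u φ hP e h1
  have := h.nt
  obtain ⟨hu, hφ, h0⟩ := G.nz hP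
  have h3 := conj_ne_zero g (r_ne_zero (s := s i) hu hφ)
  obtain ⟨j, a, ha⟩ := h.rec_odd h2 h1 (coe_conj g e) (conj_sq g (r_sq h0)) h3
  obtain ⟨b, ψ, hb, -, h4⟩ := h.rank_one (ha ▸ rank_conj hu φ) (ha ▸ h3)
  exact ⟨j, b, hb, map_L_of_conj hu hφ fun v => ha ▸ h4 ▸ r_mem_L _ _ _⟩

include h in
omit [Finite T] in
theorem TP.Cm_or (h3 : 3 ≤ finrank F U) {g : V ≃ₗ[F] V} {i : T} (h1 : Nm g (s i) (s i))
    {A : End F V} (e : (g : End F V) = 1 + A) (hd : finrank F (LinearMap.range A) ≤ dd F U V) :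
    (g : End F V) ∈ Cm (s i) ∨ ∃ u, u ≠ 0 ∧ ∀ v, A v ∈ L (s i) u := by
  have := h.nt
  have := h.ntU
  obtain ⟨α, hα⟩ := h1.nma
  by_cases hs : ∀ v, α v ∈ Submodule.span F {v}
  · exact Or.inl (h.Cm_of_scalar hα hs)
  · push Not at hs
    exact Or.inr (let ⟨_, hv⟩ := hs; h.range_le_L h3 hα e hd hv)

theorem Glob.rec_two (G : Glob s Y P) (h2 : (2 : F) = 0) (h3 : 3 ≤ finrank F U)
    (three : finrank F U = 3 → ∃ u φ ψ, P u φ ∧ P u ψ ∧ φ + ψ ≠ 0) : Rec h Y P := by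
  intro g hg x hx i u φ hP e h1
  have := h.nt
  have := h.ntU
  obtain ⟨hu, hφ, h0⟩ := G.nz hP
  have xx := sq_eq_one h2 e (r_sq h0)
  have yy := sq_eq_one h2 (coe_conj g e) (conj_sq g (r_sq h0))
  rcases h.rec_two h3 h1 yy (coe_conj g e) (conj_sq g (r_sq h0))
    (conj_ne_zero g (r_ne_zero hu hφ)) (rank_conj hu φ) with ⟨j, a, ha, h4⟩ | ⟨h4, j, k, hjk, h5, -⟩
  · exact ⟨j, a, ha, map_L_of_conj hu hφ h4⟩
  exfalso
  obtain ⟨y, hy⟩ : ∃ y, y = g * x * g⁻¹ := ⟨_, rfl⟩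
  rw [← hy] at h5 yy
  have bar : ∀ {a : V ≃ₗ[F] V} {b}, (a : End F V) = s j b →
      ((y * a * y : V ≃ₗ[F] V) : End F V) ∈ Cm (s j) := fun {a b} e1 => by
    obtain ⟨c, hc⟩ := h5 b
    rw [LinearEquiv.coe_toLinearMap_mul, LinearEquiv.coe_toLinearMap_mul, e1, hc, mul_assoc,
      ← LinearEquiv.coe_toLinearMap_mul, yy]
    exact mul_mem (h.comm hjk c) (one_mem _)
  have cm : ∀ {a a' : V ≃ₗ[F] V} {b b'}, (a : End F V) = s j b → (a' : End F V) = s j b' →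
      Commute a' (y * a * y) := fun e1 e2 => LinearEquiv.toLinearMap_injective (by
    rw [LinearEquiv.coe_toLinearMap_mul, LinearEquiv.coe_toLinearMap_mul (e₁ := y * _ * y), e2]
    exact mem_Cm.1 (bar e1) _)
  have cy : ∀ {a : V ≃ₗ[F] V} {b}, (a : End F V) = s j b → Commute y (a * (y * a * y)) := fun e1 => by
    rw [Commute, SemiconjBy]
    conv_lhs => rw [(cm e1 e1).eq]
    simp only [← mul_assoc, mul_assoc _ y y, yy, one_mul, mul_one]
  have key : ∀ a ∈ Y, ∀ w ψ, P w ψ → (a : End F V) = 1 + r (s j) w ψ →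
      ((g⁻¹ * (a * (y * a * y) * y) * g : V ≃ₗ[F] V) : End F V) ∈ Cm (s i) := by
    intro a ha w ψ hw e1
    obtain ⟨hw0, hψ, h6⟩ := G.nz hw
    have aa := sq_eq_one h2 e1 (r_sq h6)
    have hk := mul_mem (mul_mem (inv_mem hg) ha) (inv_mem (inv_mem hg))
    have e2 := coe_conj g⁻¹ e1
    have hd := rank_conj (g := g⁻¹) (s := s j) hw0 ψ
    have c1 := (cm (coe_eq_s e1) (coe_eq_s e1)).conj g⁻¹
    have c2 := (cy (coe_eq_s e1)).conj g⁻¹
    have c3 := bar (coe_eq_s e1)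
    have e3 : ∀ E : End F V, ((y * a * y : V ≃ₗ[F] V) : End F V) - 1 = E → r (s j) w ψ * E ≠ 0 :=
      fun E e3 h7 => by
        have h8 := r_mul_eq_zero hw0 hψ (e3 ▸ sub_mem c3 (one_mem _)) h7
        have h9 := coe_conj y e1
        rw [inv_eq_of_mul_eq_one_right yy] at h9
        refine conj_ne_zero y (r_ne_zero (s := s j) hw0 hψ) ?_
        rw [inv_eq_of_mul_eq_one_right yy, ← h8, ← e3, h9, add_sub_cancel_left]
    obtain ⟨k, hk'⟩ : ∃ k, k = g⁻¹ * a * g⁻¹⁻¹ := ⟨_, rfl⟩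
    have kk : k⁻¹ = k := inv_eq_of_mul_eq_one_right (by rw [hk', conj_mul, aa]; simp)
    have e4 : g⁻¹ * (a * (y * a * y) * y) * g = k * x * k⁻¹ := by
      rw [kk, mul_assoc a, mul_assoc _ y, yy, hk', hy]; group
    rw [show g⁻¹ * y * g⁻¹⁻¹ = x by rw [hy]; group,
      show g⁻¹ * (a * (y * a * y)) * g⁻¹⁻¹ = k * x * k⁻¹ * x by rw [kk, hk', hy]; group] at c2
    rw [show g⁻¹ * (y * a * y) * g⁻¹⁻¹ = x * k * x⁻¹ by
      rw [inv_eq_of_mul_eq_one_right xx, hk', hy]; group, ← hk'] at c1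
    rw [← hk'] at hk e2
    have nx := h.mem_Wr_of_eq (coe_eq_s e)
    have n1 : Nm x (s i) (s i) := by
      obtain ⟨l, hl⟩ := nx i
      by_cases hli : l = i
      · exact hli ▸ hl
      · exact absurd (h.nm_inj hl (nm_of_Cm (coe_eq_s e ▸ h.comm hli _))).symm hli
    have n2 := (G.kron (mul_mem (mul_mem (mul_mem hk hx) (inv_mem hk)) hx) hP hu
      (map_L_of_comm hu hφ e c2.symm)).mul n1
    rw [mul_assoc, xx, mul_one] at n2
    rw [e4]
    refine (h.Cm_or h3 n2 (coe_conj k e) (rank_conj hu φ)).resolve_right fun ⟨b, hb, h7⟩ => ?_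
    have n3 := G.kron hk hP hb (map_L_of_conj hu hφ h7)
    rcases h.Cm_or h3 n3 e2 hd with h8 | ⟨c, hc, h8⟩
    · have h9 : Commute x k := LinearEquiv.toLinearMap_injective (by
        simpa only [LinearEquiv.coe_toLinearMap_mul, coe_eq_s e] using mem_Cm.1 h8 _)
      have h10 : y * a * y = a := by
        have := h9.conj g
        rw [← hy, show g * k * g⁻¹ = a by rw [hk']; group] at this
        rw [this.eq, mul_assoc, yy, mul_one]
      exact r_not_mem_Cm hw0 hψ h6 (by simpa [h10, e1] using sub_mem c3 (one_mem _))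
    obtain ⟨α, hα⟩ := n3.nma
    obtain ⟨d, hd', -⟩ := exists_not_mem_two (F := F) h.two c c
    obtain ⟨χ, h9, h10⟩ := exists_dual_one_zero hd'
    obtain ⟨b', hb'⟩ := hα.exists_eq h9 hφ fun z => by
      rw [show k (r (s i) d φ z) = _ from LinearMap.congr_fun e2 _]
      simpa using h8 _ χ h10 d
    have e5 : ((g⁻¹ : V ≃ₗ[F] V) * r (s j) w ψ * (g⁻¹⁻¹ : V ≃ₗ[F] V) : End F V) = s i (b' - 1) := by
      rw [map_sub, ← hb', e2, map_one, add_sub_cancel_left]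
    obtain ⟨c₁, χ₁, -, -, h11⟩ := h.rank_one (e5 ▸ hd) (e5 ▸ conj_ne_zero _ (r_ne_zero hw0 hψ))
    rw [e5, h11] at e2
    obtain ⟨α₁, hα₁⟩ := n1.nma
    have e6 := coe_conj x e2
    rw [hα₁.conj] at e6
    have e7 := congrArg LinearEquiv.toLinearMap c1.eq
    have e8 := conj_sq g⁻¹ (r_sq (s := s j) h6)
    rw [e5, h11] at e8
    rw [LinearEquiv.coe_toLinearMap_mul, LinearEquiv.coe_toLinearMap_mul (e₂ := k), e6, e2] at e7
    have e9 : r (s i) c₁ χ₁ * r (s i) (α₁ c₁) (χ₁ ∘ₗ α₁.symm) = 0 := by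
      have e10 : r (s i) c₁ χ₁ * r (s i) (α₁ c₁) (χ₁ ∘ₗ α₁.symm) =
          r (s i) (α₁ c₁) (χ₁ ∘ₗ α₁.symm) * r (s i) c₁ χ₁ := by
        linear_combination (norm := noncomm_ring) e7
      have e11 := congrArg (r (s i) c₁ χ₁ * ·) e10
      simp only [← mul_assoc, e8, zero_mul] at e11
      simp only [r_mul, smul_mul_assoc, smul_smul] at e11 e10 ⊢
      rcases smul_eq_zero.1 e11.symm with h12 | h12
      · rcases mul_eq_zero.1 h12 with h13 | h13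
        · rw [h13, zero_smul]
        · rw [e10, h13, zero_smul]
      · exact absurd (e5.trans (h11.trans h12)) (conj_ne_zero _ (r_ne_zero hw0 hψ))
    refine e3 (g * r (s i) (α₁ c₁) (χ₁ ∘ₗ α₁.symm) * (g⁻¹ : V ≃ₗ[F] V)) ?_ ?_
    · rw [show y * a * y = g * (x * k * x⁻¹) * g⁻¹ by
        rw [inv_eq_of_mul_eq_one_right xx, hk', hy]; group, coe_conj g e6, add_sub_cancel_left]
    · have e10 := congrArg (fun N => (g : End F V) * N * (g⁻¹ : V ≃ₗ[F] V)) (e5.trans h11)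
      simp only [← mul_assoc, coe_mul_inv, one_mul, inv_inv] at e10
      rw [mul_assoc, coe_mul_inv, mul_one] at e10
      rw [e10]
      simp only [mul_assoc, ← mul_assoc _ (g : End F V), coe_inv_mul, one_mul]
      rw [← mul_assoc (r _ _ _), e9, zero_mul, mul_zero]
  obtain ⟨w, ψ, ψ', p1, p2, p3⟩ := three h4
  obtain ⟨a, ha, e1⟩ := G.uin p1 j
  obtain ⟨b, hb, e2⟩ := G.uin p2 j
  obtain ⟨hw, -, h6⟩ := G.nz p1
  obtain ⟨-, -, h7⟩ := G.nz p2
  have e3 : ((a * b : V ≃ₗ[F] V) : End F V) = 1 + r (s j) w (ψ + ψ') := by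
    simp [e1, e2, mul_add, add_mul, h6, add_assoc, add_comm (r (s j) w ψ)]
  have h8 := mul_mem (mul_mem (key a ha _ _ p1 e1) (key b hb _ _ p2 e2)) (key _ (mul_mem ha hb) _ _
    (G.sat hw p3 (by simp [h6, h7]) ⟨_, mul_mem ha hb, e3⟩) e3)
  have aa := sq_eq_one h2 e1 (r_sq h6)
  have bb := sq_eq_one h2 e2 (r_sq h7)
  have c1 := cm (coe_eq_s e1) (coe_eq_s e1)
  have c2 := cm (coe_eq_s e1) (coe_eq_s e2)
  have c3 := cm (coe_eq_s e2) (coe_eq_s e2)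
  have c4 := cm (coe_eq_s e3) (coe_eq_s e3)
  have c5 := cy (coe_eq_s e1)
  have c6 := cy (coe_eq_s e2)
  have e4 : a * b * (y * (a * b) * y) = a * (y * a * y) * (b * (y * b * y)) := by
    rw [mul_assoc a (y * a * y), ← mul_assoc _ b, ← c2.eq]
    simp only [mul_assoc, ← mul_assoc y y, yy, one_mul]
  have e5 : a * b * (y * (a * b) * y) * (a * b * (y * (a * b) * y)) = 1 := by
    have ab := sq_eq_one h2 e3 (r_sq (by simp [h6, h7]))
    generalize a * b = c at c4 ab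
    rw [c4.symm.mul_mul_mul_comm, ab]
    simp only [mul_assoc, ← mul_assoc y y, ← mul_assoc c c, yy, ab, one_mul]
  rw [← LinearEquiv.coe_toLinearMap_mul, ← LinearEquiv.coe_toLinearMap_mul, e4] at h8
  rw [e4] at e5
  generalize a * (y * a * y) = c at h8 e5 c5
  generalize b * (y * b * y) = d at h8 e5 c6
  rw [show g⁻¹ * (c * y) * g * (g⁻¹ * (d * y) * g) * (g⁻¹ * (c * d * y) * g) =
    g⁻¹ * (c * (y * d) * y * (c * d) * y) * g by group, c6.eq, ← mul_assoc c, mul_assoc _ y y, yy,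
    mul_one, e5, one_mul, hy, show g⁻¹ * (g * x * g⁻¹) * g = x by group] at h8
  exact r_not_mem_Cm hu hφ h0 (by simpa [e] using sub_mem h8 (one_mem _))

end CfsgLib.C7
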