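import Mathlib
import Cfsg.Agent.Lib.C7.Ind
import Cfsg.Agent.Lib.C7.Dih
import Cfsg.Agent.Lib.QuadPair.Inv

/-!
The inductive step: quadratic pairs in odd characteristic, dihedral groups in characteristic two.
-/

set_option autoImplicit false

namespace CfsgLib.C7

open Module CfsgLib.ClMax

variable {F U V : Type*} [Field F] [AddCommGroup U] [Module F U] [AddCommGroup V] [Module F V]
  {T : Type*} {s : T → End F U →ₐ[F] End F V} [FiniteDimensional F U] [Finite T]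
  [FiniteDimensional F V] {h : TP s} {Y : Subgroup (V ≃ₗ[F] V)} {P : U → Dual F U → Prop}
  {J : Set T}

theorem finite_equiv [Finite F] : Finite (V ≃ₗ[F] V) :=
  have := Module.finite_of_finite F (M := V)
  Finite.of_injective (fun g : V ≃ₗ[F] V => (g : V → V)) DFunLike.coe_injective

omit [FiniteDimensional F V] in
theorem TP.nm_of_comm (h : TP s) {g : V ≃ₗ[F] V} (hg : g ∈ h.Wr) {i : T} {u : U} {φ : Dual F U}
    (hu : u ≠ 0) (hφ : φ ≠ 0) (h0 : φ u = 0) {a : End F U}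
    (e : (g * r (s i) u φ * (g⁻¹ : V ≃ₗ[F] V) : End F V) = s i a) : Nm g (s i) (s i) := by
  have := h.nt
  have := h.ntU
  obtain ⟨j, hj⟩ := hg i
  by_cases hji : j = i
  · exact hji ▸ hj
  obtain ⟨α, hα⟩ := hj.nma
  exact absurd (hα.conj u φ ▸ e ▸ h.comm hji a) (r_not_mem_Cm (by simpa using hu)
    (fun h1 => hφ (by ext v; simpa using LinearMap.congr_fun h1 (α v))) (by simpa using h0))

namespace Core

variable (C : Core h Y P J)
include C

/-- The central involution of a quadratic pair. -/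
theorem exists_plane [Finite F] (h2 : (2 : F) ≠ 0) (h3 : 3 ≤ finrank F U) {y : V ≃ₗ[F] V}
    (hy : y ∈ Y) (hH : y ∉ h.Wr) {B : End F V} (e : (y : End F V) = 1 + B) (hB : B * B = 0)
    (hd : finrank F (LinearMap.range B) ≤ dd F U V) {i : T} (hi : i ∈ J) {u : U} {φ : Dual F U}
    (hP : P u φ) : ∃ v, ∀ ψ : Dual F U, ψ u = 0 → ψ v = 0 → ∀ w, r (s i) w ψ * B = 0 := by
  have := h.nt
  have := h.ntU
  have := finite_equiv (F := F) (V := V)
  obtain ⟨hu, hφ, h0⟩ := C.nz hP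
  obtain ⟨x, hx, ex⟩ := C.uin hP i hi
  have hp : Fact (ringChar F).Prime := ⟨CharP.char_is_prime F _⟩
  obtain ⟨ι, -, h1, h4, h5, ρ, h6, h7, h8⟩ := QuadPair.exists_invol
    (ρ := LinearEquiv.automorphismGroup.toLinearMapMonoidHom) LinearEquiv.toLinearMap_injective
    (p := ringChar F) (fun h1 => h2 (by simpa [h1] using ringChar.Nat.cast_ringChar (R := F)))
    (by rw [← map_natCast (algebraMap F _), ringChar.Nat.cast_ringChar, map_zero]) (r_sq h0) hB ex e
    hx hy (h.mem_Wr_of_eq (coe_eq_s ex)) hH fun k hk h1 => inv_mem_iff.1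
      (C.rig (inv_mem hk) hx hi hP ex (by rwa [inv_inv]))
  obtain ⟨A, hA⟩ : ∃ A, A = r (s i) u φ := ⟨_, rfl⟩
  have AA : A * A = 0 := hA ▸ r_sq h0
  change (ι : End F V) = _ at h6
  rw [← hA] at h6 h7
  have ii : (ι : End F V) * ι = 1 := by rw [← LinearEquiv.coe_toLinearMap_mul, h4]; rfl
  have cz : Commute ρ (A * B + B * A) := (h7.mul_right h8).add_right (h8.mul_right h7)
  have cA : Commute (ι : End F V) A := h6 ▸ (Commute.one_left _).add_left
    ((QuadPair.comm_z_left AA).mul_left h7)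
  have cB : Commute (ι : End F V) B := h6 ▸ (Commute.one_left _).add_left
    ((QuadPair.comm_z_right hB).mul_left h8)
  obtain ⟨α, hα⟩ := (h.nm_of_comm h1 hu hφ h0 (a := φ.smulRight u) (by
    rw [← r_def, ← hA, cA.eq, mul_assoc, coe_mul_inv, mul_one])).nma
  obtain ⟨E, hE⟩ : ∃ E : End F V, E = ι - 1 := ⟨_, rfl⟩
  have EE : E * E = (-2 : F) • E := by rw [hE, mul_sub, sub_mul, ii, mul_one, one_mul]; module
  have eA : Commute E A := hE ▸ cA.sub_left (Commute.one_left A)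
  have eB : Commute E B := hE ▸ cB.sub_left (Commute.one_left B)
  have h6' : E = (A * B + B * A) * ρ := by rw [hE, h6, add_sub_cancel_left]
  have D : ∀ v, A v = 0 → ι v - v ∈ L (s i) u := fun v hv => by
    rw [← Submodule.smul_mem_iff _ (neg_ne_zero.2 h2), show (-2 : F) • (ι v - v) = (E * E) v by
      rw [EE, hE]; rfl]
    have e2 : E * E = A * (B * ρ * E) + B * ρ * E * A := by
      rw [mul_assoc _ _ A, eA.eq, mul_assoc B ρ (A * E), ← mul_assoc ρ A, h7.eq]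
      conv_lhs => lhs; rw [h6']
      noncomm_ring
    rw [e2, LinearMap.add_apply, End.mul_apply _ A, hv, map_zero, add_zero, hA]
    exact r_mem_L _ _ _
  obtain ⟨a, ha, hau⟩ := exists_ker_not_mem h3 φ hu
  obtain ⟨χ, h9, h10⟩ := exists_dual_one_zero hau
  obtain ⟨b, hb⟩ := hα.exists_eq h9 hφ fun z => D _ (by simp [hA, ha]) χ h10 a
  have D' : ∀ a, φ a = 0 → b a - a ∈ Submodule.span F {u} := fun a ha => by
    by_contra h11
    obtain ⟨χ, h9, h10⟩ := exists_dual_one_zero h11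
    refine r_ne_zero (s := s i) hu hφ (LinearMap.ext fun z => ?_)
    have := D (r (s i) a φ z) (by simp [hA, ha]) χ h10 u
    rw [show ι (r (s i) a φ z) = r (s i) (b a) φ z from LinearMap.congr_fun (hb ▸ s_mul_r _ b a φ) z,
      ← LinearMap.sub_apply, ← LinearMap.sub_apply, ← map_sub, r_r, h9, one_smul] at this
    exact this
  obtain ⟨c, hc⟩ := Submodule.mem_span_singleton.1 (D' u h0)
  have e1 : E * A = c • A := by
    rw [hE, sub_mul, one_mul, hb, hA, s_mul_r, ← LinearMap.sub_apply, ← map_sub, ← hc]; simp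
  have hc0 : c ≠ 0 := by
    rintro rfl
    refine h5 (LinearEquiv.toLinearMap_injective (sub_eq_zero.1 (hE.symm.trans
      ((smul_eq_zero_iff_right (neg_ne_zero.2 h2)).1 ?_))))
    rw [← EE]
    conv_lhs => rhs; rw [h6']
    rw [add_mul, mul_add, ← mul_assoc, ← mul_assoc, ← mul_assoc, ← mul_assoc, eB.eq, mul_assoc B, e1]
    simp
  have hc2 : c = -2 := by
    have e2 := congrArg (· * A) EE
    simp only [mul_assoc, e1, mul_smul_comm, smul_mul_assoc, smul_smul] at e2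
    exact mul_right_cancel₀ hc0 (smul_left_injective F (hA ▸ r_ne_zero hu hφ) e2)
  have h11 := eq_range_of_le (s := s i) hu hφ (P := c⁻¹ • (ρ * A)) (T := B * A)
    (Z := LinearMap.range B) (by
      rw [← hA, smul_mul_assoc, inv_smul_eq_iff₀ hc0, ← e1, h6', ← cz.eq, mul_assoc ρ, mul_assoc ρ,
        add_mul, mul_assoc B, AA, mul_zero, add_zero, mul_assoc]) (fun v => ⟨_, rfl⟩) hd
  obtain ⟨v, hv⟩ := exists_apply_eq_one hφ
  refine ⟨b v - v, fun ψ h12 h13 w => LinearMap.ext fun z => ?_⟩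
  obtain ⟨z', hz⟩ := h11 ▸ LinearMap.mem_range_self B z
  have e3 : r (s i) w ψ * E = 0 := by
    rw [hE, hb, mul_sub, r_mul_s, mul_one, ← map_sub, show ψ ∘ₗ b - ψ = 0 from ?_, map_zero]
    ext a
    obtain ⟨d, hd⟩ := Submodule.mem_span_singleton.1 (D' (a - φ a • v) (by simp [hv]))
    have := congrArg ψ hd
    simp only [map_smul, h12, map_sub, smul_eq_mul] at this h13
    simp only [LinearMap.sub_apply, LinearMap.comp_apply, LinearMap.zero_apply]
    linear_combination φ a * h13 - this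
  rw [End.mul_apply, ← hz, ← End.mul_apply, ← inv_smul_smul₀ hc0 A, ← e1, mul_smul_comm,
    mul_smul_comm, ← mul_assoc B, ← eB.eq, mul_assoc E, ← mul_assoc, e3]
  simp

theorem le_odd [Finite F] (h2 : (2 : F) ≠ 0) (h3 : 3 ≤ finrank F U)
    (sp : ∀ χ : Dual F U, χ ≠ 0 → ∃ u φ, P u φ ∧ χ u ≠ 0) : Y ≤ h.Wr := by
  intro g hg
  by_contra hH
  obtain ⟨u, φ, hP⟩ := C.ex
  obtain ⟨i, hi, -⟩ := C.two
  obtain ⟨hu, hφ, h0⟩ := C.nz hP
  obtain ⟨x, hx, ex⟩ := C.uin hP i hi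
  have key := fun {u' φ'} (hP' : P u' φ') => C.exists_plane h2 h3
    (mul_mem (mul_mem hg hx) (inv_mem hg)) (fun h1 => hH (C.rig hg hx hi hP ex h1)) (coe_conj g ex)
    (conj_sq g (r_sq h0)) (rank_conj hu φ) hi hP'
  obtain ⟨v, hv⟩ := key hP
  obtain ⟨χ, hχ, h4, h5⟩ := exists_ann_two h3 u v
  obtain ⟨u', φ', hP', h6⟩ := sp χ hχ
  obtain ⟨v', hv'⟩ := key hP'
  have h7 : ∀ z, (g * r (s i) u φ * (g⁻¹ : V ≃ₗ[F] V) : End F V) z ∈
      L (s i) (v' - (χ v' / χ u') • u') := fun z ψ h7 w => by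
    have h8 := hv' (ψ - (ψ u' / χ u') • χ) (by simp [h6]) (by
      simp only [map_sub, map_smul, smul_eq_mul, LinearMap.sub_apply, LinearMap.smul_apply] at h7 ⊢
      linear_combination h7) w
    rw [map_sub, map_smul, sub_mul, smul_mul_assoc, hv χ h4 h5, smul_zero, sub_zero] at h8
    exact LinearMap.congr_fun h8 z
  by_cases h8 : v' - (χ v' / χ u') • u' = 0
  · exact hH (C.kr hg hi hP hu (map_L_of_conj hu hφ fun z =>
      L_le_of_mem_span (h8 ▸ zero_mem _) (h7 z)))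
  · exact hH (C.kr hg hi hP h8 (map_L_of_conj hu hφ h7))

omit [FiniteDimensional F V] in
theorem dh (h2 : (2 : F) = 0) (h3 : 3 ≤ finrank F U) (ex : ∀ u φ, P u φ → ∃ u' φ', P u' φ' ∧
    φ u' = 0 ∧ φ' u = 0 ∧ φ'.smulRight u' ≠ φ.smulRight u) : DH (h.Wr.subgroupOf Y) fun i x =>
      i ∈ J ∧ ∃ u φ, P u φ ∧ ((x : V ≃ₗ[F] V) : End F V) = 1 + r (s i) u φ := by
  have := h.nt
  have := h.ntU
  have two : ∀ E : End F V, E + E = 0 := fun E => by rw [← two_smul F, h2, zero_smul]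
  have inj : ∀ {x y : Y}, ((x : V ≃ₗ[F] V) : End F V) = (y : V ≃ₗ[F] V) → x = y := fun e =>
    Subtype.ext (LinearEquiv.toLinearMap_injective e)
  have cj : ∀ {i j u φ} {x g : Y}, P u φ → ((x : V ≃ₗ[F] V) : End F V) = 1 + r (s i) u φ →
      Nm g (s i) (s j) → j ∈ J ∧ ∃ u φ, P u φ ∧
        (((g * x * g⁻¹ : Y) : V ≃ₗ[F] V) : End F V) = 1 + r (s j) u φ := by
    intro i j u φ x g hP e hn
    obtain ⟨α, hα⟩ := hn.nma
    obtain ⟨hu, hφ, h0⟩ := C.nz hP
    have e1 := coe_conj (g : V ≃ₗ[F] V) e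
    rw [hα.conj] at e1
    have h4 := C.sat (by simpa using hu) (fun h1 => hφ (by
      ext v; simpa using LinearMap.congr_fun h1 (α v))) (by simpa using h0) ⟨_, (g * x * g⁻¹).2, e1⟩
    exact ⟨h4.1, _, _, h4.2, e1⟩
  have sq : ∀ {i u φ} {x : Y}, P u φ → ((x : V ≃ₗ[F] V) : End F V) = 1 + r (s i) u φ → x * x = 1 :=
    fun hP e => Subtype.ext (sq_eq_one h2 e (r_sq (C.nz hP).2.2))
  have cm : ∀ {i j u φ} {x : V ≃ₗ[F] V}, i ≠ j → (x : End F V) = 1 + r (s j) u φ →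
      (x : End F V) ∈ Cm (s i) := fun hij e => e ▸ add_mem (one_mem _) (h.r_mem hij _ _)
  have ncm : ∀ {i u φ} {x : V ≃ₗ[F] V}, P u φ → (x : End F V) = 1 + r (s i) u φ →
      (x : End F V) ∉ Cm (s i) := fun hP e h1 => r_not_mem_Cm (C.nz hP).1 (C.nz hP).2.1
        (C.nz hP).2.2 (by simpa [e] using sub_mem h1 (one_mem _))
  have comm : ∀ {i j u φ u' φ'} {x y : Y}, i ≠ j → ((x : V ≃ₗ[F] V) : End F V) = 1 + r (s i) u φ →
      ((y : V ≃ₗ[F] V) : End F V) = 1 + r (s j) u' φ' → Commute x y := fun hij e e' => inj (by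
    simpa only [Subgroup.coe_mul, LinearEquiv.coe_toLinearMap_mul, coe_eq_s e] using
      mem_Cm.1 (cm hij e') _)
  have uq : ∀ {i j l u φ u' φ' a ψ a' ψ'} {x y c d : Y}, i ≠ j → P u' φ' →
      ((x : V ≃ₗ[F] V) : End F V) = 1 + r (s i) u φ → ((y : V ≃ₗ[F] V) : End F V) = 1 + r (s j) u' φ' →
      ((c : V ≃ₗ[F] V) : End F V) = 1 + r (s l) a ψ → ((d : V ≃ₗ[F] V) : End F V) = 1 + r (s i) a' ψ' →
      c * d = x * y → d = x := by
    intro i j l u φ u' φ' a ψ a' ψ' x y c d hij hP ex ey ec ed e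
    have hl : i ≠ l := by
      rintro rfl
      refine ncm hP ey ?_
      rw [show y = x⁻¹ * (c * d) by rw [e]; group]
      exact mul_mem (inv_mem_Cm (cm hij.symm ex)) (mul_mem (cm hij.symm ec) (cm hij.symm ed))
    obtain ⟨v, hv, h4, h5⟩ := exists_ker_two h3 φ ψ'
    obtain ⟨θ, hθ⟩ := exists_dual_one_of_ne (F := F) hv
    have e1 := congrArg (fun g : Y => ((g : V ≃ₗ[F] V) : End F V) * r (s i) v θ) e
    simp only [Subgroup.coe_mul, LinearEquiv.coe_toLinearMap_mul, mul_assoc, Cm_r (cm hij ey), ex,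
      ed, add_mul, one_mul, r_mul, r_mul', h4, h5, zero_smul, add_zero, Cm_r (cm hl ec)] at e1
    rw [inj (r_mul_cancel hv (by rintro rfl; simp at hθ) (cm hl ec) (cm hij ey) e1),
      ← (comm hij ex ey).eq.symm] at e
    exact mul_left_cancel e
  refine ⟨fun ⟨_, _, _, _, e⟩ => h.mem_Wr_of_eq (coe_eq_s e), fun ⟨_, _, _, hP, e⟩ => sq hP e,
    fun {i _ _} ⟨_, _, _, hP, e⟩ hg => let ⟨j, hj⟩ := hg i; ⟨j, cj hP e hj⟩,
    fun {i x y} ⟨_, _, _, hP, e⟩ ⟨_, u, φ, hP', e'⟩ => ?_,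
    fun {_ x g} ⟨hi, _, _, hP, e⟩ h1 => C.rig g.2 x.2 hi hP e h1,
    fun hij ⟨_, _, _, _, e⟩ ⟨_, _, _, _, e'⟩ => comm hij e e',
    fun {i x y k} ⟨hi, u, φ, hP, e⟩ ⟨_, u', φ', hP', e'⟩ hne hc hk h4 h5 => ?_,
    fun {i j l l' x y a b} hij ⟨_, _, _, hP, e⟩ ⟨_, _, _, hP', e'⟩ ⟨_, _, _, _, ea⟩
      ⟨_, _, _, hb, eb⟩ e1 => ?_, fun {i x} ⟨hi, u, φ, hP, e⟩ => ?_⟩
  · obtain ⟨hu, hφ, h0⟩ := C.nz hP'
    have := cj hP e (h.nm_of_comm (h.mem_Wr_of_eq (coe_eq_s e')) hu hφ h0 (a := φ.smulRight u) (by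
      rw [← r_def, show ((y : V ≃ₗ[F] V) : End F V) * r (s i) u φ = r (s i) u φ * (y : V ≃ₗ[F] V) by
        simp [e', mul_add, add_mul], mul_assoc, coe_mul_inv, mul_one]))
    rwa [inv_eq_of_mul_eq_one_right (sq hP' e')] at this
  · obtain ⟨hu, hφ, h0⟩ := C.nz hP
    obtain ⟨hu', hφ', h0'⟩ := C.nz hP'
    have e1 : r (s i) u φ * r (s i) u' φ' = r (s i) u' φ' * r (s i) u φ := by
      have := congrArg (fun g : Y => ((g : V ≃ₗ[F] V) : End F V)) hc.eq
      simp only [Subgroup.coe_mul, LinearEquiv.coe_toLinearMap_mul, e, e'] at this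
      linear_combination (norm := noncomm_ring) this
    by_cases hs : u' ∈ Submodule.span F {u}
    · obtain ⟨c, rfl⟩ := Submodule.mem_span_singleton.1 hs
      have e2 : (((x * y : Y) : V ≃ₗ[F] V) : End F V) = 1 + r (s i) u (φ + c • φ') := by
        simp [e, e', mul_add, add_mul, h0, add_assoc, add_comm (r (s i) u φ)]
      refine C.rig (g := k) k.2 (x * y).2 hi (C.sat hu (fun h6 => hne ?_) (by
        simpa [h0, left_ne_zero_of_smul hu'] using h0') ⟨_, (x * y).2, e2⟩).2 e2 ?_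
      · exact mul_left_cancel ((sq hP e).trans (inj (by rw [e2, h6, map_zero, add_zero]; rfl)))
      · have h7 := inv_zpow_of_inv (sq hP e) h4 (-1)
        simp only [zpow_neg, zpow_one, inv_inv] at h7
        have h8 : k * (x * y) * k⁻¹ = x * y := by
          conv_lhs => lhs; lhs; rw [← h7, ← h5]
          simp only [mul_assoc, ← mul_assoc x x, sq hP e, one_mul, ← mul_assoc y y, sq hP' e',
            mul_inv_cancel, mul_one]
        rw [show (k : V ≃ₗ[F] V) * (x * y : Y) * (k : V ≃ₗ[F] V)⁻¹ = x * y from congrArg Subtype.val h8]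
        exact mul_mem (h.mem_Wr_of_eq (coe_eq_s e)) (h.mem_Wr_of_eq (coe_eq_s e'))
    have z : ∀ v, v ∈ L (s i) u' → v ∈ L (s i) u → v = 0 := fun v => eq_zero_of_mem_L hs
    have e2 : r (s i) u φ * r (s i) u' φ' = 0 := LinearMap.ext fun v =>
      z _ (e1 ▸ r_mem_L _ _ _) (r_mem_L _ _ _)
    obtain ⟨K, hK⟩ : ∃ K : End F V, K = (k : V ≃ₗ[F] V) := ⟨_, rfl⟩
    obtain ⟨K', hK'⟩ : ∃ K : End F V, K = (k⁻¹ : V ≃ₗ[F] V) := ⟨_, rfl⟩
    have th : ∀ {x : Y} {A}, ((x : V ≃ₗ[F] V) : End F V) = 1 + A → x * x = 1 → x * k * x = k⁻¹ →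
        K + K' = A * K + K' * A ∧ A * (K + K') = (K + K') * A := fun {x A} e xx h4 => by
      have h7 := inv_zpow_of_inv xx h4 (-1)
      simp only [zpow_neg, zpow_one, inv_inv] at h7
      have e3 := congrArg (fun g : Y => (((g * x : Y) : V ≃ₗ[F] V) : End F V)) h4
      have e4 := congrArg (fun g : Y => (((g * x : Y) : V ≃ₗ[F] V) : End F V)) h7
      simp only [mul_assoc, xx, mul_one, Subgroup.coe_mul, LinearEquiv.coe_toLinearMap_mul, e,
        Subgroup.coe_inv, ← hK, ← hK'] at e3 e4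
      exact ⟨by linear_combination (norm := noncomm_ring) e3 + two K' - two (A * K),
        by linear_combination (norm := noncomm_ring) e3 + e4⟩
    obtain ⟨h6, h7⟩ := th e (sq hP e) h4
    obtain ⟨h8, h9⟩ := th e' (sq hP' e') h5
    have e3 : r (s i) u φ * (K + K') = 0 := LinearMap.ext fun v => z _ (by
      rw [h7, h8, add_mul, mul_assoc K', ← e1, e2, mul_zero, add_zero]; exact r_mem_L _ _ _)
      (r_mem_L _ _ _)
    have kk : K * K' = 1 := hK ▸ hK' ▸ coe_mul_inv _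
    have kk' : K' * K = 1 := hK ▸ hK' ▸ coe_inv_mul _
    have e4 : (K + K') * (K + K') = 0 := by
      conv_lhs => lhs; rw [h6]
      rw [add_mul, mul_assoc K', e3, mul_assoc, show K * (K + K') = (K + K') * K by
        rw [mul_add, add_mul, kk, kk'], ← mul_assoc, e3]; simp
    have e5 : k ^ 4 = 1 := inj (by
      have : K * K = K' * K' := by
        linear_combination (norm := noncomm_ring) e4 - kk - kk' - two 1 - two (K' * K')
      rw [show k ^ 4 = k * (k * k) * k by simp only [pow_succ, mul_assoc, pow_zero, one_mul]]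
      simp only [Subgroup.coe_mul, LinearEquiv.coe_toLinearMap_mul, ← hK, this]
      rw [← mul_assoc, kk, one_mul, kk']; rfl)
    rw [orderOf_eq_one_iff.1 (((Nat.coprime_two_right.2 hk).pow_right 2).eq_one_of_dvd
      (orderOf_dvd_of_pow_eq_one e5))]
    exact one_mem _
  · by_cases h4 : l' = i
    · exact Or.inl (uq hij hP' e e' ea (h4 ▸ eb) e1)
    by_cases h5 : l' = j
    · exact Or.inr (uq hij.symm hP e' e ea (h5 ▸ eb) (e1.trans (comm hij e e').eq))
    by_cases h6 : l = l'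
    · refine absurd ?_ (ncm hP e)
      rw [show x = a * b * y⁻¹ by rw [e1]; group]
      exact mul_mem (mul_mem (cm (h6 ▸ Ne.symm h4) ea) (cm (Ne.symm h4) eb)) (inv_mem_Cm (cm hij e'))
    · refine absurd ?_ (ncm hb eb)
      rw [show b = a⁻¹ * (x * y) by rw [← e1]; group]
      exact mul_mem (inv_mem_Cm (cm (Ne.symm h6) ea)) (mul_mem (cm h4 e) (cm h5 e'))
  · obtain ⟨u', φ', hP', h4, h5, h6⟩ := ex u φ hP
    obtain ⟨y, hy, e'⟩ := C.uin hP' i hi
    refine ⟨⟨y, hy⟩, ⟨hi, u', φ', hP', e'⟩, fun h7 => h6 (s_inj (s := s i) ?_), inj ?_⟩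
    · exact add_left_cancel (e'.symm.trans ((congrArg _ (congrArg Subtype.val h7)).trans e))
    · simp [e, e', mul_add, add_mul, h4, h5, add_assoc, add_comm (r (s i) u φ)]

omit [FiniteDimensional F V] in
/-- The element produced by the swapping argument. -/
theorem exists_two [Finite F] [FiniteDimensional F V] (h2 : (2 : F) = 0) (h3 : 3 ≤ finrank F U)
    (ex : ∀ u φ, P u φ → ∃ u' φ', P u' φ' ∧ φ u' = 0 ∧ φ' u = 0 ∧ φ'.smulRight u' ≠ φ.smulRight u)
    (hY : ¬ Y ≤ h.Wr) {i : T} (hi : i ∈ J) {u u' : U} {φ φ' : Dual F U} (hP : P u φ) (hP' : P u' φ')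
    (hne : φ.smulRight u ≠ φ'.smulRight u') : ∃ k ∈ Y, ∃ α, Nma k (s i) (s i) α ∧
      (∀ b, (k : End F V) ≠ s i b) ∧ r (s i) (α u) (φ ∘ₗ α.symm) = r (s i) u' φ' ∧
      ∃ M : Submodule F V, (∀ v, k v - v ∈ L (s i) u ⊔ L (s i) u' ⊔ M) ∧
        ∀ a ψ, P a ψ → ∀ m ∈ M, r (s i) a ψ m = 0 → m ∈ L (s i) a := by
  have := h.nt
  have := h.ntU
  have := finite_equiv (F := F) (V := V)
  obtain ⟨g, hg, hH⟩ := SetLike.not_le_iff_exists.1 hY
  obtain ⟨x, hx, e⟩ := C.uin hP i hi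
  obtain ⟨x', hx', e'⟩ := C.uin hP' i hi
  obtain ⟨y, -, h4, k, h5, h6, h7, h8⟩ := (C.dh h2 h3 ex).swap (g := ⟨g, hg⟩) hH
    (x := ⟨x, hx⟩) (x' := ⟨x', hx'⟩) ⟨hi, u, φ, hP, e⟩ ⟨hi, u', φ', hP', e'⟩ fun h1 => hne
      (s_inj (s := s i) (add_left_cancel (e.symm.trans ((congrArg _ (congrArg Subtype.val h1)).trans e'))))
  have fx : ∀ (Z : Submodule F V) (S : Set Y), (∀ g ∈ S, ∀ v, (g : V ≃ₗ[F] V) v - v ∈ Z) →
      ∀ g ∈ Subgroup.closure S, ∀ v, (g : V ≃ₗ[F] V) v - v ∈ Z := fun Z S hS g hg => by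
    induction hg using Subgroup.closure_induction with
    | mem g hg => exact hS g hg
    | one => simp
    | mul a b _ _ ha hb => exact fun v => by simpa using add_mem (ha (b.1 v)) (hb v)
    | inv a _ ha => exact fun v => by simpa using neg_mem (ha (a.1⁻¹ v))
  obtain ⟨hu, hφ, h0⟩ := C.nz hP
  have e1 := coe_conj (k : V ≃ₗ[F] V) e
  rw [show (k : V ≃ₗ[F] V) * x * (k : V ≃ₗ[F] V)⁻¹ = x' from congrArg Subtype.val h7, e',
    add_right_inj] at e1
  obtain ⟨α, hα⟩ := (h.nm_of_comm h5 hu hφ h0 e1.symm).nma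
  refine ⟨k, k.2, α, hα, fun b hb => ?_, (hα.conj u φ).symm.trans e1.symm,
    LinearMap.range ((y : V ≃ₗ[F] V) - 1 : End F V), fx _ _ ?_ k h6, fun a ψ ha m ⟨z, hz⟩ hm => ?_⟩
  · obtain ⟨j, hj, hji⟩ : ∃ j ∈ J, j ≠ i := by
      obtain ⟨a, ha, b, hb, hab⟩ := C.two
      by_cases hai : a = i
      · exact ⟨b, hb, hai ▸ hab.symm⟩
      · exact ⟨a, ha, hai⟩
    obtain ⟨t, ht, et⟩ := C.uin hP j hj
    exact h8 j ⟨t, ht⟩ ⟨hj, u, φ, hP, et⟩ (Subtype.ext (LinearEquiv.toLinearMap_injective (by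
      simpa only [Subgroup.coe_mul, LinearEquiv.coe_toLinearMap_mul, hb, coe_eq_s et] using
        mem_Cm.1 (h.comm hji.symm _) b)))
  · rintro _ (rfl | rfl | rfl) v
    · rw [show x v = _ from LinearMap.congr_fun e v]
      exact Submodule.mem_sup_left (Submodule.mem_sup_left (by simpa using r_mem_L _ _ _))
    · rw [show x' v = _ from LinearMap.congr_fun e' v]
      exact Submodule.mem_sup_left (Submodule.mem_sup_right (by simpa using r_mem_L _ _ _))
    · exact Submodule.mem_sup_right ⟨v, rfl⟩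
  · obtain ⟨t, ht, et⟩ := C.uin ha i hi
    obtain ⟨w, h9, h10, h11⟩ := h4 i ⟨t, ht⟩ ⟨hi, a, ψ, ha, et⟩
    have ww : ∀ v, w.1 (w.1 v) = v := LinearEquiv.congr_fun (congrArg Subtype.val h10)
    have e2 : ∀ v, y.1 v - v = w.1 (r (s i) a ψ (w.1 v)) := fun v => by
      rw [← h11]
      change w.1 (t (w.1 v)) - v = _
      rw [show t (w.1 v) = _ from LinearMap.congr_fun et _]
      simp [ww]
    have e3 : w.1 m = m := by
      have : ∀ g ∈ Subgroup.closure {(⟨t, ht⟩ : Y), y}, g.1 m = m := fun g hg => by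
        induction hg using Subgroup.closure_induction with
        | mem g hg =>
          rcases hg with rfl | rfl
          · exact (LinearMap.congr_fun et m).trans (by simp [hm])
          · rw [← sub_eq_zero, e2, ← hz, show (g.1 - 1 : End F V) z = _ from e2 z, ww]
            simp [(C.nz ha).2.2]
        | one => rfl
        | mul a b _ _ ha hb => exact (congrArg a.1 hb).trans ha
        | inv a _ ha => exact a.1.injective ((apply_inv_apply _ _).trans ha.symm)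
      exact this w h9
    rw [← e3, ← hz, show (y.1 - 1 : End F V) z = _ from e2 z, ww]
    exact r_mem_L _ _ _

end Core

end CfsgLib.C7
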