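import Mathlib
import Cfsg.Agent.Lib.C7.Main

/-!
Algebras normalised by the root elements of all factors; permutations of the factors.
-/

set_option autoImplicit false

namespace CfsgLib.C7

open Module CfsgLib.ClMax

variable {F U V : Type*} [Field F] [AddCommGroup U] [Module F U] [AddCommGroup V] [Module F V]
  {T : Type*} {s : T → End F U →ₐ[F] End F V} {P : U → Dual F U → Prop}

variable (s P) in
/-- Invariance under the root elements. -/
def Inv (A : Set (End F V)) : Prop :=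
  ∀ i u φ, P u φ → ∀ E ∈ A, (1 + r (s i) u φ) * E * (1 - r (s i) u φ) ∈ A

variable (P) in
/-- Products of two roots span all endomorphisms. -/
def Sp2 : Prop := ∀ A : Submodule F (End F U), (∀ u φ u' φ', P u φ → P u' φ' → φ u' ≠ 0 →
  φ'.smulRight u ∈ A) → ∀ a, a ∈ A

variable (s P) in
/-- The one-factor step. -/
def One : Prop := ∀ A : Submodule F (End F V), (∀ E ∈ A, ∀ G ∈ A, E * G ∈ A) → Inv s P A →
  ∀ l, ∀ E ∈ A, E ∉ Cm (s l) → ∃ C ∈ Cm (s l), C ≠ 0 ∧ ∀ u φ, P u φ → r (s l) u φ * C ∈ A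

theorem Sp2.gen (sp : Sp2 P) (A : Subalgebra F (End F U)) (h : ∀ u φ, P u φ → φ.smulRight u ∈ A)
    (a : End F U) : a ∈ A :=
  sp (Subalgebra.toSubmodule A) (fun u φ u' φ' h1 h2 h3 => by
    have := A.smul_mem (mul_mem (h u φ h1) (h u' φ' h2)) (φ u')⁻¹
    rwa [show (φ u')⁻¹ • (φ.smulRight u * φ'.smulRight u') = φ'.smulRight u by
      ext v; simp [smul_smul, h3, mul_comm (φ' v)]] at this) a

theorem Sp2.mem_Cm (sp : Sp2 P) {i : T} {E : End F V}
    (h : ∀ u φ, P u φ → r (s i) u φ * E = E * r (s i) u φ) : E ∈ Cm (s i) :=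
  C7.mem_Cm.2 fun a => ((Subalgebra.mem_centralizer_iff F).1 (sp.gen
    ((Subalgebra.centralizer F {E}).comap (s i)) (fun u φ hP => (Subalgebra.mem_centralizer_iff F).2
      (by rintro _ rfl; exact (h u φ hP).symm)) a) E rfl).symm

theorem Sp2.nm (sp : Sp2 P) {g : V ≃ₗ[F] V} {i j : T}
    (h : ∀ u φ, P u φ → ∃ a, (g * r (s i) u φ * (g⁻¹ : V ≃ₗ[F] V) : End F V) = s j a) :
    Nm g (s i) (s j) := fun a => by
  let A : Subalgebra F (End F U) :=
    { carrier := {a | ∃ b, (g : End F V) * s i a = s j b * g}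
      mul_mem' := fun ⟨b, hb⟩ ⟨c, hc⟩ => ⟨b * c, by
        rw [map_mul, map_mul, ← mul_assoc, hb, mul_assoc, hc, mul_assoc]⟩
      add_mem' := fun ⟨b, hb⟩ ⟨c, hc⟩ => ⟨b + c, by rw [map_add, map_add, mul_add, hb, hc, add_mul]⟩
      algebraMap_mem' c := ⟨algebraMap F _ c, by
        rw [AlgHom.commutes, AlgHom.commutes, Algebra.commutes]⟩ }
  exact sp.gen A (fun u φ hP => let ⟨b, hb⟩ := h u φ hP
    ⟨b, by rw [← hb, mul_assoc, coe_inv_mul, mul_one, r_def]⟩) a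

theorem conj_Cm {i : T} {u : U} {φ : Dual F U} (h0 : φ u = 0) {E : End F V} (hE : E ∈ Cm (s i)) :
    (1 + r (s i) u φ) * E * (1 - r (s i) u φ) = E := by
  simp [mul_sub, add_mul, mul_assoc, Cm_r hE, h0]

theorem t_two {A : AddSubgroup (End F V)} {N M E : End F V} (hE : E ∈ A)
    (hN : ∀ E ∈ A, (1 + N) * E * (1 - N) ∈ A) (hM : ∀ E ∈ A, (1 + M) * E * (1 - M) ∈ A)
    (h1 : N * M = 0) (h2 : M * N = 0) : M * E * N + N * E * M ∈ A := by
  have h3 := sub_mem (hN E hE) hE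
  have := sub_mem h3 (hM _ h3)
  convert this using 1
  linear_combination (norm := noncomm_ring) h2 * (E - E * N - E * M + E * N * M) +
    (E + N * E + M * E) * h1

theorem t_one {A : AddSubgroup (End F V)} {N E : End F V} {c : F} (hE : E ∈ A)
    (hc : ∀ E ∈ A, c • E ∈ A) (hN : (1 + N) * E * (1 - N) ∈ A)
    (hM : (1 + c • N) * E * (1 - c • N) ∈ A) : (c - c ^ 2) • (N * E * N) ∈ A := by
  convert sub_mem (sub_mem hM hE) (hc _ (sub_mem hN hE)) using 1
  simp only [mul_sub, add_mul, one_mul, mul_one, smul_mul_assoc, mul_smul_comm]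
  module

variable (s) in
/-- `σ` interchanges two factors. -/
structure Sw (σ : V ≃ₗ[F] V) (a b : T) : Prop where
  sq : σ * σ = 1
  ab : Nma σ (s a) (s b) 1
  ba : Nma σ (s b) (s a) 1
  cm : ∀ l, l ≠ a → l ≠ b → (σ : End F V) ∈ Cm (s l)
  fix : ∀ u φ, σ * (r (s a) u φ * r (s b) u φ) = r (s a) u φ * r (s b) u φ

namespace TP

variable (h : TP s)
include h

theorem sandwich (nz : ∀ u φ, P u φ → φ u = 0) (sp : Sp2 P) {B : Set (End F V)} (hB : Inv s P B)
    {C E : End F V} (hC : C ∈ B) (h0 : C ≠ 0) (hE : ∀ G ∈ B, E * G = 0) : E = 0 := by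
  obtain ⟨z, hz⟩ : ∃ z, C z ≠ 0 := by
    by_contra h'; push Not at h'; exact h0 (LinearMap.ext h')
  let Z := Submodule.span F {v | ∃ G ∈ B, ∃ w, G w = v}
  have h1 : Z ≤ LinearMap.ker E := Submodule.span_le.2 (by
    rintro _ ⟨G, hG, w, rfl⟩; exact LinearMap.congr_fun (hE G hG) w)
  refine LinearMap.ext fun v => h1 (h.eq_top (Z := Z) (fun i a => ?_)
    (z := C z) (Submodule.subset_span ⟨C, hC, z, rfl⟩) hz v)
  let A : Subalgebra F (End F U) :=
    { carrier := {a | ∀ v ∈ Z, s i a v ∈ Z}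
      mul_mem' ha hb v hv := by rw [map_mul]; exact ha _ (hb v hv)
      add_mem' ha hb v hv := by rw [map_add]; exact Z.add_mem (ha v hv) (hb v hv)
      algebraMap_mem' c v hv := by rw [AlgHom.commutes]; exact Z.smul_mem c hv }
  refine sp.gen A (fun u φ hP => ?_) a
  refine fun v hv => (Submodule.span_le (p := Z.comap (r (s i) u φ))).2 ?_ hv
  rintro _ ⟨G, hG, w, rfl⟩
  have h2 : ∀ G ∈ B, ∀ w, G w ∈ Z := fun G hG w => Submodule.subset_span ⟨G, hG, w, rfl⟩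
  have := Z.sub_mem (h2 _ (hB i u φ hP G hG) (w + r (s i) u φ w)) (h2 G hG w)
  simpa [nz u φ hP] using this

variable [FiniteDimensional F U]

theorem aux_alg (nz : ∀ u φ, P u φ → φ u = 0) (sp : Sp2 P) (one : One s P)
    {A : Submodule F (End F V)} (hm : ∀ E ∈ A, ∀ G ∈ A, E * G ∈ A) (hA : Inv s P A) {l : T}
    {E : End F V} (hE : E ∈ A) (hl : E ∉ Cm (s l)) : ∃ B : Submodule F (End F V),
      (∀ E ∈ B, ∀ G ∈ B, E * G ∈ B) ∧ Inv s P B ∧ (∃ C ∈ B, C ≠ 0) ∧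
        ∀ C ∈ B, C ∈ Cm (s l) ∧ ∀ a, s l a * C ∈ A := by
  have inv : ∀ p : End F U → Prop, Inv s P {C | C ∈ Cm (s l) ∧ ∀ a, p a → s l a * C ∈ A} :=
    fun p i u φ hP C hC => by
    by_cases hi : i = l
    · subst hi; rwa [conj_Cm (nz u φ hP) hC.1]
    have h1 := h.r_mem (Ne.symm hi) u φ
    refine ⟨mul_mem (mul_mem (add_mem (one_mem _) h1) hC.1) (sub_mem (one_mem _) h1), fun a ha => ?_⟩
    rw [← mul_assoc, ← mul_assoc, mem_Cm.1 (add_mem (one_mem _) h1), mul_assoc _ _ C]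
    exact hA i u φ hP _ (hC.2 a ha)
  let B : Submodule F (End F V) :=
    { carrier := {C | C ∈ Cm (s l) ∧ ∀ a, True → s l a * C ∈ A}
      add_mem' ha hb := ⟨add_mem ha.1 hb.1, fun a _ => mul_add (s l a) _ _ ▸
        add_mem (ha.2 a trivial) (hb.2 a trivial)⟩
      zero_mem' := ⟨zero_mem _, by simp⟩
      smul_mem' c _ ha := ⟨Subalgebra.smul_mem _ ha.1 c, fun a _ => by
        simpa using A.smul_mem c (ha.2 a trivial)⟩ }
  refine ⟨B, fun E hE G hG => ⟨mul_mem hE.1 hG.1, fun a _ => by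
    simpa [mul_assoc] using hm _ (hE.2 a trivial) _ (hG.2 1 trivial)⟩, inv _, ?_,
    fun C hC => ⟨hC.1, fun a => hC.2 a trivial⟩⟩
  obtain ⟨C, h1, h2, h3⟩ := one A hm hA l E hE hl
  by_contra h4
  push Not at h4
  refine h2 (h.sandwich nz sp (inv fun a => ∃ u φ, P u φ ∧ a = φ.smulRight u) (C := C)
    ⟨h1, by rintro _ ⟨u, φ, hP, rfl⟩; exact h3 u φ hP⟩ h2 fun G hG => h4 _ ⟨mul_mem h1 hG.1,
      fun a _ => ?_⟩)
  refine sp (A.comap (LinearMap.mulRight F (C * G) ∘ₗ (s l).toLinearMap))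
    (fun u φ u' φ' p1 p2 p3 => ?_) a
  have := A.smul_mem (φ u')⁻¹ (hm _ (h3 u φ p1) _ (hG.2 _ ⟨u', φ', p2, rfl⟩))
  rw [← r_def, mul_assoc, Cm_r' h1, r_mul', inv_smul_smul₀ p3] at this
  exact this

variable [Finite T]

theorem one_mem_alg (nz : ∀ u φ, P u φ → φ u = 0) (sp : Sp2 P) (one : One s P) (S : Finset T) :
    ∀ A : Submodule F (End F V), (∀ E ∈ A, ∀ G ∈ A, E * G ∈ A) → Inv s P A →
      (∀ E ∈ A, ∀ l ∉ S, E ∈ Cm (s l)) → ∀ E ∈ A, E ≠ 0 → 1 ∈ A := by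
  classical
  induction S using Finset.strongInduction with | H S ih => ?_
  intro A hm hA hS E hE h0
  by_cases h1 : ∀ l, E ∈ Cm (s l)
  · obtain ⟨c, rfl⟩ := h.scalar h1
    exact (A.smul_mem_iff (left_ne_zero_of_smul h0)).1 hE
  push Not at h1
  obtain ⟨l, hl⟩ := h1
  obtain ⟨B, h2, h3, ⟨C, h4, h5⟩, h6⟩ := h.aux_alg nz sp one hm hA hE hl
  simpa using (h6 _ (ih _ (Finset.erase_ssubset (by_contra fun h7 => hl (hS E hE l h7))) B h2 h3
    (fun G hG j hj => by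
      by_cases hjl : j = l
      · exact hjl ▸ (h6 G hG).1
      · exact hS G (by simpa using (h6 G hG).2 1) j (by simpa [hjl] using hj)) C h4 h5)).2 1

/-- The algebra lemma. -/
theorem slot_le_alg (nz : ∀ u φ, P u φ → φ u = 0) (sp : Sp2 P) (one : One s P)
    {A : Submodule F (End F V)} (hm : ∀ E ∈ A, ∀ G ∈ A, E * G ∈ A) (hA : Inv s P A) {l : T}
    {E : End F V} (hE : E ∈ A) (hl : E ∉ Cm (s l)) (a : End F U) : s l a ∈ A := by
  have := Fintype.ofFinite T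
  obtain ⟨B, h2, h3, ⟨C, h4, h5⟩, h6⟩ := h.aux_alg nz sp one hm hA hE hl
  simpa using (h6 _ (h.one_mem_alg nz sp one Finset.univ B h2 h3 (by simp) C h4 h5)).2 a

omit [Finite T] in
/-- The interchange of two factors. -/
theorem exists_swap {i j : T} (hij : i ≠ j) : ∃ σ, Sw s σ i j := by
  let b := finBasis F U
  let σ : End F V := ∑ x, ∑ y, r (s i) (b x) (b.coord y) * r (s j) (b y) (b.coord x)
  have e : ∀ u φ w ψ, σ * (r (s i) u φ * r (s j) w ψ) = r (s i) w φ * r (s j) u ψ := fun u φ w ψ => by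
    conv_rhs => rw [← b.sum_repr w, ← b.sum_repr u]
    simp only [σ, Finset.sum_mul, mul_assoc, Cm_r' (h.r_mem hij _ _), r_mul, r_mul', mul_smul_comm,
      map_sum, LinearMap.sum_apply, map_smul, LinearMap.smul_apply, smul_mul_assoc, Finset.mul_sum,
      Basis.coord_apply, Finset.smul_sum]
    rw [Finset.sum_comm]
    simp only [smul_smul, mul_comm (b.repr w _)]
  have ext : ∀ {E G : End F V}, (∀ u φ w ψ, E * (r (s i) u φ * r (s j) w ψ) =
      G * (r (s i) u φ * r (s j) w ψ)) → E = G := fun {E G} h1 => by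
    rw [← mul_one E, ← mul_one G, ← mul_one 1]
    conv_lhs => rhs; lhs; rw [← sum_r (s i)]
    conv_rhs => rhs; lhs; rw [← sum_r (s i)]
    rw [← sum_r (s j)]
    simp only [Finset.sum_mul, Finset.mul_sum, h1]
  have e1 : σ * σ = 1 := ext fun u φ w ψ => by rw [mul_assoc, e, e, one_mul]
  refine ⟨LinearEquiv.ofLinearMap σ σ e1 e1, LinearEquiv.toLinearMap_injective e1,
    fun u φ => ext fun a χ w ψ => ?_, fun u φ => ext fun a χ w ψ => ?_, fun l h1 h2 => ?_,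
    fun u φ => e u φ u φ⟩
  · change σ * _ * _ = r (s j) u φ * σ * _
    simp only [mul_assoc, r_mul', mul_smul_comm, e, Cm_r' (h.r_mem hij _ _), r_mul]
  · change σ * _ * _ = r (s i) u φ * σ * _
    simp only [mul_assoc, r_mul', mul_smul_comm, e, Cm_r' (h.r_mem hij _ _), r_mul]
  · exact Subalgebra.sum_mem _ fun _ _ => Subalgebra.sum_mem _ fun _ _ =>
      mul_mem (h.r_mem h1 _ _) (h.r_mem h2 _ _)

/-- A cyclic permutation of three factors is a commutator of interchanges. -/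
theorem exists_cycle {i j k : T} (hij : i ≠ j) (hik : i ≠ k) (hjk : j ≠ k)
    {X : Subgroup (V ≃ₗ[F] V)} (hX : ∀ σ a b, a ≠ b → Sw s σ a b → σ ∈ X) :
    ∃ g ∈ ⁅X, X⁆, g ∈ h.Wr ∧ Nma g (s i) (s k) 1 ∧ Nma g (s j) (s i) 1 := by
  obtain ⟨σ, h1⟩ := h.exists_swap hij
  obtain ⟨τ, h2⟩ := h.exists_swap hik
  have mul : ∀ {g g' : V ≃ₗ[F] V} {a b c}, Nma g (s b) (s c) 1 → Nma g' (s a) (s b) 1 →
      Nma (g * g') (s a) (s c) 1 := fun e1 e2 u φ => by
    rw [LinearEquiv.coe_toLinearMap_mul, mul_assoc, e2, ← mul_assoc, e1, mul_assoc]; rfl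
  have w : ∀ {g a b}, Sw s g a b → g ∈ h.Wr := fun {g a b} e l => by
    by_cases ha : l = a
    · exact ⟨b, ha ▸ e.ab.nm⟩
    by_cases hb : l = b
    · exact ⟨a, hb ▸ e.ba.nm⟩
    · exact ⟨l, nm_of_Cm (e.cm l ha hb)⟩
  refine ⟨τ * (σ * (τ * σ)), ?_, mul_mem (w h2) (mul_mem (w h1) (mul_mem (w h2) (w h1))),
    mul h2.ab (mul h1.ba (mul (Cm_r (h2.cm j hij.symm hjk)) h1.ab)),
    mul h2.ba (mul (Cm_r (h1.cm k hik.symm hjk.symm)) (mul h2.ab h1.ba))⟩
  have := Subgroup.commutator_mem_commutator (hX _ _ _ hik h2) (hX _ _ _ hij h1)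
  rwa [commutatorElement_def, inv_eq_of_mul_eq_one_right h1.sq, inv_eq_of_mul_eq_one_right h2.sq,
    mul_assoc, mul_assoc] at this

end TP

end CfsgLib.C7
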