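import Mathlib
import Cfsg.Agent.Lib.C7.Alg
import Cfsg.Agent.Lib.NonMax.Spin

/-!
The stabiliser of a tensor power decomposition is maximal in the special linear group.
-/

set_option autoImplicit false

namespace CfsgLib.C7

open Module CfsgLib.ClMax

variable {F U V : Type*} [Field F] [AddCommGroup U] [Module F U] [AddCommGroup V] [Module F V]
  [FiniteDimensional F U]

open Polynomial in
theorem exists_eigen_of_odd [FiniteDimensional F V] (hV : Odd (finrank F V)) {β : End F V} {a b : F}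
    (h : a • (β * β) + b • β - 1 = 0) : ∃ (c : F) (z : V), z ≠ 0 ∧ β z = c • z := by
  by_contra h1
  have : Nontrivial V := Module.nontrivial_of_finrank_pos (R := F) hV.pos
  have hi := Algebra.IsIntegral.isIntegral (R := F) β
  have h2 : (minpoly F β).roots = 0 := Multiset.eq_zero_of_forall_notMem fun c hc => by
    obtain ⟨z, hz⟩ := (End.hasEigenvalue_iff_isRoot.2 (isRoot_of_mem_roots hc)).exists_hasEigenvector
    exact h1 ⟨c, z, hz.2, hz.apply_eq_smul⟩
  have h3 : (minpoly F β).natDegree ≤ 2 := (natDegree_le_of_dvd (minpoly.dvd F β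
    (p := C a * X ^ 2 + C b * X - 1) (by simpa [pow_two, Algebra.smul_def] using h)) fun h3 => by
      simpa using congrArg (eval 0) h3).trans (by compute_degree)
  have h4 : (minpoly F β).natDegree = 2 := by
    have h5 := minpoly.natDegree_pos hi
    by_contra h6
    obtain ⟨c, hc⟩ := exists_root_of_degree_eq_one ((degree_eq_iff_natDegree_eq_of_pos one_pos).2
      (show (minpoly F β).natDegree = 1 by omega))
    simpa [h2] using (mem_roots (minpoly.ne_zero hi)).2 hc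
  have : Fact (Irreducible (minpoly F β)) := ⟨(irreducible_iff_roots_eq_zero_of_degree_le_three
    (by omega) (by omega)).2 h2⟩
  let φ : AdjoinRoot (minpoly F β) →ₐ[F] End F V := Ideal.Quotient.liftₐ _ (aeval β) fun p hp => by
    obtain ⟨q, rfl⟩ := Ideal.mem_span_singleton.1 hp
    simp
  let _ := Module.compHom V φ.toRingHom
  have : IsScalarTower F (AdjoinRoot (minpoly F β)) V := ⟨fun c x v => by
    change φ (c • x) v = c • φ x v
    rw [map_smul]; rfl⟩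
  rw [← finrank_mul_finrank F (AdjoinRoot (minpoly F β)) V,
    (AdjoinRoot.powerBasis (minpoly.ne_zero hi)).finrank, AdjoinRoot.powerBasis_dim, h4] at hV
  exact (Nat.not_odd_iff_even.2 (even_two_mul _)) hV

theorem mem_of_rankOne {A : Submodule F (End F U)} (h : ∀ u (φ : Dual F U), φ.smulRight u ∈ A)
    (a : End F U) : a ∈ A := by
  have := eq_sum_r (s := AlgHom.id F (End F U)) a
  exact (show a = _ from this) ▸ A.sum_mem fun _ _ => h _ _

theorem uIn_sum {X : Subgroup (V ≃ₗ[F] V)} {ι : Type*} (S : Finset ι) {N : ι → End F V}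
    (h : ∀ i, UIn X (N i)) (h0 : ∀ i j, N i * N j = 0) : UIn X (∑ i ∈ S, N i) := by
  classical
  induction S using Finset.induction_on with
  | empty => simpa using uIn_zero
  | insert a S ha ih => rw [Finset.sum_insert ha]; exact (h a).add ih (by simp [Finset.mul_sum, h0])

theorem eq_of_co {s : End F U →ₐ[F] End F V} {E C : End F V} (h : ∀ φ z, co s E φ z = φ z • C) :
    E = C := by
  classical
  rw [eq_sum_co (s := s) E, ← one_mul C, ← sum_r s, Finset.sum_mul]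
  simp [h, Finsupp.single_apply]

theorem Cm_of_co {s : End F U →ₐ[F] End F V} {E : End F V} {u : U} (hu : u ≠ 0)
    (h : ∀ u φ, φ u = 0 → co s E φ u = 0) : E ∈ Cm s := by
  obtain ⟨θ, hθ⟩ := exists_dual_one_of_ne (F := F) hu
  have e1 : ∀ φ z χ, φ z = 1 → co s E χ z = χ z • co s E φ z := fun φ z χ h1 => by
    simpa [sub_eq_zero] using h z (χ - χ z • φ) (by simp [h1])
  have e2 : ∀ φ y z, φ y = 1 → co s E φ z = φ z • co s E φ y := fun φ y z h1 => by
    simpa [sub_eq_zero] using h (z - φ z • y) φ (by simp [h1])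
  have e3 : ∀ χ z, χ z = 1 → co s E χ z = co s E θ u := fun χ z h1 => by
    by_cases h2 : θ z = 0
    · by_cases h3 : χ u = 0
      · simpa [h _ _ h2, h _ _ h3, sub_eq_zero] using h (z + u) (χ - θ) (by simp [*])
      · exact smul_right_injective _ h3 ((e2 χ z u h1).symm.trans (e1 θ u χ hθ))
    · exact smul_right_injective _ h2 ((e1 χ z θ h1).symm.trans (e2 θ u z hθ))
  rw [eq_of_co (s := s) (E := E) (C := co s E θ u) fun χ z => ?_]
  · exact co_mem _ _ _
  by_cases h1 : χ z = 0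
  · simp [h1, h]
  · simp [← e3 ((χ z)⁻¹ • χ) z (by simp [h1]), smul_smul, h1]

/-- All roots of the linear group. -/
def PL (u : U) (φ : Dual F U) : Prop := u ≠ 0 ∧ φ ≠ 0 ∧ φ u = 0

theorem move_two {U : Type*} [AddCommGroup U] [Module F U] [FiniteDimensional F U]
    (h3 : 3 ≤ finrank F U) {p : U → Prop} {φ : Dual F U}
    (hv : ∀ u z, p u → φ u = 0 → z ≠ 0 → φ z = 0 → u ∉ Submodule.span F {z} → p z) {u z : U}
    (h : p u) (hu : u ≠ 0) (h0 : φ u = 0) (hz : z ≠ 0) (h1 : φ z = 0) : p z := by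
  by_cases h2 : z ∈ Submodule.span F {u}
  · obtain ⟨y, h4, h5⟩ := exists_ker_not_mem h3 φ hu
    exact hv y z (hv u y h h0 (by rintro rfl; simp at h5) h4 (not_mem_span_symm' hu h5)) h4 hz h1
      fun h6 => h5 ((Submodule.span_singleton_le_iff_mem _ _).2 h2 h6)
  · exact hv u z h h0 hz h1 (not_mem_span_symm' hu h2)

theorem move_all (h3 : 3 ≤ finrank F U) {p : U → Dual F U → Prop}
    (hv : ∀ u (φ : Dual F U) z (ψ : Dual F U), p u φ → φ u = 0 → PL z ψ → φ z = 0 → ψ u = 1 → p z φ)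
    (hd : ∀ u (φ : Dual F U) z (ψ : Dual F U), p u φ → φ u = 0 → PL z ψ → ψ u = 0 → φ z = 1 → p u ψ)
    {u u' : U} {φ φ' : Dual F U} (h : p u φ) (h1 : PL u φ) (h2 : PL u' φ') : p u' φ' := by
  have mv : ∀ {φ u z}, p u φ → u ≠ 0 → φ u = 0 → z ≠ 0 → φ z = 0 → p z φ := fun {φ _ _} =>
    move_two h3 (p := fun u => p u φ) fun u z h h0 hz h1 h2 =>
      let ⟨ψ, h4, h5⟩ := exists_dual_one_zero h2
      hv u φ z ψ h h0 ⟨hz, by rintro rfl; simp at h4, h5⟩ h1 h4
  obtain ⟨z, hz, h4, h5⟩ := exists_ker_two h3 φ φ'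
  refine mv (move_two (U := Dual F U) (by simpa using h3) (φ := Dual.eval F U z) (p := p z)
    (fun φ ψ h h0 hψ h1 h2 => ?_) (mv h h1.1 h1.2.2 hz h4) h1.2.1 h4 h2.2.1 h5) hz h5 h2.1 h2.2.2
  obtain ⟨y, h4, h5⟩ := exists_vec_one_zero h2
  exact hd z φ y ψ h h0 ⟨by rintro rfl; simp at h4, hψ, h5⟩ h1 h4

theorem sp2_PL (h3 : 3 ≤ finrank F U) : Sp2 (PL (F := F) (U := U)) := fun A h =>
  mem_of_rankOne fun u φ => by
    by_cases hu : u = 0
    · simp [hu]
    by_cases hφ : φ = 0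
    · simp [hφ]
    obtain ⟨y, h4, h5⟩ := exists_ker_not_mem h3 φ hu
    obtain ⟨ψ, h6, h7⟩ := exists_dual_one_zero h5
    exact h u ψ y φ ⟨hu, by rintro rfl; simp at h6, h7⟩ ⟨by rintro rfl; simp at h6, hφ, h4⟩
      (by simp [h6])

variable {T : Type*} {s : T → End F U →ₐ[F] End F V}

theorem one_PL (h3 : 3 ≤ finrank F U) : One s (PL (F := F) (U := U)) := by
  intro A _ hA l E hE hl
  have : Nontrivial U := Module.nontrivial_of_finrank_pos (R := F) (by omega)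
  obtain ⟨u₀, hu₀⟩ := exists_ne (0 : U)
  obtain ⟨u, φ, h0, h1⟩ : ∃ u φ, φ u = 0 ∧ co (s l) E φ u ≠ 0 := by
    by_contra h'; push Not at h'; exact hl (Cm_of_co hu₀ h')
  have hu : u ≠ 0 := by rintro rfl; simp at h1
  have hφ : φ ≠ 0 := by rintro rfl; simp at h1
  obtain ⟨z, h4, h5⟩ := exists_ker_not_mem h3 φ hu
  obtain ⟨ψ, h6, h7⟩ := exists_dual_one_zero h5
  have hz : z ≠ 0 := by rintro rfl; simp at h6
  have h8 := t_two (A := A.toAddSubgroup) hE (hA l u φ ⟨hu, hφ, h0⟩)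
    (hA l u ψ ⟨hu, by rintro rfl; simp at h6, h7⟩) (by simp [h0]) (by simp [h7])
  refine ⟨_, co_mem E φ u, h1, fun u' φ' => move_all h3
    (p := fun u' φ' => r (s l) u' φ' * co (s l) E φ u ∈ A) (fun a χ z ψ h _ p h2 h3 => ?_)
    (fun a χ z ψ h _ p h2 h3 => ?_) ?_ ⟨hu, hφ, h0⟩⟩
  · simpa [mul_sub, add_mul, mul_assoc, Cm_r (co_mem _ _ _), h2, h3] using sub_mem (hA l z ψ p _ h) h
  · simpa [mul_sub, add_mul, mul_assoc, Cm_r (co_mem _ _ _), h2, h3] using sub_mem h (hA l z ψ p _ h)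
  · rw [r_co, r_co] at h8
    simpa [mul_sub, mul_add, add_mul, mul_assoc, Cm_r (co_mem _ _ _), h0, h4, h6] using
      sub_mem h8 (hA l z φ ⟨hz, hφ, h4⟩ _ h8)

variable [Finite T] [FiniteDimensional F V] {h : TP s} {Y : Subgroup (V ≃ₗ[F] V)}

omit [FiniteDimensional F V] in
theorem TP.not_mem_Wr (h : TP s) {i j : T} (hij : i ≠ j) {u u' : U} {φ φ' : Dual F U} (hu : u ≠ 0)
    (hφ : φ ≠ 0) (h0 : φ u = 0) (hu' : u' ≠ 0) (hφ' : φ' ≠ 0) (h0' : φ' u' = 0) {g : V ≃ₗ[F] V}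
    (e : (g : End F V) = 1 + r (s i) u φ * r (s j) u' φ') : g ∉ h.Wr := fun hg => by
  have := h.nt
  have := h.ntU
  have c := h.r_mem hij u' φ'
  obtain ⟨α, hα⟩ := (h.nm_of_comm hg hu hφ h0 (a := φ.smulRight u) (by
    rw [← r_def, show (g : End F V) * r (s i) u φ = r (s i) u φ * g by
      simp [e, mul_add, add_mul, mul_assoc, Cm_r c, h0], mul_assoc, coe_mul_inv, mul_one])).nma
  obtain ⟨θ, hθ⟩ := exists_dual_one_of_ne (F := F) hu
  obtain ⟨θ', hθ'⟩ := exists_dual_one_of_ne (F := F) hu'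
  obtain ⟨b, hb⟩ := hα.exists_eq hθ hφ fun z => by
    rw [show g _ = _ from LinearMap.congr_fun e _]; simp [Cm_r_apply c, h0]
  have h1 := Cm_r (hb ▸ h.comm hij.symm b) u' θ'
  simp only [e, add_mul, mul_add, one_mul, mul_one, mul_assoc, r_mul, h0', add_right_inj,
    ← Cm_r' (h.r_mem hij.symm u φ), hθ', zero_smul, one_smul, mul_zero] at h1
  exact r_ne_zero hu' hφ' (r_mul_eq_zero hu hφ c h1.symm)

/-- An overgroup of the stabiliser in the special linear group. -/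
structure SLW (h : TP s) (Y : Subgroup (V ≃ₗ[F] V)) : Prop where
  h3 : 3 ≤ finrank F U
  hH : ∀ g ∈ h.Wr, g ∈ SLV F V → g ∈ Y

namespace SLW

variable (H : SLW h Y)
include H

theorem one (i : T) {u : U} {φ : Dual F U} (h0 : φ u = 0) : UIn Y (r (s i) u φ) :=
  ⟨uni _ (r_sq h0), H.hH _ (h.mem_Wr_of_eq (coe_eq_s rfl)) (uni_mem_SLV _ _), rfl⟩

/-- The algebra attached to a factor. -/
def alg (i : T) : Subalgebra F (End F V) where
  carrier := {E | E ∈ Cm (s i) ∧ ∀ u φ, φ u = 0 → UIn Y (r (s i) u φ * E)}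
  add_mem' ha hb := ⟨add_mem ha.1 hb.1, fun u φ h0 => mul_add (r (s i) u φ) _ _ ▸
    (ha.2 u φ h0).add (hb.2 u φ h0) (by simp [mul_assoc, Cm_r' ha.1, h0])⟩
  mul_mem' {a b} ha hb := ⟨mul_mem ha.1 hb.1, fun u φ h0 => by
    by_cases hu : u = 0
    · simpa [hu] using uIn_zero
    obtain ⟨z, h4, h5⟩ := exists_ker_not_mem H.h3 φ hu
    obtain ⟨ψ, h6, h7⟩ := exists_dual_one_zero h5
    simpa [mul_assoc, Cm_r' ha.1, h6] using (ha.2 u ψ h7).comm (hb.2 z φ h4)
      (by simp [mul_assoc, Cm_r' ha.1, h7]) (by simp [mul_assoc, Cm_r' hb.1, h4])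
      (by simp [mul_assoc, Cm_r' hb.1, h0])⟩
  algebraMap_mem' c := ⟨Subalgebra.algebraMap_mem _ c, fun u φ h0 => by
    simpa [Algebra.algebraMap_eq_smul_one] using H.one i (φ := c • φ) (by simp [h0])⟩

theorem mem_alg {i : T} {E : End F V} (hE : E ∈ Cm (s i)) {u : U} {φ : Dual F U} (hP : PL u φ)
    (h1 : UIn Y (r (s i) u φ * E)) : E ∈ H.alg i := ⟨hE, fun u' φ' h0 => by
  by_cases hu : u' = 0
  · simpa [hu] using uIn_zero
  by_cases hφ : φ' = 0
  · simpa [hφ] using uIn_zero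
  refine move_all H.h3 (p := fun u φ => UIn Y (r (s i) u φ * E)) (fun a χ z ψ h h0 p h2 h3 => ?_)
    (fun a χ z ψ h h0 p h2 h3 => ?_) h1 hP ⟨hu, hφ, h0⟩
  · simpa [h3] using (H.one i p.2.2).comm h (r_sq p.2.2) (by simp [mul_assoc, Cm_r' hE, h0])
      (by simp [mul_assoc, Cm_r hE, h2])
  · simpa [mul_assoc, Cm_r hE, h3] using h.comm (H.one i p.2.2) (by simp [mul_assoc, Cm_r' hE, h0])
      (r_sq p.2.2) (by simp [h2])⟩

theorem SLV_le {i : T} (hi : Cm (s i) ≤ H.alg i) : SLV F V ≤ Y := by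
  have := h.nt
  have key : ∀ {x θ N}, θ x = 1 → r (s i) x θ * N = N → N * r (s i) x θ = 0 → UIn Y N :=
    fun {x θ N} h1 h2 h3 => by
    let b := finBasis F U
    refine (uIn_sum Finset.univ (fun j => (hi (co_mem N θ (b j))).2 x (b.coord j - b.coord j x • θ)
      (by simp [h1])) fun j k => by
        rw [mul_assoc, Cm_r' (co_mem _ _ _), r_mul']; simp [h1]).of_eq ?_
    simp only [← r_co, h2]
    simp only [map_sub, map_smul, mul_sub, mul_smul_comm, Finset.sum_sub_distrib,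
      ← Finset.mul_sum, b, sum_r, mul_one, sub_eq_self]
    conv_rhs => rw [← h3, ← (finBasis F U).sum_repr x]
    simp only [map_sum, map_smul, LinearMap.sum_apply, LinearMap.smul_apply, Finset.mul_sum,
      mul_smul_comm, Basis.coord_apply]
  refine SLV_le_of_span (eq_top_iff.2 fun v _ => ?_)
  rw [show v = _ from (LinearMap.congr_fun (sum_r (s i)) v).symm, LinearMap.sum_apply]
  refine Submodule.sum_mem _ fun j _ => Submodule.subset_span ?_
  have hx := (finBasis F U).ne_zero j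
  have hv := r_mem_L (s := s i) (finBasis F U j) ((finBasis F U).coord j) v
  generalize r (s i) (finBasis F U j) ((finBasis F U).coord j) v = w at hv
  generalize finBasis F U j = x at hx hv
  obtain ⟨θ, hθ⟩ := exists_dual_one_of_ne (F := F) hx
  have k1 : ∀ {x θ w} {Φ : Dual F V}, θ x = 1 → w ∈ L (s i) x → Φ ∘ₗ r (s i) x θ = 0 → HasTv Y w Φ :=
    fun h1 h2 h3 => (key h1 (by ext z; simp [r_eq_of_mem_L h1 h2]) (by
      ext z; simpa using Or.inl (LinearMap.congr_fun h3 z))).hasTv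
  obtain ⟨y, h4, h5⟩ := exists_ker_not_mem H.h3 θ hx
  obtain ⟨χ, h6, h7⟩ := exists_dual_one_zero h5
  have hy : y ≠ 0 := by rintro rfl; simp at h6
  obtain ⟨z, hz⟩ : ∃ z, r (s i) y χ z ≠ 0 := by
    by_contra h'; push Not at h'
    exact r_ne_zero hy (by rintro rfl; simp at h6) (LinearMap.ext h')
  obtain ⟨Ψ, hΨ⟩ := exists_dual_one_of_ne (F := F) hz
  intro Φ hΦ
  have e := r_eq_of_mem_L hθ hv
  have := ((k1 (Φ := Ψ ∘ₗ r (s i) y χ) hθ hv (by ext; simp [h7])).comm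
    (k1 (Φ := Φ ∘ₗ r (s i) x θ) h6 (r_mem_L y χ z) (by ext; simp [h4])) (by simp [hv χ h7])
    (by simp [h4]) (by simp [e, hΦ])).add_right (k1 (Φ := Φ - Φ ∘ₗ r (s i) x θ) hθ hv
      (by ext; simp [hθ])) (by simp [e, hΦ])
  simpa [h6, hΨ] using this

theorem SLV_le_of {i : T} {E : End F V} (hE : E ∈ H.alg i) (h1 : ¬ ∃ c : F, E = c • 1) :
    SLV F V ≤ Y := by
  obtain ⟨l, hl⟩ : ∃ l, E ∉ Cm (s l) := by
    by_contra h'; push Not at h'; exact h1 (h.scalar h')
  have hil : i ≠ l := by rintro rfl; exact hl hE.1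
  have h2 := h.slot_le_alg (fun _ _ p => p.2.2) (sp2_PL H.h3) (one_PL H.h3)
    (A := Subalgebra.toSubmodule (H.alg i)) (fun _ a _ b => (H.alg i).mul_mem a b) (fun j u φ p G hG => by
      by_cases hj : j = i
      · subst hj; rwa [conj_Cm p.2.2 hG.1]
      have h2 := h.r_mem (Ne.symm hj) u φ
      refine ⟨mul_mem (mul_mem (add_mem (one_mem _) h2) hG.1) (sub_mem (one_mem _) h2),
        fun a ψ h0 => ?_⟩
      rw [← mul_assoc, ← mul_assoc, ← Cm_r (add_mem (one_mem _) h2), mul_assoc _ _ G]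
      exact (hG.2 a ψ h0).conj_uni (H.one j p.2.2) (r_sq p.2.2)) hE hl
  have symm : ∀ {i l}, i ≠ l → (∀ u φ, PL u φ → ∀ a ψ, PL a ψ → UIn Y (r (s i) u φ * r (s l) a ψ)) →
      ∀ a, s l a ∈ H.alg i := fun {i l} hil h3 => (sp2_PL H.h3).gen ((H.alg i).comap (s l))
    fun a ψ p => H.mem_alg (h.r_mem hil a ψ) p (h3 a ψ p a ψ p)
  refine H.SLV_le (i := i) fun G hG => h.mem_of_Cm (A := H.alg i) (fun k hk => ?_) (fun _ h => h.1) hG
  by_cases hkl : k = l
  · exact hkl ▸ h2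
  obtain ⟨g, hg, h3, h4, h5⟩ := h.exists_cycle (X := ⊤) hil hk.symm (Ne.symm hkl) (by simp)
  have h6 : g ∈ SLV F V := by
    have : ⁅(⊤ : Subgroup (V ≃ₗ[F] V)), ⊤⁆ ≤ SLV F V := Subgroup.commutator_le.2 fun a _ b _ =>
      mem_SLV.2 (by
        rw [← LinearEquiv.coe_det, map_commutatorElement, commutatorElement_eq_one_iff_mul_comm.2
          (mul_comm _ _)]; rfl)
    exact this hg
  refine symm hk.symm fun u φ _ a ψ p => ?_
  rw [← Cm_r (h.r_mem hk.symm a ψ)]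
  refine (((h2 (φ.smulRight u)).2 a ψ p.2.2).conj (H.hH g h3 h6)).of_eq ?_
  rw [← r_def, ← mul_assoc, h4, mul_assoc _ _ (r _ _ _), h5, ← mul_assoc, mul_assoc _ _ (_ : End F V),
    coe_mul_inv, mul_one]
  rfl

theorem glob (hE : ∀ i, ∀ E ∈ H.alg i, ∃ c : F, E = c • 1) : Glob s Y PL := by
  have := h.nt
  have : Nontrivial U := h.ntU
  have zs : ∀ {j a N}, a ≠ 0 → UIn Y N → N * N = 0 → (∀ v, N v ∈ L (s j) a) →
      ∃ ψ, N = r (s j) a ψ := fun {j a N} ha h1 h2 h3 => by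
    obtain ⟨θ, hθ⟩ := exists_dual_one_of_ne (F := F) ha
    have e : r (s j) a θ * N = N := LinearMap.ext fun v => r_eq_of_mem_L hθ (h3 v)
    have : ∀ z, ∃ c : F, co (s j) N θ z = c • 1 := fun z => by
      obtain ⟨ψ, h4, h5, h6⟩ := exists_ann_two H.h3 a z
      refine hE j _ (H.mem_alg (co_mem _ _ _) ⟨ha, h4, h5⟩ ?_)
      rw [← r_co, e]
      exact h1.comm (H.one j h6) h2 (r_sq h6) (LinearMap.ext fun v => h3 v ψ h5 z)
    choose c hc using this
    refine ⟨∑ k, c (finBasis F U k) • (finBasis F U).coord k, ?_⟩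
    rw [← mul_one N, ← sum_r (s j), Finset.mul_sum, ← e]
    simp [r_co, hc]
  have zd : ∀ {j y ψ N}, ψ y = 1 → UIn Y N → N * N = 0 → N * r (s j) y ψ = N →
      ∃ b, N = r (s j) b ψ := fun {j y ψ N} hy h1 h2 e => by
    have : ∀ χ, ∃ c : F, co (s j) N χ y = c • 1 := fun χ => by
      obtain ⟨z, h4, h5, h6⟩ := exists_ker_two H.h3 ψ χ
      refine hE j _ (H.mem_alg (co_mem _ _ _) ⟨h4, by rintro rfl; simp at hy, h5⟩ ?_)
      rw [← r_co, mul_assoc, e]
      exact (H.one j h6).comm h1 (r_sq h6) h2 (by rw [← e, mul_assoc]; simp [h5])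
    choose c hc using this
    refine ⟨∑ k, c ((finBasis F U).coord k) • finBasis F U k, ?_⟩
    rw [← one_mul N, ← sum_r (s j), Finset.sum_mul, ← e]
    simp [← mul_assoc, r_co, hc]
  refine ⟨id, fun p i => H.one i p.2.2, fun h1 h2 h3 _ => ⟨h1, h2, h3⟩, ?_,
    fun {g} hg i j u φ a p ha h1 => (sp2_PL H.h3).nm fun v χ q => ?_⟩
  · obtain ⟨u, hu⟩ := exists_ne (0 : U)
    obtain ⟨φ, h1, h2, -⟩ := exists_ann_two H.h3 u u
    exact ⟨u, φ, hu, h1, h2⟩
  have key : ∀ {u a φ}, a ≠ 0 → φ u = 0 → (∀ v ∈ L (s i) u, g v ∈ L (s j) a) →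
      ∃ ψ, (g * r (s i) u φ * (g⁻¹ : V ≃ₗ[F] V) : End F V) = r (s j) a ψ := fun ha h0 h1 =>
    zs ha ((H.one i h0).conj hg) (conj_sq g (r_sq h0)) fun v => h1 _ (r_mem_L _ _ _)
  obtain ⟨φ', h4, h5, h6⟩ := exists_ann_two H.h3 u v
  obtain ⟨ψ, hψ⟩ := key ha h5 h1
  obtain ⟨y, hy⟩ := exists_apply_eq_one (φ := ψ) (by
    rintro rfl; exact conj_ne_zero g (r_ne_zero p.1 h4) (by simpa using hψ))
  obtain ⟨θ, hθ⟩ := exists_dual_one_of_ne (F := F) p.1
  obtain ⟨b, hb⟩ := zd hy ((H.one i h6).conj hg) (conj_sq g (r_sq h6)) (by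
    have : (g * r (s i) v φ' * (g⁻¹ : V ≃ₗ[F] V) : End F V) =
        g * r (s i) v θ * (g⁻¹ : V ≃ₗ[F] V) * r (s j) a ψ := by
      rw [← hψ]; simp [mul_assoc, ← mul_assoc _ (g : End F V), coe_inv_mul, hθ]
    rw [this, mul_assoc, r_mul, hy, one_smul])
  obtain ⟨ψ', h7⟩ := key (a := b) (by
    rintro rfl; exact conj_ne_zero g (r_ne_zero q.1 h4) (by simpa using hb)) q.2.2
    (map_L_of_conj q.1 h4 fun w => hb ▸ r_mem_L _ _ _)
  exact ⟨_, h7⟩

end SLW

omit [FiniteDimensional F V] in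
theorem ex_PL (h3 : 3 ≤ finrank F U) (u : U) (φ : Dual F U) (p : PL u φ) :
    ∃ φ', PL u φ' ∧ φ' ∉ Submodule.span F {φ} := by
  obtain ⟨ψ, h1, h2⟩ := exists_ker_not_mem (V := Dual F U) (by simpa using h3) (Dual.eval F U u) p.2.1
  exact ⟨ψ, ⟨p.1, by rintro rfl; simp at h2, h1⟩, h2⟩

theorem Core.le_two_PL [Finite F] {J : Set T} (C : Core h Y PL J) (h2 : (2 : F) = 0)
    (h3 : 3 ≤ finrank F U) (hodd : finrank F U = 3 → Odd (finrank F V)) : Y ≤ h.Wr := by
  by_contra hY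
  have ne : ∀ {u : U} {φ φ' : Dual F U}, u ≠ 0 → φ' ∉ Submodule.span F {φ} →
      φ'.smulRight u ≠ φ.smulRight u := fun hu h1 e => h1 (by
    rw [LinearMap.ext fun v => smul_left_injective F hu (LinearMap.congr_fun e v)]
    exact Submodule.mem_span_singleton_self _)
  obtain ⟨u, φ, p⟩ := C.ex
  obtain ⟨i, hi, -⟩ := C.two
  obtain ⟨φ', p', h4⟩ := ex_PL h3 u φ p
  obtain ⟨k, -, α, hα, h5, -, M, h6, h7⟩ := C.exists_two h2 h3 (fun u φ p =>
    let ⟨ψ, q, h⟩ := ex_PL h3 u φ p; ⟨u, ψ, q, p.2.2, q.2.2, ne p.1 h⟩) hY hi p p' (ne p.1 h4).symm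
  have K : ∀ ψ z, PL u ψ → r (s i) u ψ (k z - z) = 0 → k z - z ∈ L (s i) u := fun ψ z q h8 => by
    obtain ⟨l, hl, m, hm, e⟩ := Submodule.mem_sup.1 (h6 z)
    rw [sup_idem] at hl
    rw [← e] at h8 ⊢
    exact add_mem hl (h7 u ψ q m hm (by simpa [hl ψ q.2.2 u] using h8))
  obtain ⟨β, hβ, -, e⟩ := hα.exists_Cm
  have e' : ∀ a θ z, k (r (s i) a θ z) = r (s i) (α a) θ (β z) := fun a θ z =>
    LinearMap.congr_fun (e a θ) z
  obtain ⟨v, -, hv⟩ := exists_ker_not_mem h3 φ p.1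
  have ind : ∀ ψ : Dual F U, ψ u = 0 → ψ v = 0 → ψ (α v) = 0 → ψ = 0 := fun ψ h8 h9 h10 => by
    by_contra h11
    obtain ⟨χ, h12, h13⟩ := exists_dual_one_zero hv
    obtain ⟨b, hb⟩ := hα.exists_eq h12 p.2.1 fun z =>
      K ψ _ ⟨p.1, h11, h8⟩ (by simp [e', h9, h10]) χ h13 v
    exact h5 b hb
  have h8 : finrank F U = 3 := by
    by_contra h8
    obtain ⟨ψ, hψ, h9⟩ := exists_ne_zero_map_eq_zero (LinearMap.pi fun a : Fin 3 =>
      Dual.eval F U (![u, v, α v] a)) (by simp; omega)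
    exact hψ (ind ψ (congrFun h9 0) (congrFun h9 1) (congrFun h9 2))
  have K' : ∀ a z w θ, a ∉ Submodule.span F {u} → k z - z - r (s i) a θ w ∈ L (s i) u →
      r (s i) a θ w = 0 := fun a z w θ ha h9 => by
    obtain ⟨ψ, h10, h11, h12⟩ := exists_ann_two h3 u a
    have h13 := h9 ψ h11 u
    refine eq_zero_of_mem_L ha (r_mem_L _ _ _) ?_
    simpa using sub_mem (K ψ z ⟨p.1, h10, h11⟩ (by simpa [h12] using h13)) h9
  have ni : ∀ c d : F, d ≠ 0 ∨ c ≠ 0 → c • α v - d • v ∉ Submodule.span F {u} := fun c d hd h9 => by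
    obtain ⟨a, ha⟩ := Submodule.mem_span_singleton.1 h9
    have key : ∀ ψ : Dual F U, ψ u = 0 → c * ψ (α v) = d * ψ v := fun ψ h10 => by
      simpa [h10, sub_eq_zero] using (congrArg ψ ha).symm
    rcases hd with hd | hd
    · obtain ⟨ψ, h10, h11, h12⟩ := exists_ann_two h3 u (α v)
      exact h10 (ind ψ h11 (by simpa [h12, hd] using key ψ h11) h12)
    · obtain ⟨ψ, h10, h11, h12⟩ := exists_ann_two h3 u v
      exact h10 (ind ψ h11 h12 (by simpa [h12, hd] using key ψ h11))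
  obtain ⟨c, a, b, e1⟩ : ∃ c a b : F, c • u + a • v + b • α v = α (α v) := by
    rw [← Submodule.mem_span_triple]
    by_contra h9
    obtain ⟨ψ, h10, h11⟩ := exists_dual_one h9
    simp [ind ψ (h11 _ (Submodule.subset_span (by simp))) (h11 _ (Submodule.subset_span (by simp)))
      (h11 _ (Submodule.subset_span (by simp)))] at h10
  have hαv : α v ∉ Submodule.span F {u} := by simpa using ni 1 0 (by simp)
  obtain ⟨d, z, hz, h9⟩ := exists_eigen_of_odd (hodd h8) (β := β) (a := a) (b := b)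
    (r_mul_eq_zero (s := s i) (u := α v) (by rintro h; simp [h] at hαv) p.2.1
      (sub_mem (add_mem (Subalgebra.smul_mem _ (mul_mem hβ hβ) _) (Subalgebra.smul_mem _ hβ _))
        (one_mem _)) (LinearMap.ext fun w => K' _ (r (s i) v φ (a • β w) + r (s i) (α v) φ w) _ φ hαv (by
          convert Submodule.smul_mem _ c (r_mem_L u φ (β w)) using 1
          simp only [map_add, e', ← e1, map_smul, LinearMap.add_apply, LinearMap.smul_apply,
            LinearMap.sub_apply, End.mul_apply, End.one_apply, map_sub]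
          module)))
  have hv0 : v ≠ 0 := by rintro rfl; simp at hv
  refine hz (eq_zero_of_r (s := s i) hv0 fun θ => ?_)
  have h10 := ni d 1 (by simp)
  obtain ⟨χ, h11, -⟩ := exists_dual_one_zero h10
  have h12 := K' _ (r (s i) v θ z) z θ h10 (by simp [e', h9])
  rw [← one_smul F (r _ v θ z), ← h11, ← r_r, h12, map_zero]

theorem TP.isMaximalIn_SLV [Finite F] (h : TP s) (h3 : 3 ≤ finrank F U) (hT : ∃ i j : T, i ≠ j)
    (hodd : finrank F U = 3 → Odd (finrank F V)) : Cfsg.Geo.IsMaximalIn (SLV F V) (h.Wr ⊓ SLV F V) := by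
  have key : ∀ Y, SLW h Y → ¬ Y ≤ h.Wr → SLV F V ≤ Y := fun Y H hY => by
    by_contra h1
    have G := H.glob fun i E hE => by_contra fun h2 => h1 (H.SLV_le_of hE h2)
    by_cases h2 : (2 : F) = 0
    · exact hY (G.le (G.rec_two h2 h3 fun _ => by
        obtain ⟨u, φ, p⟩ := G.ex
        obtain ⟨ψ, q, h4⟩ := ex_PL h3 u φ p
        exact ⟨u, φ, ψ, p, q, fun e => h4 (by
          rw [eq_neg_of_add_eq_zero_right e]; exact neg_mem (Submodule.mem_span_singleton_self _))⟩)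
        fun _ _ _ C => C.le_two_PL h2 h3 hodd)
    · exact hY (G.le (G.rec_odd h2) fun _ _ _ C => C.le_odd h2 h3 fun χ hχ => by
        obtain ⟨u, hu⟩ := exists_apply_eq_one hχ
        obtain ⟨φ, h1, h2, -⟩ := exists_ann_two h3 u u
        exact ⟨u, φ, ⟨by rintro rfl; simp at hu, h1, h2⟩, by simp [hu]⟩)
  refine isMaximalIn_of inf_le_right ?_ fun X hX hle g hg hg' =>
    key X ⟨h3, fun g h1 h2 => hX ⟨h1, h2⟩⟩ fun h1 => hg' ⟨h1 hg, hle hg⟩
  obtain ⟨i, j, hij⟩ := hT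
  have := h.nt
  have := h.ntU
  obtain ⟨u, hu⟩ := exists_ne (0 : U)
  obtain ⟨φ, h1, h2, -⟩ := exists_ann_two h3 u u
  have h4 : r (s i) u φ * r (s j) u φ * (r (s i) u φ * r (s j) u φ) = 0 := by
    simp [mul_assoc, Cm_r' (h.r_mem hij u φ), h2]
  exact ⟨uni _ h4, uni_mem_SLV _ _, fun h5 => h.not_mem_Wr hij hu h1 h2 hu h1 h2 rfl h5.1⟩

section Bridge

open Cfsg Cfsg.Geo Asch Matrix

variable {ι : Type} [Fintype ι] [DecidableEq ι] {k t : ℕ}

/-- The factors of a tensor decomposition in coordinates. -/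
noncomputable def sl (e : ι ≃ (Fin t → Fin k)) (P : GL ι F) (i : Fin t) :
    End F (Fin k → F) →ₐ[F] End F (ι → F) :=
  (Matrix.toLinAlgEquiv' (R := F) (n := ι)).toAlgHom.comp ((coord e P).toAlgHom.comp
    ((slotHom i).comp (Matrix.toLinAlgEquiv' (R := F) (n := Fin k)).symm.toAlgHom))

variable (e : ι ≃ (Fin t → Fin k)) (P : GL ι F)

theorem sl_apply (i : Fin t) (a : Matrix (Fin k) (Fin k) F) :
    sl e P i (Matrix.toLinAlgEquiv' a) = Matrix.toLinAlgEquiv' (coord e P (slot i a)) := by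
  simp [sl, slotHom_apply]

theorem tp_sl (hk : 2 ≤ k) : TP (sl e P) where
  comm hij a := mem_Cm.2 fun b => by
    obtain ⟨a, rfl⟩ := Matrix.toLinAlgEquiv'.surjective a
    obtain ⟨b, rfl⟩ := Matrix.toLinAlgEquiv'.surjective b
    rw [sl_apply, sl_apply, ← map_mul, ← map_mul, ← map_mul, ← map_mul, slot_comm hij]
  gen A hA := eq_top_iff.2 fun E _ => by
    obtain ⟨E, rfl⟩ := Matrix.toLinAlgEquiv'.surjective E
    obtain ⟨E, rfl⟩ := (coord e P).surjective E
    have := eq_top_of_slot (A := A.comap ((Matrix.toLinAlgEquiv' (R := F) (n := ι)).toAlgHom.comp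
      (coord e P).toAlgHom)) fun i a => by simpa [sl_apply] using hA i (Matrix.toLinAlgEquiv' a)
    exact (this ▸ Algebra.mem_top : E ∈ A.comap _)
  two := by simpa using hk
  nt := by
    have : Nonempty ι := ⟨e.symm fun _ => ⟨0, by omega⟩⟩
    infer_instance

theorem mem_Wr_sl (hk : 2 ≤ k) (ht : 0 < t) (g : GL ι F) :
    g ∈ tensorWreathSubgroup k t e P ↔ toEquiv g ∈ (tp_sl e P hk).Wr := by
  have key : ∀ i j a b, (toEquiv g : End F (ι → F)) * sl e P i (Matrix.toLinAlgEquiv' a) =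
      sl e P j (Matrix.toLinAlgEquiv' b) * toEquiv g ↔
        cj ((coordGL e P).symm g) (slot i a) = slot j b := fun i j a b => by
    rw [← (coord e P).injective.eq_iff, coord_cj, MulEquiv.apply_symm_apply, cj_eq_iff, sl_apply,
      sl_apply, ← (Matrix.toLinAlgEquiv' (R := F) (n := ι)).injective.eq_iff, map_mul, map_mul]
    rfl
  rw [mem_tensorWreathSubgroup]
  refine ⟨fun hg i => ?_, fun hg => mem_wreath_of_normalizes ht hk _ fun i => ?_⟩
  · obtain ⟨j, x, hx⟩ := NonMax.wreath_cj_slot hg i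
    refine ⟨j, fun a => ?_⟩
    obtain ⟨a, rfl⟩ := Matrix.toLinAlgEquiv'.surjective a
    exact ⟨_, (key _ _ _ _).2 (hx a)⟩
  · obtain ⟨j, hj⟩ := hg i
    refine ⟨j, fun a => ?_⟩
    obtain ⟨b, hb⟩ := hj (Matrix.toLinAlgEquiv' a)
    obtain ⟨b, rfl⟩ := Matrix.toLinAlgEquiv'.surjective b
    exact ⟨b, (key _ _ _ _).1 hb⟩

theorem tensorWreath_isMaximalIn [Finite F] (hk : 3 ≤ k) (ht : 2 ≤ t) :
    IsMaximalIn (specialLinear ι F) (tensorWreathSubgroup k t e P ⊓ specialLinear ι F) := by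
  rw [show tensorWreathSubgroup k t e P = (tp_sl e P (by omega)).Wr.comap toEquiv.toMonoidHom from
    Subgroup.ext (mem_Wr_sl e P (by omega) (by omega)), specialLinear_eq, ← Subgroup.comap_inf]
  refine isMaximalIn_comap _ (TP.isMaximalIn_SLV _ (by simpa using hk)
    ⟨⟨0, by omega⟩, ⟨1, by omega⟩, by simp⟩ fun h3 => ?_)
  obtain rfl : k = 3 := by simpa using h3
  simpa [Fintype.card_congr e] using Odd.pow (by decide)

end Bridge

end CfsgLib.C7
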