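import Mathlib
import Cfsg.Agent.Lib.C7.SL

/-!
Tensor powers of a space with a skew-hermitian or alternating form: geometry of the factor.
-/

set_option autoImplicit false

namespace CfsgLib.C7

open Module CfsgLib.ClMax

variable {F U V : Type*} [Field F] [AddCommGroup U] [Module F U] [AddCommGroup V] [Module F V]
  {σ : F →+* F} {B : U →ₛₗ[σ] Dual F U}

variable (σ B) in
/-- A non-degenerate isotropic skew-hermitian (or alternating) form. -/
structure Fm : Prop where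
  σσ : ∀ a, σ (σ a) = a
  sk : ∀ x y, B y x = -σ (B x y)
  nd : ∀ x, B x = 0 → x = 0
  sj : ∀ φ, ∃ x, B x = φ
  par : ∀ c, ∃ e, e - σ e = B c c
  iso : ∃ x, x ≠ 0 ∧ B x x = 0

variable (σ B) in
/-- The roots attached to the form. -/
def PF (u : U) (φ : Dual F U) : Prop := u ≠ 0 ∧ B u u = 0 ∧ ∃ c, c ≠ 0 ∧ σ c = c ∧ φ = c • B u

theorem PF.of {u : U} (hu : u ≠ 0) (h : B u u = 0) : PF σ B u (B u) :=
  ⟨hu, h, 1, one_ne_zero, map_one σ, (one_smul _ _).symm⟩

theorem PF.zero {u : U} {φ : Dual F U} (p : PF σ B u φ) : φ u = 0 := by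
  obtain ⟨-, h, c, -, -, rfl⟩ := p; simp [h]

theorem mem_of_dual {A : Submodule F U} (h : ∀ χ : Dual F U, (∀ a ∈ A, χ a = 0) → χ = 0) (u : U) :
    u ∈ A := by
  by_contra hu
  obtain ⟨χ, h1, h2⟩ := exists_dual_one hu
  simp [h χ h2] at h1

namespace Fm

variable (M : Fm σ B)
include M

theorem orth {x y : U} (h : B x y = 0) : B y x = 0 := by rw [M.sk, h]; simp

theorem north {x y : U} (h : B x y ≠ 0) : B y x ≠ 0 := fun h1 => h (M.orth h1)

theorem ne {x : U} (h : x ≠ 0) : B x ≠ 0 := fun h1 => h (M.nd x h1)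

theorem nz {u : U} {φ : Dual F U} (p : PF σ B u φ) : u ≠ 0 ∧ φ ≠ 0 ∧ φ u = 0 :=
  ⟨p.1, let ⟨h, _, _, hc, _, e⟩ := p; e ▸ smul_ne_zero hc (M.ne h), p.zero⟩

theorem exists_iso_add {x w : U} (hx : B x x = 0) (h : B x w = 1) :
    ∃ e : F, ∀ t : F, σ t = t → B (w + (e + t) • x) (w + (e + t) • x) = 0 := by
  obtain ⟨e, he⟩ := M.par w
  refine ⟨e, fun t ht => ?_⟩
  simp only [map_add, LinearMap.map_smulₛₗ, LinearMap.add_apply, LinearMap.smul_apply, map_smul, hx,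
    h, M.sk x w, ht, smul_eq_mul, map_one]
  linear_combination -he

theorem exists_nonorth {x : U} (h0 : x ≠ 0) (hx : B x x = 0) {χ : Dual F U} (hχ : χ ≠ 0) :
    ∃ y, B y y = 0 ∧ B x y = 1 ∧ χ y ≠ 0 := by
  obtain ⟨w, h1, h2⟩ : ∃ w, B x w = 1 ∧ χ w ≠ 0 := by
    obtain ⟨w, hw⟩ := exists_apply_eq_one (M.ne h0)
    obtain ⟨z, hz⟩ := exists_apply_eq_one hχ
    by_cases h1 : χ w = 0
    · by_cases h2 : B x z = 0
      · exact ⟨w + z, by simp [hw, h2], by simp [h1, hz]⟩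
      · exact ⟨(B x z)⁻¹ • z, by simp [h2], by simp [h2, hz]⟩
    · exact ⟨w, hw, h1⟩
  obtain ⟨e, he⟩ := M.exists_iso_add hx h1
  by_cases h3 : χ (w + (e + 0) • x) = 0
  · refine ⟨_, he 1 (map_one σ), by simp [h1, hx], fun h4 => h2 ?_⟩
    simp only [map_add, map_smul, smul_eq_mul] at h3 h4
    linear_combination (e + 1) * h3 - e * h4
  · exact ⟨_, he 0 (map_zero σ), by simp [h1, hx], h3⟩

theorem partner {x : U} (h0 : x ≠ 0) (hx : B x x = 0) : ∃ y, B y y = 0 ∧ B x y = 1 :=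
  let ⟨y, h1, h2, _⟩ := M.exists_nonorth h0 hx (M.ne h0); ⟨y, h1, h2⟩

theorem mem_of_nonorth {x : U} (h0 : x ≠ 0) (hx : B x x = 0) {A : Submodule F U}
    (h : ∀ y, B y y = 0 → B x y = 1 → y ∈ A) (u : U) : u ∈ A :=
  mem_of_dual (fun χ hχ => by
    by_contra h1
    obtain ⟨y, h2, h3, h4⟩ := M.exists_nonorth h0 hx h1
    exact h4 (hχ y (h y h2 h3))) u

theorem exists_dual {x c : U} (h0 : c ∉ Submodule.span F {x}) : ∃ w, B x w = 0 ∧ B c w = 1 := by
  obtain ⟨χ, h2, h3⟩ := exists_dual_one_zero h0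
  obtain ⟨w, hw⟩ := M.sj (-χ)
  exact ⟨w, M.orth (by simp [hw, h3]), by simp [M.sk w c, hw, h2]⟩

theorem mem_of_orth {x c : U} (hc : B c c = 0) (hxc : B x c = 0) (h0 : c ∉ Submodule.span F {x})
    {A : Submodule F U} (h : ∀ y, B y y = 0 → B x y = 0 → y ∈ A) {u : U} (hu : B x u = 0) : u ∈ A := by
  have key : ∀ w, B x w = 0 → B c w = 1 → w ∈ A := fun w h1 h2 => by
    obtain ⟨e, he⟩ := M.exists_iso_add hc h2
    simpa using A.sub_mem (h _ (he 0 (map_zero σ)) (by simp [h1, hxc])) (A.smul_mem e (h c hc hxc))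
  by_cases h1 : B c u = 0
  · obtain ⟨w, h2, h3⟩ := M.exists_dual h0
    simpa using A.sub_mem (key (u + w) (by simp [hu, h2]) (by simp [h1, h3])) (key w h2 h3)
  · simpa [smul_smul, h1] using A.smul_mem (B c u) (key ((B c u)⁻¹ • u) (by simp [hu]) (by simp [h1]))

theorem ex : ∃ u φ, PF σ B u φ := let ⟨x, h0, hx⟩ := M.iso; ⟨x, _, PF.of h0 hx⟩

theorem span (χ : Dual F U) (hχ : χ ≠ 0) : ∃ u φ, PF σ B u φ ∧ χ u ≠ 0 := by
  obtain ⟨x, h0, hx⟩ := M.iso
  obtain ⟨y, h1, -, h2⟩ := M.exists_nonorth h0 hx hχ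
  exact ⟨y, _, PF.of (by rintro rfl; simp at h2) h1, h2⟩

theorem mv1 {p : U → Prop} (hp : ∀ u y t, p u → B y y = 0 → σ t = t → p (u + (t * B y u) • y))
    {u w : U} (h : p u) (hu : B u u = 0) (hw : B w w = 0) (h1 : B w u ≠ 0) {t : F} (ht : σ t = t)
    (h0 : t ≠ 0) : p ((t * B w u) • w) := by
  have h2 := M.north h1
  have := hp _ u (-(t * B w u * B u w)⁻¹) (hp u w t h hw ht) hu (by
    simp only [map_neg, map_inv₀, map_mul, ht]
    rw [M.sk u w, M.sk w u]; simp [M.σσ]; ring)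
  convert this using 1
  simp only [map_add, map_smul, hu, smul_eq_mul]
  match_scalars <;> (field_simp; try ring)

theorem mv2 {p : U → Prop} (hp : ∀ u y t, p u → B y y = 0 → σ t = t → p (u + (t * B y u) • y))
    {u : U} (h : p u) (h0 : u ≠ 0) (hu : B u u = 0) {t : F} (ht : σ t = t) (ht0 : t ≠ 0) :
    p (t • u) := by
  obtain ⟨y, hy, h1⟩ := M.partner h0 hu
  have h2 : B y u = -1 := by simp [M.sk u y, h1]
  simpa [h1, h2] using M.mv1 hp (M.mv1 hp h hu hy (by simp [h2]) (map_one σ) one_ne_zero)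
    (by simp [hy]) hu (by simp [h1, h2]) (t := -t) (by simp [ht]) (by simpa)

theorem move {p : U → Prop} (hp : ∀ u y t, p u → B y y = 0 → σ t = t → p (u + (t * B y u) • y))
    (hs : ∀ u (c : F), c ≠ 0 → p (c • u) → p u) {u w : U} (h : p u) (h0 : u ≠ 0) (hu : B u u = 0)
    (hw0 : w ≠ 0) (hw : B w w = 0) : p w := by
  obtain ⟨y, hy, h1, h2⟩ := M.exists_nonorth h0 hu (M.ne hw0)
  have h3 : B y u ≠ 0 := M.north (by simp [h1])
  exact hs _ _ (by simpa using h2) (M.mv1 hp (hs _ _ (by simpa using h3)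
    (M.mv1 hp h hu hy h3 (map_one σ) one_ne_zero)) hy hw h2 (map_one σ) one_ne_zero)

variable {s : End F U →ₐ[F] End F V}

theorem conj_r {y : U} (hy : B y y = 0) {t : F} (ht : σ t = t) (u w : U) {E : End F V}
    (hE : E ∈ Cm s) : (1 + t • r s y (B y)) * (r s u (B w) * E) * (1 - t • r s y (B y)) =
      r s (u + (t * B y u) • y) (B (w + (t * B y w) • y)) * E := by
  simp only [mul_sub, add_mul, mul_assoc, mul_smul_comm, smul_mul_assoc, Cm_r hE, r_mul', one_mul,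
    mul_one, map_add, LinearMap.map_smulₛₗ, map_smul, LinearMap.add_apply, LinearMap.smul_apply,
    map_mul, ht, hy, M.sk y w, RingHom.id_apply]
  module

variable [FiniteDimensional F U]

theorem sp2 : Sp2 (PF σ B) := fun A h => mem_of_rankOne fun u φ => by
  obtain ⟨x, h0, hx⟩ := M.iso
  refine M.mem_of_nonorth h0 hx (A := A.comap (LinearMap.smulRightₗ φ)) (fun y hy h1 => ?_) u
  have hy0 : y ≠ 0 := by rintro rfl; simp at h1
  refine mem_of_dual (A := A.comap (LinearMap.smulRightₗ.flip y)) (fun χ hχ => ?_) φ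
  obtain ⟨z, rfl⟩ := (Module.evalEquiv F U).surjective χ
  by_contra h2
  obtain ⟨w, hw, h3, h4⟩ := M.exists_nonorth hy0 hy (M.ne (x := z) (by rintro rfl; simp at h2))
  exact h4 (M.orth (hχ (B w) (h y _ w _ (PF.of hy0 hy) (PF.of (by rintro rfl; simp at h3) hw)
    (by simp [h3]))))

theorem Cm_of_iso {E : End F V} (h : ∀ u φ, B u u = 0 → φ u = 0 → co s E φ u = 0) : E ∈ Cm s := by
  have e1 : ∀ φ z χ, B z z = 0 → φ z = 1 → co s E χ z = χ z • co s E φ z := fun φ z χ hz h1 => by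
    simpa [sub_eq_zero] using h z (χ - χ z • φ) hz (by simp [h1])
  obtain ⟨x, h0, hx⟩ := M.iso
  obtain ⟨y, hy, h1⟩ := M.partner h0 hx
  have h2 : B y x = -1 := by simp [M.sk x y, h1]
  rw [eq_of_co (s := s) (E := E) (C := co s E (-B y) x) fun χ z => ?_]
  · exact co_mem _ _ _
  refine sub_eq_zero.1 (M.mem_of_nonorth h0 hx (A := LinearMap.ker
    (co s E χ - χ.smulRight (co s E (-B y) x))) (fun w hw h3 => ?_) z)
  have h4 : B w x = -1 := by simp [M.sk x w, h3]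
  have h5 := h (x + w) (B x + B w) (by simp [*]) (by simp [*])
  have h6 := e1 (-B y) x (B w) hx (by simp [h2])
  simp only [map_add, LinearMap.add_apply, h _ _ hx hx, h _ _ hw hw, h6, h4] at h5
  simp only [LinearMap.mem_ker, LinearMap.sub_apply, LinearMap.smulRight_apply,
    e1 (B x) w χ hw h3, ← smul_sub]
  rw [show co s E (B x) w - _ = 0 by linear_combination (norm := module) h5, smul_zero]

/-- The criterion with orthogonal pairs. -/
theorem Cm_of_orth (o2 : ∀ x z, ∃ c, c ≠ 0 ∧ B c c = 0 ∧ B x c = 0 ∧ B z c = 0) {E : End F V}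
    (h : ∀ a b, a ≠ 0 → B a a = 0 → B b b = 0 → B a b = 0 → b ∉ Submodule.span F {a} →
      co s E (B b) a = 0) : E ∈ Cm s := M.Cm_of_iso fun a φ ha h1 => by
  by_cases h0 : a = 0
  · simp [h0]
  obtain ⟨y, hy, h2⟩ := M.partner h0 ha
  obtain ⟨c, h3, h4, h5, h6⟩ := o2 a y
  have h7 : c ∉ Submodule.span F {a} := fun h7 => by
    obtain ⟨t, rfl⟩ := Submodule.mem_span_singleton.1 h7
    simp [M.sk a y, h2, h0] at h6 h3
    exact h3 h6
  obtain ⟨d, rfl⟩ := M.sj φ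
  let A : Submodule F U :=
    { carrier := {d | co s E (B d) a = 0}
      add_mem' h1 h2 := by simp_all
      zero_mem' := by simp
      smul_mem' _ _ h1 := by simp_all }
  refine M.mem_of_orth h4 h5 h7 (A := A) (fun b hb h8 => ?_) (M.orth h1)
  by_cases h9 : b ∈ Submodule.span F {a}
  · have h10 : B c b = 0 := by
      obtain ⟨t, rfl⟩ := Submodule.mem_span_singleton.1 h9
      simp [M.orth h5]
    simpa using A.sub_mem (h a (b + c) h0 ha (by simp [hb, h4, h10, M.orth h10]) (by simp [h8, h5])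
      fun h11 => h7 (by simpa using sub_mem h11 h9)) (h a c h0 ha h4 h5 h7)
  · exact h a b h0 ha hb h8 h9

/-- The criterion with single roots. -/
theorem Cm_of_diag (hk : (∃ ω, σ ω ≠ ω) ∨ finrank F U = 2) {E : End F V}
    (h : ∀ a, B a a = 0 → co s E (B a) a = 0) : E ∈ Cm s := M.Cm_of_iso fun a φ ha h1 => by
  by_cases h0 : a = 0
  · simp [h0]
  obtain ⟨y, hy, h2⟩ := M.partner h0 ha
  have h3 : B y a = -1 := by simp [M.sk a y, h2]
  obtain ⟨d, rfl⟩ := M.sj φ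
  have key : ∀ d, B a d = 0 → co s E (B d) a + co s E (B a) d = 0 := fun d hd => by
    have aux : ∀ d, B a d = 0 → co s E (B (y + d)) a + co s E (B a) (y + d) = 0 := fun d hd => by
      obtain ⟨e, he⟩ := M.exists_iso_add (w := y + d) ha (by simp [h2, hd])
      have h4 := h _ (he 0 (map_zero σ))
      have h5 := h _ (he 1 (map_one σ))
      generalize y + d = w at h4 h5
      simp only [map_add, LinearMap.map_smulₛₗ, map_smul, LinearMap.add_apply, LinearMap.smul_apply,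
        h a ha, map_one, map_zero, RingHom.id_apply] at h4 h5
      linear_combination (norm := module) h5 - h4
    have h4 := aux d hd
    have h5 := aux 0 (map_zero _)
    simp only [map_add, LinearMap.add_apply, map_zero, add_zero] at h4 h5
    linear_combination (norm := module) h4 - h5
  rcases hk with ⟨ω, hω⟩ | hk
  · have h4 := key d (M.orth h1)
    have h5 := key (ω • d) (by simp [M.orth h1])
    simp only [LinearMap.map_smulₛₗ, map_smul, LinearMap.smul_apply, RingHom.id_apply] at h5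
    refine (smul_eq_zero_iff_right (sub_ne_zero.2 hω)).1 ?_
    linear_combination (norm := module) h5 - ω • h4
  · obtain ⟨t, rfl⟩ : ∃ t : F, t • a = d := by
      rw [← Submodule.mem_span_singleton]
      by_contra h4
      obtain ⟨w, h5, h6⟩ := M.exists_dual h4
      have h7 : LinearIndependent F ![a, d, y] := by
        rw [Fintype.linearIndependent_iff]
        intro g hg
        simp only [Fin.sum_univ_three, Matrix.cons_val] at hg
        have h8 : g 2 = 0 := by simpa [ha, M.orth h1, h2] using congrArg (B a) hg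
        have h9 : g 1 = 0 := by
          simpa [h8, M.orth h5, M.sk d w, h6] using congrArg (B w) hg
        have h10 : g 0 = 0 := by simpa [h8, h9, h0] using hg
        intro i; fin_cases i <;> assumption
      have := h7.fintype_card_le_finrank
      simp at this; omega
    simp [h a ha]

end Fm

variable {T : Type*} {s : T → End F U →ₐ[F] End F V}

theorem Inv.pf {A : Set (End F V)} (h : Inv s (PF σ B) A) (i : T) {y : U} (hy : B y y = 0) {t : F}
    (ht : σ t = t) {E : End F V} (hE : E ∈ A) :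
    (1 + t • r (s i) y (B y)) * E * (1 - t • r (s i) y (B y)) ∈ A := by
  by_cases h0 : y = 0
  · simpa [h0] using hE
  by_cases h1 : t = 0
  · simpa [h1] using hE
  simpa using h i y _ ⟨h0, hy, t, h1, ht, rfl⟩ E hE

theorem Inv.sub (nz : ∀ u φ, PF σ B u φ → φ u = 0) (h : TP s) {A : Set (End F V)}
    (hA : Inv s (PF σ B) A) (l : T) (a b : End F U) :
    Inv s (PF σ B) {C | C ∈ Cm (s l) ∧ ∃ D ∈ Cm (s l), s l a * C + s l b * D ∈ A} := by
  rintro i u φ hP C ⟨hC, D, hD, h2⟩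
  by_cases hi : i = l
  · subst hi; rw [conj_Cm (nz u φ hP) hC]; exact ⟨hC, D, hD, h2⟩
  have h1 := h.r_mem (Ne.symm hi) u φ
  have h3 := fun {C} hC => mul_mem (mul_mem (add_mem (one_mem (Cm (s l))) h1) (b := C) hC)
    (sub_mem (one_mem _) h1)
  refine ⟨h3 hC, _, h3 hD, ?_⟩
  simp only [← mul_assoc, mem_Cm.1 (add_mem (one_mem _) h1)]
  have h4 := hA i u φ hP _ h2
  rw [mul_add, add_mul] at h4
  simpa only [mul_assoc] using h4

variable [FiniteDimensional F U]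

/-- A square-zero element of an invariant subgroup. -/
theorem Fm.exists_two (M : Fm σ B) (o2 : ∀ x z, ∃ c, c ≠ 0 ∧ B c c = 0 ∧ B x c = 0 ∧ B z c = 0)
    {A : AddSubgroup (End F V)} (hA : Inv s (PF σ B) A) {l : T} {E : End F V} (hE : E ∈ A)
    (hl : E ∉ Cm (s l)) : ∃ a b, ∃ C ∈ Cm (s l), ∃ D ∈ Cm (s l), a ≠ 0 ∧ B a a = 0 ∧ B b b = 0 ∧
      B a b = 0 ∧ b ∉ Submodule.span F {a} ∧ C ≠ 0 ∧ r (s l) b (B a) * C + r (s l) a (B b) * D ∈ A := by
  by_contra h'
  refine hl (M.Cm_of_orth o2 fun a b h0 ha hb hab hn => by_contra fun h1 => h' ?_)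
  have hb0 : b ≠ 0 := by rintro rfl; simp at hn
  have := t_two hE (hA l a _ (PF.of h0 ha)) (hA l b _ (PF.of hb0 hb)) (by simp [hab])
    (by simp [M.orth hab])
  rw [r_co, r_co] at this
  exact ⟨a, b, _, co_mem _ _ _, _, co_mem _ _ _, h0, ha, hb, hab, hn, h1, this⟩

theorem Fm.exists_one (M : Fm σ B) (hk : (∃ ω, σ ω ≠ ω) ∨ finrank F U = 2) {c : F} (hc : σ c = c)
    (hc0 : c ≠ 0) (hc1 : c ≠ 1) {A : AddSubgroup (End F V)} (hA : Inv s (PF σ B) A)
    (hs : ∀ c, σ c = c → ∀ E ∈ A, c • E ∈ A) {l : T} {E : End F V} (hE : E ∈ A)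
    (hl : E ∉ Cm (s l)) : ∃ a, ∃ C ∈ Cm (s l), a ≠ 0 ∧ B a a = 0 ∧ C ≠ 0 ∧ r (s l) a (B a) * C ∈ A := by
  by_contra h'
  refine hl (M.Cm_of_diag hk fun a ha => by_contra fun h1 => h' ?_)
  have h0 : a ≠ 0 := by rintro rfl; simp at h1
  have := t_one hE (hs c hc) (hA l a _ (PF.of h0 ha) E hE) (hA.pf l ha hc hE)
  rw [r_co, ← mul_smul_comm] at this
  refine ⟨a, _, Subalgebra.smul_mem _ (co_mem _ _ _) _, h0, ha, smul_ne_zero ?_ h1, this⟩
  rw [show c - c ^ 2 = c * (1 - c) by ring]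
  exact mul_ne_zero hc0 (sub_ne_zero.2 hc1.symm)

theorem Fm.one_of (M : Fm σ B) (h : ∀ A : Submodule F (End F V), (∀ E ∈ A, ∀ G ∈ A, E * G ∈ A) →
    Inv s (PF σ B) A → ∀ l, ∀ E ∈ A, E ∉ Cm (s l) →
      ∃ a, ∃ C ∈ Cm (s l), a ≠ 0 ∧ B a a = 0 ∧ C ≠ 0 ∧ r (s l) a (B a) * C ∈ A) :
    One s (PF σ B) := fun A hm hA l E hE hl => by
  obtain ⟨a, C, hC, h0, ha, h1, h2⟩ := h A hm hA l E hE hl
  refine ⟨C, hC, h1, ?_⟩
  rintro u _ ⟨hu0, hu, c, -, -, rfl⟩
  simpa using A.smul_mem c (M.move (p := fun u => r (s l) u (B u) * C ∈ A)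
    (fun u y t h hy ht => M.conj_r hy ht u u hC ▸ hA.pf l hy ht h) (fun u c hc h => by
      simpa [smul_smul, A.smul_mem_iff, hc] using h) h2 h0 ha hu0 hu)

theorem Fm.one_small (M : Fm σ B) (hk : (∃ ω, σ ω ≠ ω) ∨ finrank F U = 2) {c : F} (hc : σ c = c)
    (hc0 : c ≠ 0) (hc1 : c ≠ 1) : One s (PF σ B) := M.one_of fun A _ hA _ _ hE hl =>
  M.exists_one hk hc hc0 hc1 (A := A.toAddSubgroup) hA (fun c _ _ h => A.smul_mem c h) hE hl

theorem Fm.one_big (M : Fm σ B) (h : TP s)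
    (o2 : ∀ x z, ∃ c, c ≠ 0 ∧ B c c = 0 ∧ B x c = 0 ∧ B z c = 0) : One s (PF σ B) :=
  M.one_of fun A hm hA l E hE hl => by
  obtain ⟨a, b, C, hC, D, hD, h0, ha, hb, hab, hn, h1, h2⟩ :=
    M.exists_two o2 (A := A.toAddSubgroup) hA hE hl
  have hb0 : b ≠ 0 := by rintro rfl; simp at hn
  obtain ⟨w, h3, h4⟩ := M.exists_dual (not_mem_span_symm' h0 hn)
  obtain ⟨e, he⟩ := M.exists_iso_add ha h4
  obtain ⟨y, hy, h5, h6⟩ : ∃ y, B y y = 0 ∧ B a y = 1 ∧ B b y = 0 :=
    ⟨_, he 0 (map_zero σ), by simp [ha, h4], by simp [h3, M.orth hab]⟩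
  have h7 : B y a = -1 := by simp [M.sk a y, h5]
  have cj : ∀ {y C D}, B y y = 0 → B y a = -1 → B y b = 0 → C ∈ Cm (s l) → D ∈ Cm (s l) →
      r (s l) b (B a) * C + r (s l) a (B b) * D ∈ A → r (s l) b (B y) * C + r (s l) y (B b) * D ∈ A :=
    fun hy h7 h6 hC hD h2 => by
      have h8 := hA.pf l hy (map_one σ) h2
      rw [mul_add, add_mul, M.conj_r hy (map_one σ) _ _ hC, M.conj_r hy (map_one σ) _ _ hD] at h8
      convert A.sub_mem h2 h8 using 1
      simp [h7, h6, add_mul]; abel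
  by_cases h8 : C + D = 0
  · obtain ⟨G, ⟨hG, G', hG', h9⟩, h10⟩ : ∃ G ∈ {G | G ∈ Cm (s l) ∧ ∃ D ∈ Cm (s l),
        s l ((B b).smulRight a) * G + s l ((B a).smulRight b) * D ∈ A}, C * G ≠ 0 := by
      by_contra h'
      push Not at h'
      exact h1 (h.sandwich (fun _ _ => PF.zero) M.sp2 (hA.sub (fun _ _ => PF.zero) h l _ _) (C := D)
        ⟨hD, C, hC, add_comm (r (s l) b (B a) * C) _ ▸ h2⟩ (fun h11 => h1 (by simpa [h11] using h8)) h')
    refine ⟨b, _, mul_mem hC hG, hb0, hb, h10, ?_⟩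
    simpa [mul_add, add_mul, mul_assoc, Cm_r' hC, Cm_r' hD, hab, h5, hb, h6] using
      hm _ h2 _ (cj hy h7 (M.orth h6) hG' hG (add_comm (r (s l) a (B b) * G) _ ▸ h9))
  · refine ⟨b, _, add_mem hC hD, hb0, hb, h8, ?_⟩
    convert A.sub_mem (cj (y := y + b) (by simp [hy, hb, h6, M.orth h6]) (by simp [h7, M.orth hab])
      (by simp [hb, M.orth h6]) hC hD h2) (cj hy h7 (M.orth h6) hC hD h2) using 1
    simp [add_mul, mul_add]; abel

end CfsgLib.C7
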