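import Mathlib
import Cfsg.Agent.Lib.C7.Form

/-!
Tensor powers of a space with a form: the rigid case.
-/

set_option autoImplicit false

namespace CfsgLib.C7

open Module CfsgLib.ClMax

variable {F U V : Type*} [Field F] [AddCommGroup U] [Module F U] [AddCommGroup V] [Module F V]
  {σ : F →+* F} {B : U →ₛₗ[σ] Dual F U} {T : Type*} {s : T → End F U →ₐ[F] End F V}
  [StarRing (End F V)] {Y : Subgroup (V ≃ₗ[F] V)}

variable (σ B s Y) in
/-- A group of isometries containing the root elements of all factors. -/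
structure St : Prop extends Fm σ B where
  smul : ∀ (c : F) (E : End F V), star (c • E) = σ c • star E
  str : ∀ i x y, star (r (s i) x (B y)) = -r (s i) y (B x)
  uni : ∀ g ∈ Y, star (g : End F V) = (g⁻¹ : V ≃ₗ[F] V)
  one : ∀ i x c, B x x = 0 → σ c = c → UIn Y (c • r (s i) x (B x))
  rt : ∀ i x c, B x x = 0 → B x c = 0 →
    ∃ e : F, UIn Y (r (s i) x (B c) + r (s i) c (B x) + e • r (s i) x (B x))

variable (B) in
/-- Elements of the unipotent radical of the stabiliser of `L`. -/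
def Qt (s : End F U →ₐ[F] End F V) (x : U) (N : End F V) : Prop :=
  N * r s x (B x) = 0 ∧ ∀ v, r s x (B x) v = 0 → N v ∈ L s x

variable (B s Y) in
/-- Rigidity. -/
def Zs : Prop := ∀ i x E, x ≠ 0 → B x x = 0 → E ∈ Cm (s i) → UIn Y (r (s i) x (B x) * E) →
  ∃ c : F, E = c • 1

variable (B s Y) in
/-- Rigidity of the unipotent radicals. -/
def Qs [FiniteDimensional F U] : Prop := ∀ i x N, x ≠ 0 → B x x = 0 → UIn Y N → Qt B (s i) x N →
  ∀ θ d, θ x = 1 → B x d = 0 → ∃ c : F, co (s i) N θ d = c • 1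

namespace St

variable (S : St σ B s Y)
include S

theorem un {N : End F V} (h : UIn Y N) : UIn Y (star N) ∧ N + star N + star N * N = 0 := by
  obtain ⟨g, hg, e⟩ := h
  have e1 := S.uni g hg
  have e2 := coe_inv_mul g
  rw [← e1, e, star_add, star_one] at e2
  exact ⟨⟨_, inv_mem hg, by rw [← e1, e, star_add, star_one]⟩, by
    linear_combination (norm := noncomm_ring) e2⟩

theorem skew {N : End F V} (h : UIn Y N) (h0 : N * N = 0) : star N = -N := by
  have h1 := (S.un h).2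
  have h2 := congrArg (· * N) h1
  simp only [add_mul, mul_assoc, h0, mul_zero, zero_add, add_zero, zero_mul] at h2
  rw [h2, add_zero] at h1
  exact eq_neg_of_add_eq_zero_right h1

theorem one' (i : T) {x : U} (h : B x x = 0) : UIn Y (r (s i) x (B x)) := by
  simpa using S.one i x 1 h (map_one σ)

theorem uin {u : U} {φ : Dual F U} (p : PF σ B u φ) (i : T) : UIn Y (r (s i) u φ) := by
  obtain ⟨-, h, c, -, hc, rfl⟩ := p
  simpa using S.one i u c h hc

variable [FiniteDimensional F U]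

theorem star_Cm {i : T} {E : End F V} (h : E ∈ Cm (s i)) : star E ∈ Cm (s i) :=
  mem_Cm_of_r fun u φ => by
    obtain ⟨y, rfl⟩ := S.sj φ
    simpa [S.str] using congrArg star (Cm_r h y (B u))

theorem sat [Nontrivial V] {i : T} {u : U} {φ : Dual F U} (hu : u ≠ 0) (hφ : φ ≠ 0) (h0 : φ u = 0)
    (h : UIn Y (r (s i) u φ)) : PF σ B u φ := by
  obtain ⟨y, rfl⟩ := S.sj φ
  have h1 := S.skew h (r_sq h0)
  rw [S.str, neg_inj] at h1
  obtain ⟨c, rfl⟩ : ∃ c : F, c • u = y := by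
    rw [← Submodule.mem_span_singleton]
    by_contra h2
    obtain ⟨χ, h3, h4⟩ := exists_dual_one_zero h2
    exact r_ne_zero hu (S.ne hu) (by simpa [h3, h4] using congrArg (r (s i) u χ * ·) h1)
  have hc : c ≠ 0 := by rintro rfl; simp at hφ
  refine ⟨hu, by simpa [hc] using h0, σ c, by simpa using hc, ?_, by simp⟩
  rw [S.σσ]
  exact smul_left_injective F (r_ne_zero (s := s i) hu (S.ne hu)) (by simpa using h1)

theorem eq_zs {i : T} {x : U} (h0 : x ≠ 0) (hx : B x x = 0) {N : End F V}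
    (h : N + star N + star N * N = 0) (h1 : ∀ v, N v ∈ L (s i) x) :
    ∃ C ∈ Cm (s i), N = r (s i) x (B x) * C := by
  obtain ⟨y, -, h2⟩ := S.partner h0 hx
  have h3 : B (-y) x = 1 := by simp [S.sk x y, h2]
  have e : r (s i) x (B (-y)) * N = N := LinearMap.ext fun v => r_eq_of_mem_L h3 (h1 v)
  have e1 := congrArg star e
  rw [star_mul, S.str] at e1
  have e2 : star N * N = 0 := by rw [← e1, ← e]; simp [mul_assoc, hx]
  rw [e2, add_zero] at h
  refine ⟨_, co_mem N (B (-y)) y, ?_⟩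
  rw [← r_co, e, eq_neg_of_add_eq_zero_left h, ← e1]
  simp [mul_assoc, h2]

omit S in
theorem _root_.CfsgLib.C7.Qt.beta {s : End F U →ₐ[F] End F V} {x d : U} {N : End F V}
    (h : Qt B s x N) {θ : Dual F U} (hθ : θ x = 1) (hd : B x d = 0) (φ : Dual F U) :
    N * r s d φ = r s x φ * co s N θ d := by
  rw [← r_co, mul_assoc]
  exact LinearMap.ext fun v => (r_eq_of_mem_L hθ (h.2 _ (by simp [hd]))).symm

theorem qt_x {i : T} {x : U} (h0 : x ≠ 0) (hx : B x x = 0) {N : End F V} (h : Qt B (s i) x N)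
    (φ : Dual F U) : N * r (s i) x φ = 0 := by
  obtain ⟨y, -, h2⟩ := S.partner h0 hx
  simpa [mul_assoc, h2] using congrArg (· * r (s i) y φ) h.1

theorem qt_star {i : T} {x d : U} (h0 : x ≠ 0) (hx : B x x = 0) {N : End F V} (hN : UIn Y N)
    (h : Qt B (s i) x N) {E : End F V} (hE : E ∈ Cm (s i)) (w : U)
    (e : N * r (s i) d (B w) = r (s i) x (B w) * E) : r (s i) w (B d) * N = -(r (s i) w (B x) * star E) := by
  have h1 : ∀ φ, star N * r (s i) x φ = 0 := fun φ => by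
    simpa [add_mul, mul_assoc, S.qt_x h0 hx h] using congrArg (· * r (s i) x φ) (S.un hN).2
  have h2 := congrArg (· * r (s i) d (B w)) (S.un hN).2
  simp only [add_mul, mul_assoc, e, ← mul_assoc (star N), h1, zero_mul, add_zero] at h2
  have h3 := congrArg star h2
  simp only [star_add, star_mul, S.str, star_star, star_zero, mul_neg, neg_mul,
    Cm_r (S.star_Cm hE)] at h3
  linear_combination (norm := abel) -h3

theorem qt_left {i : T} {x : U} (h0 : x ≠ 0) (hx : B x x = 0) {N : End F V} (hN : UIn Y N)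
    (h : Qt B (s i) x N) (w : U) : r (s i) w (B x) * N = 0 := by
  simpa using S.qt_star h0 hx hN h (zero_mem _) w (by simp [S.qt_x h0 hx h])

theorem qt_comm {i : T} {x : U} (h0 : x ≠ 0) (hx : B x x = 0) {N M G : End F V} (hN : UIn Y N)
    (h : Qt B (s i) x N) (hM : UIn Y M) (h' : Qt B (s i) x M) (hG : G ∈ Cm (s i))
    (e : N * M - M * N = r (s i) x (B x) * G) : UIn Y (r (s i) x (B x) * G) := by
  have h1 := S.qt_left h0 hx hN h x
  have h2 := S.qt_left h0 hx hM h' x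
  obtain ⟨g, hg, e1⟩ := hN
  obtain ⟨k, hk, e2⟩ := hM
  refine ⟨g * k * (k * g)⁻¹, mul_mem (mul_mem hg hk) (inv_mem (mul_mem hk hg)), ?_⟩
  have h3 : ((g * k : V ≃ₗ[F] V) : End F V) = (1 + r (s i) x (B x) * G) * (k * g : V ≃ₗ[F] V) := by
    simp only [LinearEquiv.coe_toLinearMap_mul, e1, e2, ← Cm_r hG] at e ⊢
    linear_combination (norm := noncomm_ring) e - G * h2 * (1 + N) - G * h1
  rw [LinearEquiv.coe_toLinearMap_mul, h3, mul_assoc, coe_mul_inv, mul_one]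

theorem qt_TT {i : T} {x c : U} (hx : B x x = 0) (hc : B x c = 0) {E G e : End F V}
    (hE : E ∈ Cm (s i)) (hG : G ∈ Cm (s i)) (he : e ∈ Cm (s i)) :
    Qt B (s i) x (r (s i) x (B c) * E + r (s i) c (B x) * G + r (s i) x (B x) * e) := by
  refine ⟨by simp [add_mul, mul_assoc, Cm_r hE, Cm_r hG, Cm_r he, hx, S.orth hc], fun v hv => ?_⟩
  by_cases h0 : x = 0
  · simp [h0]
  obtain ⟨θ, hθ⟩ := exists_dual_one_of_ne (F := F) h0
  have : r (s i) c (B x) (G v) = 0 := by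
    simpa [hθ, ← Cm_r_apply hG] using congrArg (fun v => G (r (s i) c θ v)) hv
  simpa [this] using add_mem (r_mem_L _ _ _) (r_mem_L _ _ _)

theorem qt_T {i : T} {x c : U} (hx : B x x = 0) (hc : B x c = 0) (e : F) :
    Qt B (s i) x (r (s i) x (B c) + r (s i) c (B x) + e • r (s i) x (B x)) := by
  simpa using S.qt_TT (i := i) hx hc (one_mem _) (one_mem _) (Subalgebra.smul_mem _ (one_mem _) e)

theorem qs_unitary (hZ : Zs B s Y) {ω : F} (hω : σ ω ≠ ω) : Qs B s Y := by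
  intro i x N h0 hx hN h θ d hθ hd
  have key : ∀ d, B x d = 0 → ∃ c : F, co (s i) N θ d + star (co (s i) N θ d) = c • 1 := fun d hd => by
    obtain ⟨e, he⟩ := S.rt i x d hx hd
    have h1 := add_mem (co_mem (s := s i) N θ d) (S.star_Cm (co_mem N θ d))
    refine hZ i x _ h0 hx h1 (S.qt_comm h0 hx hN h he (S.qt_T hx hd e) h1 ?_)
    simp [mul_add, add_mul, S.qt_x h0 hx h, S.qt_left h0 hx hN h, h.beta hθ hd,
      S.qt_star h0 hx hN h (co_mem _ _ _) x (h.beta hθ hd _)]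
  obtain ⟨c, hc⟩ := key d hd
  obtain ⟨c', hc'⟩ := key (ω • d) (by simp [hd])
  rw [map_smul, S.smul] at hc'
  refine ⟨(ω - σ ω)⁻¹ * (c' - σ ω * c), ?_⟩
  rw [mul_smul, eq_inv_smul_iff₀ (sub_ne_zero.2 hω.symm)]
  linear_combination (norm := module) hc' - σ ω • hc

theorem qs_two (hk : ∀ x d, x ≠ 0 → B x d = 0 → d ∈ Submodule.span F {x}) : Qs B s Y := by
  intro i x N h0 hx hN h θ d hθ hd
  obtain ⟨c, rfl⟩ := Submodule.mem_span_singleton.1 (hk x d h0 hd)
  exact ⟨0, by simp [co_def, mul_assoc, S.qt_x h0 hx h]⟩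

section Rigid

variable (hZ : Zs B s Y)
include hZ

theorem zs {i : T} {x : U} (h0 : x ≠ 0) (hx : B x x = 0) {N : End F V} (hN : UIn Y N)
    (h1 : ∀ v, N v ∈ L (s i) x) : ∃ c : F, N = c • r (s i) x (B x) := by
  obtain ⟨C, hC, rfl⟩ := S.eq_zs h0 hx (S.un hN).2 h1
  obtain ⟨c, rfl⟩ := hZ i x C h0 hx hC hN
  exact ⟨c, by simp⟩

theorem qs [Nontrivial V] (hQ : Qs B s Y) {i : T} {x : U} (h0 : x ≠ 0) (hx : B x x = 0) {N : End F V}
    (hN : UIn Y N) (h : Qt B (s i) x N) : ∃ (c : U) (e : F), B x c = 0 ∧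
      N = r (s i) x (B c) + r (s i) c (B x) + e • r (s i) x (B x) := by
  obtain ⟨θ, hθ⟩ := exists_dual_one_of_ne (F := F) h0
  obtain ⟨Λ, hΛ⟩ := exists_dual_one_of_ne (F := F) (one_ne_zero (α := End F V))
  obtain ⟨c, hc⟩ := S.sj (Λ ∘ₗ co (s i) N θ)
  have h1 : ∀ d φ, B x d = 0 → N * r (s i) d φ = B c d • r (s i) x φ := fun d φ hd => by
    obtain ⟨a, ha⟩ := hQ i x N h0 hx hN h θ d hθ hd
    simp [h.beta hθ hd, hc, ha, hΛ]
  have h2 : B x c = 0 := S.orth (by simp [hc, co_def, mul_assoc, S.qt_x h0 hx h])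
  obtain ⟨e, t, ht, et⟩ := S.rt i x c hx h2
  obtain ⟨g, hg, eg⟩ := hN
  obtain ⟨κ, hκ⟩ := S.zs hZ h0 hx (N := (g⁻¹ * t : V ≃ₗ[F] V) - 1)
    ⟨_, mul_mem (inv_mem hg) ht, by simp⟩ fun v ψ hψ w => by
      obtain ⟨d, rfl⟩ := S.sj ψ
      have h3 : (((g⁻¹ * t)⁻¹ : V ≃ₗ[F] V) - 1 : End F V) * r (s i) d (B w) = 0 := by
        have h4 : (g : End F V) * r (s i) d (B w) = t * r (s i) d (B w) := by
          simp [eg, et, add_mul, h1 d _ (S.orth hψ), S.orth hψ]
        rw [mul_inv_rev, inv_inv, LinearEquiv.coe_toLinearMap_mul, sub_mul, mul_assoc, h4,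
          ← mul_assoc, coe_inv_mul, sub_self]
      have h4 := congrArg star h3
      rw [star_mul, S.str, star_sub, S.uni _ (inv_mem (mul_mem (inv_mem hg) ht)), inv_inv, star_one,
        star_zero, neg_mul, neg_eq_zero] at h4
      exact LinearMap.congr_fun h4 v
  refine ⟨c, e - κ, h2, ?_⟩
  have h3 := congrArg ((g : End F V) * ·) hκ
  simp only [LinearEquiv.coe_toLinearMap_mul, mul_sub, ← mul_assoc, coe_mul_inv, mul_smul_comm] at h3
  simp only [et, eg, add_mul 1 N, h.1, one_mul, mul_one] at h3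
  linear_combination (norm := module) -h3

variable [FiniteDimensional F V] [Nontrivial V]

theorem conj_root {g : V ≃ₗ[F] V} (hg : g ∈ Y) {i j : T} {x a : U} (h0 : x ≠ 0) (hx : B x x = 0)
    (ha : a ≠ 0) (h1 : ∀ v ∈ L (s i) x, g v ∈ L (s j) a) : B a a = 0 ∧ ∃ κ : F, κ ≠ 0 ∧ σ κ = κ ∧
      ∀ v, g (r (s i) x (B x) v) = κ • r (s j) a (B a) (g v) := by
  obtain ⟨θ, hθ⟩ := exists_dual_one_of_ne (F := F) h0
  have h2 := eq_range_of_le (s := s i) h0 (φ := θ) (by rintro rfl; simp at hθ)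
    (P := (g⁻¹ : V ≃ₗ[F] V)) (T := g * r (s i) x θ) (Z := L (s j) a)
    (by rw [← mul_assoc, coe_inv_mul, one_mul]) (fun v => h1 _ (r_mem_L _ _ _)) (finrank_L ha).le
  have h3 : g * r (s i) x θ * (g⁻¹ : V ≃ₗ[F] V) * r (s j) a (B a) = r (s j) a (B a) :=
    LinearMap.ext fun v => by
      obtain ⟨w, hw⟩ := h2 ▸ r_mem_L (s := s j) a (B a) v
      rw [End.mul_apply, ← hw]; simp [hθ]
  have h4 : B a a = 0 := by
    obtain ⟨y, rfl⟩ := S.sj θ
    have h5 := congrArg star h3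
    rw [star_mul, star_mul, star_mul, S.uni g hg, S.str, S.str] at h5
    have h6 : -r (s j) a (B a) * r (s j) a (B a) = 0 := by
      conv_lhs => rw [← h5]; rhs; rw [← h3]
      simp [mul_assoc, ← mul_assoc _ (g : End F V), coe_inv_mul, hx]
    simpa [r_ne_zero ha (S.ne ha)] using h6
  obtain ⟨κ, hκ⟩ := S.zs hZ ha h4 ((S.one' i hx).conj hg) fun v => h1 _ (r_mem_L _ _ _)
  have h5 := S.skew ((S.one' i hx).conj hg) (conj_sq g (r_sq hx))
  rw [hκ, S.smul, S.str, smul_neg, neg_inj] at h5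
  exact ⟨h4, κ, by rintro rfl; exact conj_ne_zero g (r_ne_zero h0 (S.ne h0)) (by simpa using hκ),
    smul_left_injective F (r_ne_zero ha (S.ne ha)) h5,
    fun v => by simpa using LinearMap.congr_fun hκ (g v)⟩

omit hZ [Nontrivial V] [FiniteDimensional F V] in
theorem eq_s_of_qt {j : T} {a c : U} {e : F} {t k : V ≃ₗ[F] V} {b : End F U} (et : (t : End F V) = s j b)
    (h : ((t⁻¹ * k : V ≃ₗ[F] V) - 1 : End F V) = r (s j) a (B c) + r (s j) c (B a) + e • r (s j) a (B a)) :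
    ∃ b, (k : End F V) = s j b := ⟨b * (1 + ((B c).smulRight a + (B a).smulRight c + e • (B a).smulRight a)), by
  simp only [map_mul, map_add, map_smul, map_one, ← r_def, ← h, ← et, add_sub_cancel,
    ← LinearEquiv.coe_toLinearMap_mul, mul_inv_cancel_left]⟩

variable (hQ : Qs B s Y) (h : TP s)
include hQ h

theorem map_orth {g : V ≃ₗ[F] V} (hg : g ∈ Y) {i j : T} {x a c : U} (h0 : x ≠ 0) (hx : B x x = 0)
    (ha : a ≠ 0) (h1 : ∀ v ∈ L (s i) x, g v ∈ L (s j) a) (hc0 : c ≠ 0) (hc : B c c = 0)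
    (hxc : B x c = 0) : ∃ b, b ≠ 0 ∧ ∀ v ∈ L (s i) c, g v ∈ L (s j) b := by
  obtain ⟨h2, κ, h3, h4, h5⟩ := S.conj_root hZ hg h0 hx ha h1
  have k1 : ∀ v, r (s j) a (B a) (g v) = 0 ↔ r (s i) x (B x) v = 0 := fun v => by
    rw [← g.map_eq_zero_iff (x := r (s i) x (B x) v), h5, smul_eq_zero_iff_right h3]
  have hT : UIn Y (r (s i) x (B c) + r (s i) c (B x)) := by
    refine (((S.one' i (x := x + c) (by simp [hx, hc, hxc, S.orth hxc])).sub (S.one' i hx)
      (by simp [add_mul, hx, S.orth hxc]) (r_sq hx)).sub (S.one' i hc)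
      (by simp [add_mul, sub_mul, hc, hxc]) (r_sq hc)).of_eq ?_
    simp; abel
  obtain ⟨c', e, h6, h7⟩ := S.qs hZ hQ (i := j) ha h2 (hT.conj hg) ⟨by
    ext v
    obtain ⟨v, rfl⟩ := g.surjective v
    have := (inv_smul_eq_iff₀ h3).2 (h5 v)
    simp [← this, hx, S.orth hxc], fun v hv => by
      obtain ⟨v, rfl⟩ := g.surjective v
      simpa [← map_add] using h1 _ (by simpa using (S.qt_T hx hxc 0).2 v ((k1 v).1 hv))⟩
  have h8 : ∀ v, g (r (s i) x (B c) v) + g (r (s i) c (B x) v) = r (s j) a (B c') (g v) +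
      r (s j) c' (B a) (g v) + e • r (s j) a (B a) (g v) := fun v => by
    simpa using LinearMap.congr_fun h7 (g v)
  have h9 : B c' c' = 0 := by
    have := conj_sq g (A := r (s i) x (B c) + r (s i) c (B x))
      (by simp [mul_add, add_mul, hx, hc, hxc, S.orth hxc])
    rw [h7] at this
    simpa [mul_add, add_mul, h2, h6, S.orth h6, r_ne_zero ha (S.ne ha)] using this
  obtain ⟨t, ht, et⟩ := S.one j c' κ⁻¹ h9 (by simp [h4])
  obtain ⟨k, hk, ek⟩ := (S.one' i hc).conj hg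
  have ek' : ∀ v, k (g v) = g v + g (r (s i) c (B c) v) := fun v => by
    simpa using LinearMap.congr_fun ek (g v)
  have et' : ∀ v, t⁻¹ v = v - κ⁻¹ • r (s j) c' (B c') v := fun v => by
    rw [← t.injective.eq_iff, apply_inv_apply, show t _ = _ from LinearMap.congr_fun et _]
    simp [h9]
  obtain ⟨y, -, hy⟩ := S.partner h0 hx
  obtain ⟨θ, hθ⟩ := exists_dual_one_of_ne (F := F) h0
  obtain ⟨θ', hθ'⟩ := exists_dual_one_of_ne (F := F) ha
  obtain ⟨c'', e', -, h10⟩ := S.qs hZ hQ (i := j) ha h2 (N := (t⁻¹ * k : V ≃ₗ[F] V) - 1)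
    ⟨_, mul_mem (inv_mem ht) hk, by simp⟩ ⟨by
      ext v
      obtain ⟨v, rfl⟩ := g.surjective v
      have := (inv_smul_eq_iff₀ h3).2 (h5 v)
      simp only [End.mul_apply, LinearMap.sub_apply, LinearEquiv.coe_coe, LinearEquiv.mul_apply]
      rw [← this, ← map_smul, ek']
      simp [S.orth hxc, et', h5, S.orth h6], fun v hv => by
      obtain ⟨v, rfl⟩ := g.surjective v
      have e1 : r (s i) c (B x) v = 0 := by simpa [hθ] using congrArg (r (s i) c θ) ((k1 v).1 hv)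
      have e2 : r (s j) c' (B a) (g v) = 0 := by simpa [hθ'] using congrArg (r (s j) c' θ') hv
      have e3 := h8 v
      have e4 := h8 (r (s i) y (B c) v)
      have e5 := h5 (r (s i) y (B c) v)
      simp only [e1, e2, hv, map_zero, add_zero, smul_zero, r_r, hy, one_smul, map_smul] at e3 e4 e5
      have e6 : r (s j) c' (B a) (g (r (s i) y (B c) v)) = κ⁻¹ • r (s j) c' (B c') (g v) := by
        rw [eq_inv_smul_iff₀ h3]
        simpa [hθ'] using congrArg (r (s j) c' θ') (e5.symm.trans e3)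
      rw [e6, e3] at e4
      simp only [LinearMap.sub_apply, LinearEquiv.coe_coe, LinearEquiv.mul_apply, ek', et',
        eq_sub_of_add_eq' e4, map_add, map_sub, map_smul, r_r, S.orth h6, h9, End.one_apply]
      convert sub_mem (add_mem (r_mem_L a (B c') (g (r (s i) y (B c) v))) (Submodule.smul_mem _ e
        (r_mem_L a (B a) (g (r (s i) y (B c) v))))) (Submodule.smul_mem _ (B c y)
        (r_mem_L a (B c') (g v))) using 1
      module⟩
  obtain ⟨b, hb⟩ := S.eq_s_of_qt (b := 1 + κ⁻¹ • (B c').smulRight c') (by simp [et, r_def]) h10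
  have e5 : (g * r (s i) c (B c) * (g⁻¹ : V ≃ₗ[F] V) : End F V) = s j (b - 1) := by
    rw [map_sub, ← hb, ek, map_one, add_sub_cancel_left]
  obtain ⟨b', χ, h11, -, h12⟩ := h.rank_one (e5 ▸ rank_conj hc0 _)
    (e5 ▸ conj_ne_zero _ (r_ne_zero hc0 (S.ne hc0)))
  exact ⟨b', h11, map_L_of_conj hc0 (S.ne hc0) fun v => e5 ▸ h12 ▸ r_mem_L _ _ _⟩

theorem map_opp {l μ ν : F} (h1 : ν ≠ l) (h2 : ν ≠ μ) (tor : ∀ i x y, B x x = 0 → B y y = 0 →
      B x y = 1 → ∃ g ∈ Y, (g : End F V) = μ • 1 - (l - μ) • r (s i) x (B y) + (ν - μ) • r (s i) y (B x))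
    {g : V ≃ₗ[F] V} (hg : g ∈ Y) {i j : T} {x a y : U} (hx : B x x = 0) (ha : a ≠ 0)
    (h3 : ∀ v ∈ L (s i) x, g v ∈ L (s j) a) (hy : B y y = 0) (hxy : B x y = 1) :
    ∃ b, b ≠ 0 ∧ ∀ v ∈ L (s i) y, g v ∈ L (s j) b := by
  have h0 : x ≠ 0 := by rintro rfl; simp at hxy
  have hy0 : y ≠ 0 := by rintro rfl; simp at hxy
  have hyx : B y x = -1 := by simp [S.sk x y, hxy]
  obtain ⟨h4, κ, h5, -, h6⟩ := S.conj_root hZ hg h0 hx ha h3
  obtain ⟨a', h7, h8⟩ := S.partner ha h4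
  obtain ⟨k, hk, ek⟩ := tor i x y hx hy hxy
  obtain ⟨t, ht, et⟩ := tor j a a' h4 h7 h8
  have ek' : ∀ v, k v = _ := LinearMap.congr_fun ek
  have et' : ∀ v, t v = _ := LinearMap.congr_fun et
  have h9 : B a' a = -1 := by simp [S.sk a a', h8]
  obtain ⟨θ, hθ⟩ := exists_dual_one_of_ne (F := F) h0
  obtain ⟨θ', hθ'⟩ := exists_dual_one_of_ne (F := F) ha
  have h10 : ∀ v ∈ L (s j) a, t v = l • v := fun v hv => by
    rw [← r_eq_of_mem_L hθ' hv]; simp [et', h4, h9, sub_smul]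
  have hl : l ≠ 0 := by
    rintro rfl
    refine r_ne_zero (s := s j) ha (S.ne ha) (LinearMap.ext fun v => t.injective ?_)
    simp [h10 _ (r_mem_L _ _ _)]
  have h11 : ∀ v ∈ L (s j) a, t⁻¹ v = l⁻¹ • v := fun v hv => by
    rw [← t.injective.eq_iff, apply_inv_apply, map_smul, h10 v hv, inv_smul_smul₀ hl]
  obtain ⟨c, e, -, h12⟩ := S.qs hZ hQ (i := j) ha h4 (N := (t⁻¹ * (g * k * g⁻¹) : V ≃ₗ[F] V) - 1)
    ⟨_, mul_mem (inv_mem ht) (mul_mem (mul_mem hg hk) (inv_mem hg)), by simp⟩ ⟨by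
      ext v
      obtain ⟨v, rfl⟩ := g.surjective v
      have := (inv_smul_eq_iff₀ h5).2 (h6 v)
      simp only [End.mul_apply, LinearMap.sub_apply, LinearEquiv.coe_coe, LinearEquiv.mul_apply]
      rw [← this, ← map_smul, inv_apply_apply, show k (κ⁻¹ • r (s i) x (B x) v) =
        l • κ⁻¹ • r (s i) x (B x) v by simp [ek', hx, hyx, sub_smul, smul_comm l], map_smul, map_smul,
        h11 _ (h3 _ (Submodule.smul_mem _ _ (r_mem_L _ _ _))), smul_inv_smul₀ hl]
      simp, fun v hv => by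
      obtain ⟨v, rfl⟩ := g.surjective v
      have e0 : r (s i) x (B x) v = 0 := by rw [← g.map_eq_zero_iff, h6, hv, smul_zero]
      have e1 : r (s i) y (B x) v = 0 := by simpa [hθ] using congrArg (r (s i) y θ) e0
      have e2 : r (s j) a' (B a) (g v) = 0 := by simpa [hθ'] using congrArg (r (s j) a' θ') hv
      have e3 : g (k v) - t (g v) ∈ L (s j) a := by
        simpa [ek', et', e1, e2] using sub_mem (Submodule.smul_mem _ (l - μ) (r_mem_L a (B a') (g v)))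
          (Submodule.smul_mem _ (l - μ) (h3 _ (r_mem_L x (B y) v)))
      simpa [← h11 _ e3] using Submodule.smul_mem _ l⁻¹ e3⟩
  obtain ⟨b, hb⟩ := S.eq_s_of_qt (b := μ • 1 - (l - μ) • (B a').smulRight a +
    (ν - μ) • (B a).smulRight a') (by simp [et, r_def]) h12
  have hν := mul_ne_zero (sub_ne_zero.2 h1) (sub_ne_zero.2 h2)
  have e5 : (g * r (s i) y (B x) * (g⁻¹ : V ≃ₗ[F] V) : End F V) =
      s j (((ν - l) * (ν - μ))⁻¹ • ((b - l • 1) * (b - μ • 1))) := by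
    have e6 : ((ν - l) * (ν - μ)) • r (s i) y (B x) = (k - l • 1 : End F V) * (k - μ • 1) := by
      simp only [ek, mul_sub, sub_mul, mul_add, add_mul, smul_mul_assoc, mul_smul_comm, r_mul, hx, hy,
        hxy, hyx, one_mul, mul_one]
      module
    rw [map_smul, eq_inv_smul_iff₀ hν, ← smul_mul_assoc, ← mul_smul_comm, e6]
    simp [← hb, mul_sub, sub_mul, mul_assoc, ← mul_assoc _ (g : End F V), coe_inv_mul, coe_mul_inv]
  obtain ⟨b', χ, h13, -, h14⟩ := h.rank_one (e5 ▸ rank_conj hy0 _)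
    (e5 ▸ conj_ne_zero _ (r_ne_zero hy0 (S.ne h0)))
  exact ⟨b', h13, map_L_of_conj hy0 (S.ne h0) fun v => e5 ▸ h14 ▸ r_mem_L _ _ _⟩

omit hQ h in
theorem glob (step : ∀ g ∈ Y, ∀ i j x z a, x ≠ 0 → B x x = 0 → z ≠ 0 → B z z = 0 → a ≠ 0 →
    (∀ v ∈ L (s i) x, g v ∈ L (s j) a) → ∃ b, b ≠ 0 ∧ ∀ v ∈ L (s i) z, g v ∈ L (s j) b) :
    Glob s Y (PF σ B) := by
  refine ⟨S.nz, S.uin, S.sat, S.ex, fun {g} hg i j u φ a p ha h1 => S.sp2.nm ?_⟩
  rintro z _ ⟨h2, h3, c, -, -, rfl⟩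
  obtain ⟨b, hb, h4⟩ := step g hg i j u z a p.1 p.2.1 h2 h3 ha h1
  obtain ⟨-, κ, -, -, h5⟩ := S.conj_root hZ hg h2 h3 hb h4
  exact ⟨(c * κ) • (B b).smulRight b, by ext v; simp [h5, ← r_def, mul_smul]⟩

theorem glob_big (o2 : ∀ x z, ∃ c, c ≠ 0 ∧ B c c = 0 ∧ B x c = 0 ∧ B z c = 0) :
    Glob s Y (PF σ B) := S.glob hZ fun g hg i j x z a h0 hx hz0 hz ha h1 => by
  obtain ⟨c, h2, h3, h4, h5⟩ := o2 x z
  obtain ⟨b, hb, h6⟩ := S.map_orth hZ hQ h hg h0 hx ha h1 h2 h3 h4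
  exact S.map_orth hZ hQ h hg h2 h3 hb h6 hz0 hz (S.orth h5)

theorem glob_tor {l μ ν : F} (h1 : ν ≠ l) (h2 : ν ≠ μ) (tor : ∀ i x y, B x x = 0 → B y y = 0 →
      B x y = 1 → ∃ g ∈ Y, (g : End F V) = μ • 1 - (l - μ) • r (s i) x (B y) + (ν - μ) • r (s i) y (B x)) :
    Glob s Y (PF σ B) := S.glob hZ fun g hg i j x z a h0 hx hz0 hz ha h3 => by
  obtain ⟨y, h4, h5, h6⟩ := S.exists_nonorth h0 hx (S.ne hz0)
  obtain ⟨b, hb, h7⟩ := S.map_opp hZ hQ h h1 h2 tor hg hx ha h3 h4 h5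
  have h8 := S.north h6
  obtain ⟨b', hb', h9⟩ := S.map_opp hZ hQ h h1 h2 tor hg h4 hb h7 (y := (B y z)⁻¹ • z)
    (by simp [hz]) (by simp [h8])
  exact ⟨b', hb', fun v hv => h9 v (L_le_of_mem_span (Submodule.mem_span_singleton.2
    ⟨B y z, smul_inv_smul₀ h8 z⟩) hv)⟩

end Rigid

end St

end CfsgLib.C7
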