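import Mathlib
import Cfsg.Agent.Lib.C7.Rig

/-!
Tensor powers of a space with a form: the end of the rigid case.
-/

set_option autoImplicit false

namespace CfsgLib.C7

open Module CfsgLib.ClMax

variable {F U V : Type*} [Field F] [AddCommGroup U] [Module F U] [AddCommGroup V] [Module F V]
  {σ : F →+* F} {B : U →ₛₗ[σ] Dual F U} {T : Type*} {s : T → End F U →ₐ[F] End F V}
  [FiniteDimensional F U]

theorem Fm.exists_orth (M : Fm σ B) (o2 : ∀ x z, ∃ c, c ≠ 0 ∧ B c c = 0 ∧ B x c = 0 ∧ B z c = 0)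
    {x : U} (h0 : x ≠ 0) (hx : B x x = 0) :
    ∃ c, B c c = 0 ∧ B x c = 0 ∧ c ∉ Submodule.span F {x} := by
  obtain ⟨y, hy, h2⟩ := M.partner h0 hx
  obtain ⟨c, h3, h4, h5, h6⟩ := o2 x y
  refine ⟨c, h4, h5, fun h7 => ?_⟩
  obtain ⟨t, rfl⟩ := Submodule.mem_span_singleton.1 h7
  simp [M.sk x y, h2, h0] at h6 h3
  exact h3 h6

theorem apply_eq_zero_of_r [Nontrivial V] {s : End F U →ₐ[F] End F V} {α : U ≃ₗ[F] U} {u u' v : U}
    {φ φ' : Dual F U} (hu : u' ≠ 0) (e : r s (α u) (φ ∘ₗ α.symm) = r s u' φ') (hv : φ v = 0) :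
    φ' (α v) = 0 := by
  obtain ⟨θ, hθ⟩ := exists_dual_one_of_ne (F := F) hu
  simpa [hv, r_ne_zero hu (φ := θ) (by rintro rfl; simp at hθ)] using
    (congrArg (· * r s (α v) θ) e).symm

theorem exists_eigen_of_mul [Nontrivial V] {β : End F V} {a b : F}
    (h : (β - a • 1) * (β - b • 1) = 0) : ∃ (c : F) (z : V), z ≠ 0 ∧ β z = c • z := by
  obtain ⟨z, hz⟩ := exists_ne (0 : V)
  by_cases h1 : β z = b • z
  · exact ⟨b, z, hz, h1⟩
  · exact ⟨a, β z - b • z, sub_ne_zero.2 h1, sub_eq_zero.1 (LinearMap.congr_fun h z)⟩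

theorem exists_root_four (h2 : (2 : F) = 0) (hq : ∀ c, σ c = c → c = 0 ∨ c = 1)
    (hσ : ∀ a, σ (σ a) = a) {ω : F} (hω : σ ω ≠ ω) {a b : F} (ha : a * σ a = 1)
    (hb : a * σ b + b = 0) : ∃ x, x * (σ b - x) + σ a = 0 := by
  have key : ∀ a, σ a = a ^ 2 := fun a => by
    rcases hq (a * σ a) (by simp [hσ, mul_comm]) with h | h
    · obtain rfl : a = 0 := by simpa using h
      simp
    rcases hq (a + σ a) (by simp [hσ, add_comm]) with h' | h'
    · rcases hq a (by linear_combination h' - a * h2) with rfl | rfl <;> simp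
    · linear_combination h + (1 - a) * h' + (1 - a) * h2
  have h3 : ω ^ 2 + ω + 1 = 0 := by
    rcases hq (ω + σ ω) (by simp [hσ, add_comm]) with h' | h'
    · exact (hω (by linear_combination h' - ω * h2)).elim
    · rw [key] at h'; linear_combination h' + h2
  simp only [key] at ha hb ⊢
  by_cases h4 : b = 0
  · exact ⟨a, by simp [h4, pow_two]⟩
  have h5 : a * b = 1 := mul_left_cancel₀ h4 (by linear_combination hb - b * h2)
  have h6 : a ^ 2 = b ^ 4 := by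
    linear_combination (b ^ 4 + b) * ha - (a ^ 2 + (a ^ 2 * b ^ 2 + a * b + 1) * (a * b ^ 2 + b) -
      a * b ^ 2 * (a ^ 2 * b ^ 2 + a * b + 1)) * h5 + 0 * h2
  exact ⟨b ^ 2 * ω, by linear_combination h6 - b ^ 4 * h3 + (b ^ 4 * ω + b ^ 4) * h2⟩

variable [Finite T] [FiniteDimensional F V] [Finite F] {h : TP s} {Y : Subgroup (V ≃ₗ[F] V)} {J : Set T}

theorem Core.le_two_big (C : Core h Y (PF σ B) J) (h2 : (2 : F) = 0) (h3 : 3 ≤ finrank F U) {c : F}
    (hc : σ c = c) (hc0 : c ≠ 0) (hc1 : c ≠ 1) : Y ≤ h.Wr := by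
  by_contra hY
  have := h.nt
  have ex : ∀ u φ, PF σ B u φ → PF σ B u (c • φ) ∧ (c • φ).smulRight u ≠ φ.smulRight u :=
    fun u φ p => ⟨let ⟨h1, h2, d, h3, h4, h5⟩ := p
      ⟨h1, h2, c * d, mul_ne_zero hc0 h3, by simp [hc, h4], by simp [h5, mul_smul]⟩, fun e => by
      obtain ⟨y, hy⟩ := exists_apply_eq_one (C.nz p).2.1
      exact hc1 (smul_left_injective F p.1 (by simpa [hy] using LinearMap.congr_fun e y))⟩
  obtain ⟨u, φ, p⟩ := C.ex
  obtain ⟨i, hi, -⟩ := C.two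
  obtain ⟨k, -, α, hα, h5, h4, M, h6, h7⟩ := C.exists_two h2 h3 (fun u φ p =>
    ⟨u, _, (ex u φ p).1, p.zero, (ex u φ p).1.zero, (ex u φ p).2⟩) hY hi p (ex u φ p).1 (ex u φ p).2.symm
  obtain ⟨v, h8, hv⟩ := exists_ker_not_mem h3 φ p.1
  obtain ⟨χ, h9, h10⟩ := exists_dual_one_zero hv
  have h11 : φ (α v) = 0 := by simpa [hc0] using apply_eq_zero_of_r p.1 h4 h8
  obtain ⟨b, hb⟩ := hα.exists_eq h9 (C.nz p).2.1 fun z => by
    obtain ⟨l, hl, m, hm, e⟩ := Submodule.mem_sup.1 (h6 (r (s i) v φ z))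
    rw [sup_idem] at hl
    have h12 : r (s i) u φ (l + m) = 0 := by simp [e, hα.apply, h8, h11]
    rw [← e]
    exact add_mem hl (h7 u φ p m hm (by simpa [hl φ p.zero u] using h12)) χ h10 v
  exact h5 b hb

theorem Core.le_two_small [StarRing (End F V)] {Y' : Subgroup (V ≃ₗ[F] V)} (S : St σ B s Y')
    (C : Core h Y (PF σ B) J) (hY' : Y ≤ Y') (h2 : (2 : F) = 0) (h3 : 3 ≤ finrank F U)
    (hq : ∀ c, σ c = c → c = 0 ∨ c = 1)
    (o2 : ∀ x z, ∃ c, c ≠ 0 ∧ B c c = 0 ∧ B x c = 0 ∧ B z c = 0)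
    (hk : 5 ≤ finrank F U ∨ ∃ ω, σ ω ≠ ω) : Y ≤ h.Wr := by
  by_contra hY
  have := h.nt
  have ne : ∀ {u c : U} {φ : Dual F U}, c ∉ Submodule.span F {u} →
      (B c).smulRight c ≠ φ.smulRight u := fun {u c φ} h1 e => by
    obtain ⟨y, hy⟩ := exists_apply_eq_one (S.ne (x := c) (by rintro rfl; simp at h1))
    exact h1 (Submodule.mem_span_singleton.2 ⟨φ y, by simpa [hy] using (LinearMap.congr_fun e y).symm⟩)
  obtain ⟨x, h0, hx⟩ := S.iso
  obtain ⟨x', hx', hxx, hn⟩ := S.exists_orth o2 h0 hx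
  have h0' : x' ≠ 0 := by rintro rfl; simp at hn
  obtain ⟨i, hi, -⟩ := C.two
  obtain ⟨k, hkY, α, hα, h5, h4, M, h6, h7⟩ := C.exists_two h2 h3 (fun u φ p => by
    obtain ⟨c, h1, h2, h3⟩ := S.exists_orth o2 p.1 p.2.1
    obtain ⟨-, -, d, -, -, rfl⟩ := p
    exact ⟨c, _, PF.of (by rintro rfl; simp at h3) h1, by simp [h2], S.orth h2, ne h3⟩) hY hi
    (PF.of h0 hx) (PF.of h0' hx') (ne hn).symm
  have K : ∀ d z, d ≠ 0 → B d d = 0 → B d x = 0 → B d x' = 0 → r (s i) x (B d) (k z - z) = 0 →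
      ∀ ψ : Dual F U, ψ x = 0 → ψ x' = 0 → ∀ a, r (s i) a ψ (k z - z) = 0 :=
    fun d z hd0 hd h8 h9 h10 ψ h11 h12 a => by
    obtain ⟨_, hl₀, m, hm, e⟩ := Submodule.mem_sup.1 (h6 z)
    obtain ⟨l, hl, l', hl', rfl⟩ := Submodule.mem_sup.1 hl₀
    obtain ⟨θ, hθ⟩ := exists_dual_one_of_ne (F := F) h0
    obtain ⟨c, h13, h14, h15⟩ := S.exists_orth o2 hd0 hd
    have h16 := h7 d _ (PF.of hd0 hd) m hm (by
      simpa [← e, hl _ h8, hl' _ h9, hθ] using congrArg (r (s i) d θ) h10)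
    have h17 := eq_zero_of_mem_L h15 (h7 c _ (PF.of (by rintro rfl; simp at h15) h13) m hm
      (h16 _ (S.orth h14) c)) h16
    simp [← e, h17, hl _ h11, hl' _ h12]
  obtain ⟨β, hβ, -, e⟩ := hα.exists_Cm
  have e' : ∀ a θ z, k (r (s i) a θ z) = r (s i) (α a) θ (β z) := fun a θ z =>
    LinearMap.congr_fun (e a θ) z
  have K1 : ∀ v θ z, B x v = 0 → B x' v = 0 → ∀ ψ : Dual F U, ψ x = 0 → ψ x' = 0 → ∀ a,
      r (s i) a ψ (k (r (s i) v θ z) - r (s i) v θ z) = 0 := fun v θ z h8 h9 =>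
    K x' _ h0' hx' (S.orth hxx) hx' (by simp [e', h9, apply_eq_zero_of_r h0' h4 h8])
  have dual : ∀ {v}, v ∉ Submodule.span F {x, x'} → ∃ χ : Dual F U, χ v = 1 ∧ χ x = 0 ∧ χ x' = 0 :=
    fun hv => let ⟨χ, h8, h9⟩ := exists_dual_one hv
      ⟨χ, h8, h9 _ (Submodule.subset_span (by simp)), h9 _ (Submodule.subset_span (by simp))⟩
  have hP : ∀ v, B x v = 0 → B x' v = 0 → v ∈ Submodule.span F {x, x'} := fun v h8 h9 => by
    by_contra hv
    obtain ⟨χ, h10, h11, h12⟩ := dual hv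
    obtain ⟨b, hb⟩ := hα.exists_eq h10 (S.ne h0) fun z => K1 v _ z h8 h9 χ h11 h12 v
    exact h5 b hb
  obtain ⟨θ', h8, h9⟩ := exists_dual_one_zero hn
  obtain ⟨θ, h10, h11⟩ := exists_dual_one_zero (not_mem_span_symm' h0 hn)
  obtain ⟨ω, hω⟩ := hk.resolve_left fun hk => by
    obtain ⟨v, hv, h12⟩ := exists_ne_zero_map_eq_zero (LinearMap.pi ![B x, B x', θ, θ'])
      (by simp; omega)
    obtain ⟨a, b, rfl⟩ := Submodule.mem_span_pair.1 (hP v (congrFun h12 0) (congrFun h12 1))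
    have h13 := congrFun h12 2
    have h14 := congrFun h12 3
    simp [h8, h9, h10, h11] at h13 h14
    simp [h13, h14] at hv
  have K2 : ∀ (ψ : Dual F U) z, ψ ≠ 0 → ψ x = 0 → ψ x' = 0 → r (s i) x ψ (k z - z) = 0 →
      ∀ ψ : Dual F U, ψ x = 0 → ψ x' = 0 → ∀ a, r (s i) a ψ (k z - z) = 0 :=
    fun ψ z h12 h13 h14 => by
    obtain ⟨d, rfl⟩ := S.sj ψ
    obtain ⟨a, b, e⟩ := Submodule.mem_span_pair.1 (hP d (S.orth h13) (S.orth h14))
    exact K d z (by rintro rfl; simp at h12) (by simpa [h13, h14] using congrArg (B d) e.symm) h13 h14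
  have ann : ∀ y, ∃ ψ : Dual F U, ψ ≠ 0 ∧ ψ x = 0 ∧ ψ x' = 0 ∧ ψ y = 0 := fun y => by
    by_cases h12 : B x y = 0
    · exact ⟨_, S.ne h0, hx, hxx, h12⟩
    obtain ⟨w, h13, h14⟩ := S.exists_dual hn
    exact ⟨B x' - (B x' y / B x y) • B x, fun h15 => by
      simpa [h13, h14] using LinearMap.congr_fun h15 w, by simp [hx, S.orth hxx],
      by simp [hx', hxx], by simp [h12]⟩
  have K' : ∀ y z w φ, (∃ χ : Dual F U, χ x = 0 ∧ χ x' = 0 ∧ χ y ≠ 0) → (∀ ψ : Dual F U, ψ x = 0 →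
      ψ x' = 0 → r (s i) x ψ (k z - z - r (s i) y φ w) = 0) → r (s i) x φ w = 0 :=
    fun y z w φ ⟨χ, h12, h13, h14⟩ h15 => by
    obtain ⟨ψ, h16, h17, h18, h19⟩ := ann y
    have h20 := K2 ψ z h16 h17 h18 (by simpa [h19] using h15 ψ h17 h18) χ h12 h13 x
    have h21 := h15 χ h12 h13
    rw [map_sub, h20] at h21
    simpa [h14] using h21
  obtain ⟨v, hv, h12⟩ := S.partner h0 hx
  have ind : ∀ ψ : Dual F U, ψ x = 0 → ψ x' = 0 → ψ v = 0 → ψ (α v) = 0 → ψ = 0 :=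
    fun ψ h13 h14 h15 h16 => by
    by_contra h17
    obtain ⟨b, hb⟩ := hα.exists_eq h12 (S.ne h0) fun z =>
      K2 ψ _ h17 h13 h14 (by simp [e', h15, h16]) _ hx hxx v
    exact h5 b hb
  obtain ⟨a, b, e1⟩ : ∃ a b : F, ∀ ψ : Dual F U, ψ x = 0 → ψ x' = 0 →
      ψ (α (α v)) = a * ψ v + b * ψ (α v) := by
    obtain ⟨p, hp, _, hq, e1⟩ := Submodule.mem_sup.1 (mem_of_dual (A := Submodule.span F {x, x'} ⊔
      Submodule.span F {v, α v}) (fun χ hχ => ind χ
        (hχ _ (Submodule.mem_sup_left (Submodule.subset_span (by simp))))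
        (hχ _ (Submodule.mem_sup_left (Submodule.subset_span (by simp))))
        (hχ _ (Submodule.mem_sup_right (Submodule.subset_span (by simp))))
        (hχ _ (Submodule.mem_sup_right (Submodule.subset_span (by simp))))) (α (α v)))
    obtain ⟨c, d, rfl⟩ := Submodule.mem_span_pair.1 hp
    obtain ⟨a, b, rfl⟩ := Submodule.mem_span_pair.1 hq
    exact ⟨a, b, fun ψ h13 h14 => by simp [← e1, h13, h14]⟩
  have q1 : a • (β * β) + b • β - 1 = 0 := r_mul_eq_zero (s := s i) h0 (S.ne h0)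
    (sub_mem (add_mem (Subalgebra.smul_mem _ (mul_mem hβ hβ) _) (Subalgebra.smul_mem _ hβ _))
      (one_mem _)) (LinearMap.ext fun w => K' (α v) (r (s i) v (B x) (a • β w) + r (s i) (α v) (B x) w)
        _ _ (let ⟨ψ, h13, h14, h15, h16⟩ := ann v
          ⟨ψ, h14, h15, fun h17 => h13 (ind ψ h14 h15 h16 h17)⟩) fun ψ h13 h14 => by
        simp only [map_add, e', map_smul, LinearMap.add_apply, LinearMap.smul_apply, r_r, e1 ψ h13 h14,
          LinearMap.sub_apply, End.mul_apply, End.one_apply, map_sub]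
        module)
  have ne : ¬ ∃ (c : F) (z : V), z ≠ 0 ∧ β z = c • z := fun ⟨d, z, hz, h13⟩ =>
    hz (eq_zero_of_r (s := s i) h0 fun φ => K' (d • α v - v) (r (s i) v φ z) z φ
      (let ⟨ψ, h13, h14, h15, h16⟩ := ann (α v);
        ⟨ψ, h14, h15, fun h17 => h13 (ind ψ h14 h15 (by simpa [h16] using h17) h16)⟩)
      fun ψ _ _ => by simp [e', h13])
  have q2 : B (α x) (α v) • (star β * β) = 1 := by
    have h13 := congrArg star (e x (B x))
    rw [star_mul, star_mul, S.str, S.str, S.uni k (hY' hkY)] at h13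
    have h14 := congrArg (· * (k * r (s i) v (B x))) h13
    rw [mul_assoc, ← mul_assoc _ (k : End F V), coe_inv_mul, one_mul] at h14
    refine r_mul_cancel (s := s i) h0 (S.ne h0) (Subalgebra.smul_mem _ (mul_mem (S.star_Cm hβ) hβ) _)
      (one_mem _) ?_
    simpa [e, h12, mul_assoc, Cm_r' (S.star_Cm hβ)] using h14.symm
  have q3 : star β * β = 1 := by
    have h13 := congrArg star q2
    rw [S.smul, star_mul, star_star, star_one] at h13
    have h14 : star β * β ≠ 0 := fun h14 => by simp [h14] at q2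
    rcases hq _ (smul_left_injective F h14 (h13.trans q2.symm)) with h15 | h15
    · simp [h15] at q2
    · simpa [h15] using q2
  have q4 : σ a • (1 : End F V) + σ b • β - β * β = 0 := by
    have h13 := congrArg (star · * (β * β)) q1
    simpa [S.smul, sub_mul, add_mul, mul_assoc, ← mul_assoc (star β) β, q3] using h13
  have q5 : (a * σ b + b) • β = (1 - a * σ a) • 1 := by
    linear_combination (norm := module) q1 + a • q4
  obtain ⟨z, hz⟩ := exists_ne (0 : V)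
  by_cases h13 : a * σ b + b = 0
  · obtain ⟨ρ, hρ⟩ := exists_root_four h2 hq S.σσ hω (a := a) (by
      rw [h13, zero_smul, eq_comm, smul_eq_zero_iff_left one_ne_zero] at q5
      linear_combination -q5) h13
    refine ne (exists_eigen_of_mul (a := ρ) (b := σ b - ρ) ?_)
    simp only [mul_sub, sub_mul, mul_smul_comm, smul_mul_assoc, mul_one, one_mul]
    linear_combination (norm := module) -q4 + hρ • (1 : End F V)
  · exact ne ⟨_, z, hz, by
      simpa using LinearMap.congr_fun ((eq_inv_smul_iff₀ h13).2 q5 |>.trans (smul_smul _ _ _)) z⟩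

end CfsgLib.C7
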