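import Mathlib
import Cfsg.Agent.Lib.C7.End2

/-!
Tensor powers of a space with a form: the non-rigid case.
-/

set_option autoImplicit false

namespace CfsgLib.C7

open Module CfsgLib.ClMax

variable {F U V : Type*} [Field F] [AddCommGroup U] [Module F U] [AddCommGroup V] [Module F V]
  {σ : F →+* F} {B : U →ₛₗ[σ] Dual F U} {T : Type*} {s : T → End F U →ₐ[F] End F V}
  {Y : Subgroup (V ≃ₗ[F] V)}

theorem exists_sq_sub [Finite F] {c : F} (hc : σ c = c) :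
    ∃ a b, σ a = a ∧ σ b = b ∧ a * a - b * b = c := by
  by_cases h2 : (2 : F) = 0
  · have inj : Function.Injective fun a : F => a * a := fun a b e => by
      have : (a - b) ^ 2 = 0 := by linear_combination e + (b * b - a * b) * h2
      exact sub_eq_zero.1 (pow_eq_zero_iff two_ne_zero |>.1 this)
    obtain ⟨a, ha⟩ := Finite.surjective_of_injective inj c
    exact ⟨a, 0, inj (by simp only [← map_mul, ha, hc]), map_zero σ, by simpa using ha⟩
  · exact ⟨(c + 1) / 2, (c - 1) / 2, by simp [hc, map_ofNat], by simp [hc, map_ofNat], by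
      field_simp; ring⟩

theorem coe_inv_of_sq {g : V ≃ₗ[F] V} {N : End F V} (e : (g : End F V) = 1 + N) (h : N * N = 0) :
    ((g⁻¹ : V ≃ₗ[F] V) : End F V) = 1 - N := by
  have : (g : End F V) * (1 - N) = 1 := by simp [e, add_mul, mul_sub, h]
  simpa [← mul_assoc, coe_inv_mul] using congrArg (((g⁻¹ : V ≃ₗ[F] V) : End F V) * ·) this.symm

variable (σ B s Y) in
/-- The parameters of the long root elements. -/
def RR (i : T) : AddSubgroup (End F V) where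
  carrier := {E | E ∈ Cm (s i) ∧ ∀ x c, B x x = 0 → σ c = c → UIn Y (c • (r (s i) x (B x) * E))}
  add_mem' ha hb := ⟨add_mem ha.1 hb.1, fun x c hx hc => by
    simpa [mul_add] using (ha.2 x c hx hc).add (hb.2 x c hx hc) (by simp [mul_assoc, Cm_r' ha.1, hx])⟩
  zero_mem' := ⟨zero_mem _, fun _ _ _ _ => by simpa using uIn_zero⟩
  neg_mem' ha := ⟨neg_mem ha.1, fun x c hx hc => by simpa using ha.2 x (-c) hx (by simp [hc])⟩

theorem RR_uin {i : T} {E : End F V} (h : E ∈ RR σ B s Y i) {x : U} (hx : B x x = 0) :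
    UIn Y (r (s i) x (B x) * E) := by simpa using h.2 x 1 hx (map_one σ)

theorem RR_smul {i : T} {E : End F V} (h : E ∈ RR σ B s Y i) {c : F} (hc : σ c = c) :
    c • E ∈ RR σ B s Y i := ⟨Subalgebra.smul_mem _ h.1 c, fun x d hx hd => by
  simpa [smul_smul] using h.2 x (d * c) hx (by simp [hc, hd])⟩

theorem conj_mem_Cm {s : End F U →ₐ[F] End F V} {g : V ≃ₗ[F] V} (hg : (g : End F V) ∈ Cm s)
    {E : End F V} (h : E ∈ Cm s) : g * E * (g⁻¹ : V ≃ₗ[F] V) ∈ Cm s :=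
  mul_mem (mul_mem hg h) (inv_mem_Cm hg)

theorem RR_conj {i : T} {g : V ≃ₗ[F] V} (hg : g ∈ Y) (hg' : (g : End F V) ∈ Cm (s i)) {E : End F V}
    (h : E ∈ RR σ B s Y i) : g * E * (g⁻¹ : V ≃ₗ[F] V) ∈ RR σ B s Y i :=
  ⟨conj_mem_Cm hg' h.1, fun x c hx hc => by
    simpa [mul_assoc, Cm_r' hg'] using (h.2 x c hx hc).conj hg⟩

variable [FiniteDimensional F U]

variable (σ B s) in
/-- Invariant subgroups contain square-zero elements. -/
def Nil : Prop := ∀ A : AddSubgroup (End F V), Inv s (PF σ B) A → (∀ c, σ c = c → ∀ E ∈ A, c • E ∈ A) →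
  ∀ l, ∀ E ∈ A, E ∉ Cm (s l) → ∃ n ∈ A, n * n = 0 ∧ n ∉ Cm (s l)

theorem not_mem_Cm {s : End F U →ₐ[F] End F V} {N : End F V} {a : U} (ha : a ≠ 0) (hN : N ≠ 0)
    (h : ∀ θ, N * r s a θ = 0) : N ∉ Cm s := fun h1 => by
  obtain ⟨θ, hθ⟩ := exists_dual_one_of_ne (F := F) ha
  exact hN (r_mul_eq_zero ha (φ := θ) (by rintro rfl; simp at hθ) h1 (by rw [← Cm_r h1, h]))

theorem Fm.nil_small (M : Fm σ B) (hk : (∃ ω, σ ω ≠ ω) ∨ finrank F U = 2) {c : F} (hc : σ c = c)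
    (hc0 : c ≠ 0) (hc1 : c ≠ 1) : Nil σ B s := fun A hA hs l E hE hl => by
  obtain ⟨a, C, hC, h0, ha, h1, h2⟩ := M.exists_one hk hc hc0 hc1 hA hs hE hl
  exact ⟨_, h2, by simp [mul_assoc, Cm_r' hC, ha], not_mem_Cm h0
    (fun h => h1 (r_mul_eq_zero h0 (M.ne h0) hC h)) fun θ => by simp [mul_assoc, Cm_r hC, ha]⟩

theorem Fm.nil_big (M : Fm σ B) (o2 : ∀ x z, ∃ c, c ≠ 0 ∧ B c c = 0 ∧ B x c = 0 ∧ B z c = 0) :
    Nil σ B s := fun A hA _ l E hE hl => by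
  obtain ⟨a, b, C, hC, D, hD, h0, ha, hb, hab, hn, h1, h2⟩ := M.exists_two o2 hA hE hl
  obtain ⟨χ, h3, h4⟩ := exists_dual_one_zero hn
  exact ⟨_, h2, by simp [mul_add, add_mul, mul_assoc, Cm_r' hC, Cm_r' hD, ha, hb, hab, M.orth hab],
    not_mem_Cm h0 (fun h => h1 (r_mul_eq_zero h0 (M.ne h0) hC (by
      simpa [mul_add, h3, h4] using congrArg (r (s l) a χ * ·) h)))
    fun θ => by simp [add_mul, mul_assoc, Cm_r hC, Cm_r hD, ha, M.orth hab]⟩

theorem Fm.exists_perp (M : Fm σ B) (h3 : 3 ≤ finrank F U) {x y : U} (hx : B x x = 0) (hy : B y y = 0)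
    (hxy : B x y = 1) : ∃ c c', B x c = 0 ∧ B y c = 0 ∧ B x c' = 0 ∧ B y c' = 0 ∧ B c c' = 1 := by
  obtain ⟨c, h0, h1, h2⟩ := exists_ker_two h3 (B x) (B y)
  obtain ⟨w, hw⟩ := exists_apply_eq_one (M.ne h0)
  exact ⟨c, w + B y w • x - B x w • y, h1, h2, by simp [hx, hxy], by simp [hy, M.sk x y, hxy],
    by simp [hw, M.orth h1, M.orth h2]⟩

variable [StarRing (End F V)]

variable (B s Y) in
/-- The parameters of the short root elements. -/
def TT (i : T) (x c : U) (G : End F V) : Prop := G ∈ Cm (s i) ∧ ∃ e ∈ Cm (s i),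
  UIn Y (r (s i) x (B c) * G + r (s i) c (B x) * star G + r (s i) x (B x) * e)

namespace St

variable (S : St σ B s Y)
include S

omit [FiniteDimensional F U] in
theorem one_RR (i : T) : 1 ∈ RR σ B s Y i := ⟨one_mem _, fun x c hx hc => by simpa using S.one i x c hx hc⟩

omit [FiniteDimensional F U] in
theorem mem_RR [Finite F] {i : T} {E : End F V} (hE : E ∈ Cm (s i)) {x : U} (h0 : x ≠ 0)
    (hx : B x x = 0) (h : UIn Y (r (s i) x (B x) * E)) : E ∈ RR σ B s Y i := by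
  have hp : ∀ (c : F) u y t, UIn Y (c • (r (s i) u (B u) * E)) → B y y = 0 → σ t = t →
      UIn Y (c • (r (s i) (u + (t * B y u) • y) (B (u + (t * B y u) • y)) * E)) := fun c u y t h hy ht => by
    rw [← S.conj_r hy ht u u hE, ← smul_mul_assoc, ← mul_smul_comm]
    exact h.conj_uni (S.one i y t hy ht) (by simp [hy])
  have sq : ∀ t, σ t = t → UIn Y ((t * t) • (r (s i) x (B x) * E)) := fun t ht => by
    by_cases h1 : t = 0
    · simpa [h1] using uIn_zero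
    simpa [ht, smul_smul] using S.mv2 (p := fun u => UIn Y ((1 : F) • (r (s i) u (B u) * E))) (hp 1)
      (by simpa using h) h0 hx ht h1
  refine ⟨hE, fun z c hz hc => ?_⟩
  by_cases h1 : z = 0
  · simpa [h1] using uIn_zero
  refine S.move (p := fun u => ∀ c, σ c = c → UIn Y (c • (r (s i) u (B u) * E)))
    (fun u y t h hy ht c hc => hp c u y t (h c hc) hy ht) (fun u a ha h c hc => ?_) (fun c hc => ?_)
    h0 hx h1 hz c hc
  · simpa [smul_smul, ha, mul_assoc] using h (c * (σ a * a)⁻¹) (by simp [hc, S.σσ, mul_comm])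
  · obtain ⟨a, b, ha, hb, rfl⟩ := exists_sq_sub hc
    rw [sub_smul]
    exact (sq a ha).sub (sq b hb) (by simp [mul_assoc, Cm_r' hE, hx]) (by simp [mul_assoc, Cm_r' hE, hx])

theorem RR_star {i : T} {E : End F V} (h : E ∈ RR σ B s Y i) : star E = E := by
  obtain ⟨x, h0, hx⟩ := S.iso
  have := S.skew (RR_uin h hx) (by simp [mul_assoc, Cm_r' h.1, hx])
  rw [star_mul, S.str, mul_neg, neg_inj, Cm_r (S.star_Cm h.1)] at this
  exact r_mul_cancel h0 (S.ne h0) (S.star_Cm h.1) h.1 this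

omit [FiniteDimensional F U] in
theorem inv_of_conj (h : TP s) {i : T} {A : Set (End F V)} (hA : ∀ E ∈ A, E ∈ Cm (s i))
    (hc : ∀ g ∈ Y, (g : End F V) ∈ Cm (s i) → ∀ E ∈ A, g * E * (g⁻¹ : V ≃ₗ[F] V) ∈ A) :
    Inv s (PF σ B) A := fun j u φ p E hE => by
  by_cases hj : j = i
  · subst hj; rwa [conj_Cm p.zero (hA E hE)]
  obtain ⟨g, hg, e⟩ := S.uin p j
  rw [← coe_inv_of_sq e (r_sq p.zero), ← e]
  exact hc g hg (e ▸ add_mem (one_mem _) (h.r_mem (Ne.symm hj) u φ)) E hE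

section TT

variable {i : T} {x c c' : U} {G H : End F V}

omit [FiniteDimensional F U] in
theorem tt_one (i : T) (hx : B x x = 0) (hc : B x c = 0) : TT B s Y i x c 1 :=
  let ⟨e, he⟩ := S.rt i x c hx hc
  ⟨one_mem _, e • 1, Subalgebra.smul_mem _ (one_mem _) e, by simpa using he⟩

theorem tt_add (hx : B x x = 0) (hc : B x c = 0) (h1 : TT B s Y i x c G) (h2 : TT B s Y i x c H) :
    TT B s Y i x c (G + H) := by
  obtain ⟨hG, e, he, h1⟩ := h1
  obtain ⟨hH, e', he', h2⟩ := h2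
  refine ⟨add_mem hG hH, e + e' + B c c • (G * star H), add_mem (add_mem he he')
    (Subalgebra.smul_mem _ (mul_mem hG (S.star_Cm hH)) _), (h1.mul h2).of_eq ?_⟩
  simp [mul_add, add_mul, mul_assoc, Cm_r' hG, Cm_r' he, Cm_r' (S.star_Cm hG), hx, hc, S.orth hc]
  abel

theorem tt_neg (h1 : TT B s Y i x c G) : TT B s Y i x c (-G) := by
  obtain ⟨hG, e, he, h1⟩ := h1
  refine ⟨neg_mem hG, -star e, neg_mem (S.star_Cm he), (S.un h1).1.of_eq ?_⟩
  simp [S.str, Cm_r hG, Cm_r (S.star_Cm hG), Cm_r (S.star_Cm he)]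
  abel

omit [FiniteDimensional F U] in
theorem tt_smul (a : F) (h1 : TT B s Y i x (σ a • c) G) : TT B s Y i x c (a • G) := by
  obtain ⟨hG, e, he, h1⟩ := h1
  exact ⟨Subalgebra.smul_mem _ hG a, e, he, by simpa [S.smul, S.σσ] using h1⟩

theorem piece {g : V ≃ₗ[F] V} (hg : g ∈ Y) {a b : U} {u w : End F V} (hu : u ∈ Cm (s i))
    (hw : w ∈ Cm (s i)) (ha : ∀ φ, g * r (s i) a φ = r (s i) a φ * u)
    (hb : ∀ φ, g * r (s i) b φ = r (s i) b φ * w) (hG : G ∈ Cm (s i)) :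
    g * (r (s i) a (B b) * G) * (g⁻¹ : V ≃ₗ[F] V) = r (s i) a (B b) * (u * G * star w) := by
  have := congrArg star (hb (B a))
  rw [star_mul, star_mul, S.str, S.uni g hg, neg_mul, mul_neg, neg_inj] at this
  rw [← mul_assoc, ha, mul_assoc _ u, ← Cm_r (mul_mem hu hG), mul_assoc, this, ← mul_assoc,
    Cm_r (mul_mem (mul_mem hu hG) (S.star_Cm hw))]

theorem tt_conj {g : V ≃ₗ[F] V} (hg : g ∈ Y) {u w : End F V} (hu : u ∈ Cm (s i))
    (hw : w ∈ Cm (s i)) (ha : ∀ φ, g * r (s i) x φ = r (s i) x φ * u)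
    (hb : ∀ φ, g * r (s i) c φ = r (s i) c φ * w) (h1 : TT B s Y i x c G) :
    TT B s Y i x c (u * G * star w) := by
  obtain ⟨hG, e, he, h1⟩ := h1
  refine ⟨mul_mem (mul_mem hu hG) (S.star_Cm hw), _, mul_mem (mul_mem hu he) (S.star_Cm hu),
    (h1.conj hg).of_eq ?_⟩
  rw [mul_add, mul_add, add_mul, add_mul, S.piece hg hu hw ha hb hG,
    S.piece hg hw hu hb ha (S.star_Cm hG), S.piece hg hu hu ha ha he]
  simp [mul_assoc]

theorem tt_pair (h0 : x ≠ 0) (hx : B x x = 0) (hc : B x c = 0) (hc' : B x c' = 0)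
    (h1 : TT B s Y i x c G) (h2 : TT B s Y i x c' H) :
    UIn Y (r (s i) x (B x) * (B c c' • (G * star H) - B c' c • (H * star G))) := by
  obtain ⟨hG, e, he, h1⟩ := h1
  obtain ⟨hH, e', he', h2⟩ := h2
  have hG' := S.star_Cm hG
  have hH' := S.star_Cm hH
  refine S.qt_comm h0 hx h1 (S.qt_TT hx hc hG hG' he) h2 (S.qt_TT hx hc' hH hH' he') (sub_mem
    (Subalgebra.smul_mem _ (mul_mem hG hH') _) (Subalgebra.smul_mem _ (mul_mem hH hG') _)) ?_
  simp [mul_add, add_mul, mul_sub, mul_assoc, Cm_r' hG, Cm_r' he, Cm_r' hG', Cm_r' hH, Cm_r' he',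
    Cm_r' hH', hx, hc, hc', S.orth hc, S.orth hc']

end TT

omit [FiniteDimensional F U] in
theorem exists_weyl {i : T} {x y : U} (hx : B x x = 0) (hy : B y y = 0) (hxy : B x y = 1)
    {u u' : End F V} (hu : u ∈ RR σ B s Y i) (hu' : u' ∈ RR σ B s Y i) (e : u * u' = 1) (e' : u' * u = 1) :
    ∃ g ∈ Y, (∀ φ, g * r (s i) x φ = -(r (s i) y φ * u')) ∧ (∀ φ, g * r (s i) y φ = r (s i) x φ * u) ∧
      ∀ c φ, B x c = 0 → B y c = 0 → g * r (s i) c φ = r (s i) c φ := by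
  obtain ⟨a, ha, ea⟩ := RR_uin hu hx
  obtain ⟨b, hb, eb⟩ := RR_uin hu' hy
  have hyx : B y x = -1 := by simp [S.sk x y, hxy]
  refine ⟨a * b * a, mul_mem (mul_mem ha hb) ha, fun φ => ?_, fun φ => ?_, fun c φ h1 h2 => ?_⟩ <;>
    simp [ea, eb, mul_add, add_mul, mul_assoc, Cm_r hu.1, Cm_r hu'.1, Cm_r' hu.1, Cm_r' hu'.1, *]

/-- The short root parameters for a hyperbolic pair. -/
def SS (i : T) {x : U} (hx : B x x = 0) (y : U) : Submodule F (End F V) where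
  carrier := {G | G ∈ Cm (s i) ∧ ∀ c, B x c = 0 → B y c = 0 → TT B s Y i x c G}
  add_mem' ha hb := ⟨add_mem ha.1 hb.1, fun c h1 h2 => S.tt_add hx h1 (ha.2 c h1 h2) (hb.2 c h1 h2)⟩
  zero_mem' := ⟨zero_mem _, fun _ _ _ => ⟨zero_mem _, 0, zero_mem _, by simpa using uIn_zero⟩⟩
  smul_mem' a _ h := ⟨Subalgebra.smul_mem _ h.1 a, fun c h1 h2 =>
    S.tt_smul a (h.2 _ (by simp [h1]) (by simp [h2]))⟩

theorem big [Finite F] [Finite T] (h : TP s) (h3 : 3 ≤ finrank F U) (one : One s (PF σ B))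
    (nil : Nil σ B s) (cyc : ∀ i j k, i ≠ j → i ≠ k → j ≠ k →
      ∃ g ∈ Y, Nma g (s i) (s k) 1 ∧ Nma g (s j) (s i) 1) (hZ : ¬ Zs B s Y) :
    ∃ i, ∀ G ∈ Cm (s i), G + star G ∈ RR σ B s Y i := by
  have := h.nt
  simp only [Zs, not_forall] at hZ
  obtain ⟨i, x, E, h0, hx, hE, h1, h2⟩ := hZ
  obtain ⟨l, hl⟩ : ∃ l, E ∉ Cm (s l) := by
    by_contra h'; push Not at h'; exact h2 (h.scalar h')
  have hil : i ≠ l := by rintro rfl; exact hl hE
  obtain ⟨n, hn, h4, h5⟩ := nil (RR σ B s Y i) (S.inv_of_conj h (fun _ h => h.1)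
    fun g hg hg' E => RR_conj hg hg') (fun c hc E hE => RR_smul hE hc) l E (S.mem_RR hE h0 hx h1) hl
  obtain ⟨y, hy, hxy⟩ := S.partner h0 hx
  let A : Subalgebra F (End F V) :=
    { carrier := {G | G ∈ Cm (s i) ∧ ∀ H ∈ S.SS i hx y, G * H ∈ S.SS i hx y}
      mul_mem' ha hb := ⟨mul_mem ha.1 hb.1, fun H hH => mul_assoc _ _ H ▸ ha.2 _ (hb.2 H hH)⟩
      add_mem' ha hb := ⟨add_mem ha.1 hb.1, fun H hH => add_mul _ _ H ▸ add_mem (ha.2 H hH) (hb.2 H hH)⟩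
      algebraMap_mem' c := ⟨Subalgebra.algebraMap_mem _ c, fun H hH =>
        Algebra.smul_def c H ▸ Submodule.smul_mem _ c hH⟩ }
  have cj : ∀ g ∈ Y, (g : End F V) ∈ Cm (s i) → ∀ H ∈ S.SS i hx y,
      g * H * (g⁻¹ : V ≃ₗ[F] V) ∈ S.SS i hx y := fun g hg hg' H hH =>
    ⟨conj_mem_Cm hg' hH.1, fun c h1 h2 => S.uni g hg ▸
      S.tt_conj hg hg' hg' (Cm_r hg' x) (Cm_r hg' c) (hH.2 c h1 h2)⟩
  have cA : ∀ g ∈ Y, (g : End F V) ∈ Cm (s i) → ∀ G ∈ A, g * G * (g⁻¹ : V ≃ₗ[F] V) ∈ A :=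
    fun g hg hg' G hG => ⟨conj_mem_Cm hg' hG.1, fun H hH => by
      simpa [mul_assoc, coe_mul_inv] using cj g hg hg' _ (hG.2 _ (cj g⁻¹ (inv_mem hg) (inv_mem_Cm hg') H hH))⟩
  have sl : ∀ {k N}, N ∈ A → N ∉ Cm (s k) → ∀ a, s k a ∈ A := fun hN hk =>
    h.slot_le_alg (fun _ _ => PF.zero) S.sp2 one (A := Subalgebra.toSubmodule A)
      (fun _ a _ b => A.mul_mem a b) (S.inv_of_conj h (fun _ h => h.1) cA) hN hk
  obtain ⟨c, c', h6, h7, h8, h9, h10⟩ := S.exists_perp h3 hx hy hxy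
  have key : ∀ G ∈ A, G + star G ∈ RR σ B s Y i := fun G hG =>
    S.mem_RR (add_mem hG.1 (S.star_Cm hG.1)) h0 hx (by
      simpa [h10, S.sk c c'] using S.tt_pair h0 hx h6 h8
        ((hG.2 1 ⟨one_mem _, fun c h1 _ => S.tt_one i hx h1⟩).2 c h6 h7) (S.tt_one i hx h8))
  have h11 := sl (N := n) ⟨hn.1, fun H hH => by
    obtain ⟨a, ha, -, h11, h12⟩ := S.exists_weyl hx hy hxy (add_mem (S.one_RR i) hn)
      (sub_mem (S.one_RR i) hn) (by simp [add_mul, mul_sub, h4]) (by simp [sub_mul, mul_add, h4])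
    obtain ⟨b, hb, h13, -, h14⟩ := S.exists_weyl hx hy hxy (neg_mem (S.one_RR i)) (neg_mem (S.one_RR i))
      (by simp) (by simp)
    have h15 : (1 + n) * H ∈ S.SS i hx y := ⟨mul_mem (add_mem (one_mem _) hn.1) hH.1, fun c h1 h2 => by
      simpa using S.tt_conj (mul_mem ha hb) (add_mem (one_mem _) hn.1) (one_mem _)
        (fun φ => by simp [mul_assoc, h11, h13]) (fun φ => by simp [mul_assoc, h12, h14, h1, h2])
        (hH.2 c h1 h2)⟩
    simpa [add_mul] using sub_mem h15 hH⟩ h5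
  refine ⟨i, fun G hG => key G (h.mem_of_Cm (A := A) (fun k hk => ?_) (fun _ h => h.1) hG)⟩
  by_cases hkl : k = l
  · exact hkl ▸ h11
  obtain ⟨g, hg, h12, h13⟩ := cyc l i k hil.symm (Ne.symm hkl) hk.symm
  have hlk := h.r_mem (Ne.symm hkl)
  obtain ⟨t, ht, et⟩ : UIn Y (r (s l) x (B x) * (r (s k) x (B c) - r (s k) c (B x))) := by
    refine ((RR_uin (key _ (h11 ((B c).smulRight x))) hx).conj hg).of_eq ?_
    rw [← r_def, S.str, ← sub_eq_add_neg, ← mul_assoc, h13, mul_assoc _ (g : End F V), mul_sub, h12, h12,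
      ← sub_mul, ← mul_assoc, mul_assoc _ (g : End F V), coe_mul_inv, mul_one]
    rfl
  have h14 := cA t ht (et ▸ add_mem (one_mem _) (mul_mem (h.r_mem hil _ _)
    (sub_mem (h.r_mem hk.symm _ _) (h.r_mem hk.symm _ _)))) _ (h11 ((B x).smulRight y))
  rw [coe_inv_of_sq et (by simp [mul_assoc, Cm_r' (sub_mem (hlk _ _) (hlk _ _)), hx]), et, ← r_def] at h14
  refine sl (sub_mem h14 (h11 ((B x).smulRight y))) ?_
  rw [← r_def, show _ - r (s l) y (B x) = r (s l) x (B x) * (r (s k) x (B c) - r (s k) c (B x)) by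
    simp [mul_sub (_ : End F V) 1, add_mul, mul_assoc, Cm_r' (sub_mem (hlk _ _) (hlk _ _)),
      Cm_r (sub_mem (hlk _ _) (hlk _ _)), hx, hxy]]
  refine not_mem_Cm h0 (fun h15 => ?_) fun θ => by simp [mul_assoc, sub_mul, hx, S.orth h6]
  have h16 := r_mul_eq_zero h0 (S.ne h0) (sub_mem (hlk _ _) (hlk _ _)) h15
  exact r_ne_zero (s := s k) (u := c) (by rintro rfl; simp at h10) (S.ne h0)
    (by simpa [sub_mul, S.orth h7, hxy] using congrArg (· * r (s k) y (B x)) h16)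

theorem uin_of_big {i : T} (h : ∀ G ∈ Cm (s i), G + star G ∈ RR σ B s Y i) {x : U} (h0 : x ≠ 0)
    (hx : B x x = 0) {M : End F V} (h1 : ∀ v, M v ∈ L (s i) x) (h2 : ∀ v, star M v ∈ L (s i) x) :
    UIn Y (M - star M) := by
  obtain ⟨y, -, h3⟩ := S.partner h0 hx
  have h4 : B (-y) x = 1 := by simp [S.sk x y, h3]
  have e : ∀ {M : End F V}, (∀ v, M v ∈ L (s i) x) → r (s i) x (B (-y)) * M = M := fun h =>
    LinearMap.ext fun v => r_eq_of_mem_L h4 (h v)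
  have e1 := congrArg star (e h2)
  rw [star_mul, star_star, S.str, map_neg, LinearMap.neg_apply, neg_neg] at e1
  have e2 := r_co (s := s i) M (B (-y)) (B x) x y
  rw [e h1, e1] at e2
  refine (RR_uin (h _ (co_mem M (B (-y)) y)) hx).of_eq ?_
  rw [mul_add, ← e2, ← Cm_r (S.star_Cm (co_mem _ _ _)), sub_eq_add_neg, add_right_inj]
  conv_rhs => rw [e2, star_mul, S.str, mul_neg, neg_neg]

end St

end CfsgLib.C7
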