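import Mathlib
import Cfsg.Agent.Lib.C7.Big

/-!
Tensor powers of a space with a form: adjoints, pure tensors and the isometry group.
-/

set_option autoImplicit false

namespace CfsgLib.C7

open Module CfsgLib.ClMax

variable {F U V : Type*} [Field F] [AddCommGroup U] [Module F U] [AddCommGroup V] [Module F V]
  {σ : F →+* F} {B : U →ₛₗ[σ] Dual F U} {T : Type*} {s : T → End F U →ₐ[F] End F V}
  {Y : Subgroup (V ≃ₗ[F] V)} {H : V →ₛₗ[σ] Dual F V} {ε : F}

theorem sj_of_nd [Finite F] [FiniteDimensional F U] (h : ∀ x, B x = 0 → x = 0) (φ : Dual F U) :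
    ∃ x, B x = φ := by
  have := Module.finite_of_finite F (M := U)
  let e := LinearEquiv.ofFinrankEq (R := F) (Dual F U) U (by simp)
  obtain ⟨x, hx⟩ := Finite.surjective_of_injective (f := fun x => e (B x))
    (fun a b h1 => sub_eq_zero.1 (h _ (by rw [map_sub, e.injective h1, sub_self]))) (e φ)
  exact ⟨x, e.injective hx⟩

variable (σ H ε) in
/-- A non-degenerate reflexive form. -/
structure Hm : Prop where
  σσ : ∀ a, σ (σ a) = a
  sk : ∀ x y, H y x = ε * σ (H x y)
  nd : ∀ x, H x = 0 → x = 0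
  sj : ∀ φ, ∃ x, H x = φ

namespace Hm

variable (M : Hm σ H ε)
include M

theorem ext {a b : V} (h : ∀ y, H a y = H b y) : a = b :=
  sub_eq_zero.1 (M.nd _ (by rw [map_sub, LinearMap.ext h, sub_self]))

/-- The adjoint of an endomorphism. -/
noncomputable def adj (E : End F V) : End F V where
  toFun x := (M.sj (H x ∘ₗ E)).choose
  map_add' a b := M.ext fun y => by simp [(M.sj _).choose_spec]
  map_smul' c a := M.ext fun y => by simp [(M.sj _).choose_spec]

theorem adj_apply (E : End F V) (x y : V) : H (M.adj E x) y = H x (E y) :=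
  LinearMap.congr_fun (M.sj (H x ∘ₗ E)).choose_spec y

/-- The adjoint involution. -/
@[reducible] noncomputable def starRing : StarRing (End F V) where
  star := M.adj
  star_involutive E := LinearMap.ext fun x => M.ext fun y => by
    change H (M.adj (M.adj E) x) y = _
    rw [adj_apply, M.sk, adj_apply, ← M.sk]
  star_mul E G := LinearMap.ext fun x => M.ext fun y => by
    change H (M.adj _ x) y = H (M.adj G (M.adj E x)) y
    simp [adj_apply]
  star_add E G := LinearMap.ext fun x => M.ext fun y => by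
    change H (M.adj _ x) y = H (M.adj E x + M.adj G x) y
    simp [adj_apply]

end Hm

variable (s) in
/-- Pure tensors. -/
structure PV [DecidableEq T] (pv : (T → U) → V) : Prop where
  act : ∀ i a xs, s i a (pv xs) = pv (Function.update xs i (a (xs i)))
  span : Submodule.span F (Set.range pv) = ⊤

theorem PV.ind [DecidableEq T] {pv : (T → U) → V} (h : PV s pv) {Z : Submodule F V}
    (hZ : ∀ xs, pv xs ∈ Z) (v : V) : v ∈ Z :=
  (Submodule.span_le.2 (by rintro _ ⟨xs, rfl⟩; exact hZ xs) : _ ≤ Z) (h.span ▸ Submodule.mem_top)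

variable [StarRing (End F V)]

variable (σ B s) in
/-- Compatibility of the adjoint with the factors. -/
structure Ad : Prop extends Fm σ B where
  smul : ∀ (c : F) (E : End F V), star (c • E) = σ c • star E
  str : ∀ i x y, star (r (s i) x (B y)) = -r (s i) y (B x)

theorem Hm.ad [Fintype T] [DecidableEq T] (M : Hm σ H ε)
    (hs : ∀ (E : End F V) x y, H (star E x) y = H x (E y))
    (hB : Fm σ B) {pv : (T → U) → V} (h : PV s pv) {c : F}
    (hc : ∀ xs ys, H (pv xs) (pv ys) = c * ∏ i, B (xs i) (ys i)) : Ad σ B s := by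
  refine ⟨hB, fun c E => LinearMap.ext fun x => M.ext fun y => by simp [hs, M.σσ],
    fun i x y => LinearMap.ext fun v => M.ext fun w => ?_⟩
  have key : ∀ xs ys, H (pv xs) (r (s i) x (B y) (pv ys)) + H (r (s i) y (B x) (pv xs)) (pv ys) = 0 :=
    fun xs ys => by
    rw [r_def, r_def, h.act, h.act, hc, hc, ← Finset.mul_prod_erase _ _ (Finset.mem_univ i),
      ← Finset.mul_prod_erase _ _ (Finset.mem_univ i), Finset.prod_congr rfl
      (g := fun j => B (xs j) (ys j)) fun j hj => by simp [Finset.ne_of_mem_erase hj],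
      Finset.prod_congr (s₁ := Finset.univ.erase i) (f := fun j => B (Function.update xs i _ j) (ys j)) rfl
      (g := fun j => B (xs j) (ys j)) fun j hj => by simp [Finset.ne_of_mem_erase hj]]
    simp [hB.sk x (xs i)]; ring
  have k2 : ∀ ys, H v (r (s i) x (B y) (pv ys)) + H (r (s i) y (B x) v) (pv ys) = 0 := fun ys =>
    h.ind (Z := { carrier := {v | H v (r (s i) x (B y) (pv ys)) + H (r (s i) y (B x) v) (pv ys) = 0}
                  add_mem' h1 h2 := by
                    simp only [Set.mem_ofPred_eq, map_add, LinearMap.add_apply] at *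
                    linear_combination h1 + h2
                  zero_mem' := by simp
                  smul_mem' c _ h1 := by
                    simp only [Set.mem_ofPred_eq, map_smul, LinearMap.map_smulₛₗ, LinearMap.smul_apply,
                      smul_eq_mul] at *
                    linear_combination σ c * h1 }) (key · ys) v
  have := h.ind (Z := LinearMap.ker (H v ∘ₗ r (s i) x (B y) + H (r (s i) y (B x) v))) k2 w
  simpa [hs, ← eq_neg_iff_add_eq_zero] using this

variable (F V) in
/-- The isometry group. -/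
def UG : Subgroup (V ≃ₗ[F] V) where
  carrier := {g | star (g : End F V) = (g⁻¹ : V ≃ₗ[F] V)}
  mul_mem' ha hb := by
    simp only [Set.mem_ofPred_eq, LinearEquiv.coe_toLinearMap_mul, star_mul, mul_inv_rev] at *
    rw [ha, hb]
  one_mem' := star_one (End F V)
  inv_mem' h := by simpa using (congrArg star h).symm

theorem mem_UG {g : V ≃ₗ[F] V} : g ∈ UG F V ↔ star (g : End F V) * g = 1 :=
  ⟨fun h => (show star (g : End F V) = _ from h) ▸ coe_inv_mul g, fun h => show star (g : End F V) = _ by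
    simpa [mul_assoc, coe_mul_inv] using congrArg (· * ((g⁻¹ : V ≃ₗ[F] V) : End F V)) h⟩

theorem uni_mem_UG {N : End F V} (h : N * N = 0) (h1 : star N = -N) : uni N h ∈ UG F V :=
  mem_UG.2 (by simp [uni_coe, h1, add_mul, mul_add, h])

theorem Hm.mem_UG (M : Hm σ H ε) (hs : ∀ (E : End F V) x y, H (star E x) y = H x (E y))
    {g : V ≃ₗ[F] V} :
    g ∈ UG F V ↔ ∀ x y, H (g x) (g y) = H x y := by
  refine ⟨fun h x y => ?_, fun h => LinearMap.ext fun x => M.ext fun y => ?_⟩
  · have := hs g (g x) y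
    rwa [show star (g : End F V) = _ from h, LinearEquiv.coe_coe, inv_apply_apply, eq_comm] at this
  · simpa [hs] using h (g⁻¹ x) y

theorem exists_UG [FiniteDimensional F V] {A : End F V} (h : star A * A = 1) :
    ∃ g ∈ UG F V, (g : End F V) = A :=
  ⟨LinearEquiv.ofLinearMap A (star A) (mul_eq_one_comm.1 h) h, mem_UG.2 h, rfl⟩

omit [StarRing (End F V)] in
theorem det_s [FiniteDimensional F U] [FiniteDimensional F V] (s : End F U →ₐ[F] End F V)
    {a : End F U} (ha : LinearMap.det a = 1) : LinearMap.det (s a) = 1 := by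
  let X : Subgroup (U ≃ₗ[F] U) :=
    { carrier := {g | LinearMap.det (s g) = 1}
      mul_mem' h1 h2 := by simp_all
      one_mem' := by
        change LinearMap.det (s 1) = 1
        simp
      inv_mem' {g} h := by
        have := congrArg (fun a => LinearMap.det (s a)) (coe_inv_mul g)
        simp_all }
  exact SLV_le_of_span (X := X) (eq_top_iff.2 fun v _ => Submodule.subset_span fun φ h =>
    ⟨uni _ (r_sq (s := AlgHom.id F _) h), by
      change LinearMap.det (s (1 + _)) = 1
      rw [map_add, map_one]; exact det_one_add_of_sq (r_sq h), fun _ => rfl⟩)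
    ((mem_SLV (g := LinearMap.equivOfDetNeZero a (by simp [ha]))).2 ha)

omit [StarRing (End F V)] in
theorem commutator_le_SLV (X : Subgroup (V ≃ₗ[F] V)) : ⁅X, X⁆ ≤ X ⊓ SLV F V :=
  le_inf (Subgroup.commutator_le.2 fun _ ha _ hb => mul_mem (mul_mem (mul_mem ha hb) (inv_mem ha))
    (inv_mem hb)) (Subgroup.commutator_le.2 fun a _ b _ => mem_SLV.2 (by
      rw [← LinearEquiv.coe_det, map_commutatorElement, commutatorElement_eq_one_iff_mul_comm.2
        (mul_comm _ _)]; rfl))

variable [FiniteDimensional F U]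

namespace Ad

variable (A : Ad σ B s)
include A

theorem swap (h : TP s) {g : V ≃ₗ[F] V} {a b : T} (hab : a ≠ b) (hg : Sw s g a b) : g ∈ UG F V := by
  have := h.nt
  have key : ∀ {l m}, (∀ u φ, g * r (s l) u φ = r (s m) u φ * g) → star (g : End F V) * g ∈ Cm (s l) :=
    fun {l m} e => mem_Cm_of_r fun u φ => by
      obtain ⟨w, rfl⟩ := A.sj φ
      have := congrArg star (e w (B u))
      rw [star_mul, star_mul, A.str, A.str, neg_mul, mul_neg, neg_inj] at this
      rw [← mul_assoc, this, mul_assoc, mul_assoc, e]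
  obtain ⟨c, hc⟩ := h.scalar (E := star (g : End F V) * g) fun l => by
    by_cases ha : l = a
    · exact ha ▸ key hg.ab
    by_cases hb : l = b
    · exact hb ▸ key hg.ba
    · exact key (Cm_r (hg.cm l ha hb))
  obtain ⟨x, h0, hx⟩ := A.iso
  obtain ⟨y, -, hy⟩ := A.partner h0 hx
  have h1 := congrArg star (hg.fix x (B x))
  have h2 := hg.fix y (B x)
  simp only [star_mul, A.str, mul_neg, neg_mul, neg_neg] at h1
  have h3 := congrArg (r (s b) x (B x) * r (s a) x (B x) * · * (r (s a) y (B x) * r (s b) y (B x))) hc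
  simp only [← mul_assoc _ _ (g : End F V), h1] at h3
  rw [mem_UG, hc, smul_left_injective F (m := r (s a) x (B x) * r (s b) x (B x)) (fun e => r_ne_zero h0
    (A.ne h0) (r_mul_eq_zero h0 (A.ne h0) (h.r_mem hab _ _) e)) (a₁ := c) (a₂ := 1) (by
      simpa [mul_assoc, h2, hy, Cm_r' (h.r_mem hab _ _)] using h3.symm), one_smul]

theorem cyc (h : TP s) [Finite T] {X : Subgroup (V ≃ₗ[F] V)} (hX : ∀ g a b, a ≠ b → Sw s g a b → g ∈ X)
    (hY : ∀ g ∈ h.Wr, g ∈ ⁅X, X⁆ → g ∈ Y) (i j k : T) (hij : i ≠ j) (hik : i ≠ k) (hjk : j ≠ k) :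
    ∃ g ∈ Y, Nma g (s i) (s k) 1 ∧ Nma g (s j) (s i) 1 :=
  let ⟨g, h1, h2, h3⟩ := h.exists_cycle hij hik hjk hX; ⟨g, hY g h2 h1, h3⟩

variable [FiniteDimensional F V] [Finite T] (h : TP s)
  (hY : ∀ g ∈ h.Wr, g ∈ UG F V ⊓ SLV F V → g ∈ Y)
include hY

theorem mem_of_s {i : T} {a : End F U} {E : End F V} (e : s i a = E) (h1 : star E * E = 1)
    (h2 : LinearMap.det E = 1) : ∃ g ∈ Y, (g : End F V) = E :=
  let ⟨g, hg, e'⟩ := exists_UG h1
  ⟨g, hY g (h.mem_Wr_of_eq (e'.trans e.symm)) ⟨hg, mem_SLV.2 (e' ▸ h2)⟩, e'⟩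

theorem st (hU : Y ≤ UG F V) : St σ B s Y := by
  refine ⟨A.toFm, A.smul, A.str, hU, fun i x c hx hc => ?_, fun i x c hx hc => ?_⟩
  · exact A.mem_of_s h hY (i := i) (a := 1 + c • (B x).smulRight x) (by simp [r_def])
      (by simp [A.smul, A.str, hc, mul_add, add_mul, hx]) (det_one_add_of_sq (by simp [hx]))
  · obtain ⟨d, hd⟩ := A.par c
    refine ⟨d, A.mem_of_s h hY (i := i) (a := 1 + ((B c).smulRight x + (B x).smulRight c +
      d • (B x).smulRight x)) (by simp [r_def]) ?_ ?_⟩
    · simp only [A.smul, A.str, mul_add, add_mul, star_add, star_one, one_mul, mul_one, neg_mul,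
        r_mul, smul_mul_assoc, mul_smul_comm, hx, hc, A.orth hc, ← hd]
      module
    · rw [show 1 + _ = (1 + r (s i) x (B c)) * (1 + r (s i) c (B x)) *
        (1 + (d - B c c) • r (s i) x (B x)) by
          simp only [mul_add, add_mul, one_mul, mul_one, r_mul, mul_smul_comm, smul_mul_assoc, hx,
            A.orth hc]
          module, map_mul, map_mul, det_one_add_of_sq (r_sq (A.orth hc)),
        det_one_add_of_sq (r_sq hc), det_one_add_of_sq (by simp [hx]), mul_one, mul_one]

theorem tor (h3 : finrank F U = 3) {l μ ν : F} (h1 : σ l * ν = 1) (h2 : σ μ * μ = 1)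
    (h4 : l * μ * ν = 1) (i : T) (x y : U) (hx : B x x = 0) (hy : B y y = 0) (hxy : B x y = 1) :
    ∃ g ∈ Y, (g : End F V) = μ • 1 - (l - μ) • r (s i) x (B y) + (ν - μ) • r (s i) y (B x) := by
  have hyx : B y x = -1 := by simp [A.sk x y, hxy]
  have hμ : μ ≠ 0 := by rintro rfl; simp at h2
  have h5 : σ ν * l = 1 := by simpa [A.σσ, mul_comm] using congrArg σ h1
  have e : s i (μ • 1 - (l - μ) • (B y).smulRight x + (ν - μ) • (B x).smulRight y) =
      μ • 1 - (l - μ) • r (s i) x (B y) + (ν - μ) • r (s i) y (B x) := by simp [r_def]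
  refine A.mem_of_s h hY e ?_ (e ▸ det_s _ ?_)
  · simp only [A.smul, A.str, mul_add, add_mul, mul_sub, sub_mul, star_add, star_sub, star_one,
      one_mul, mul_one, neg_mul, r_mul, smul_mul_assoc, mul_smul_comm, hx, hy, hxy, hyx, map_sub]
    match_scalars
    · linear_combination h2
    · linear_combination h1 - h2
    · linear_combination h2 - h5
    all_goals ring
  · rw [show μ • 1 - _ + _ = μ • (LinearMap.transvection (-((l - μ) / μ) • B y) x *
      LinearMap.transvection (((ν - μ) / μ) • B x) y) by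
        ext v; simp [LinearMap.transvection.apply, hy]; match_scalars <;> field_simp,
      LinearMap.det_smul, map_mul, LinearMap.transvection.det, LinearMap.transvection.det, h3]
    simp [hxy, hyx]; field_simp; linear_combination h4

end Ad

theorem St.le_of_glob [Finite F] [Finite T] [FiniteDimensional F V] (S : St σ B s Y) (h : TP s)
    (G : Glob s Y (PF σ B)) (h3 : 3 ≤ finrank F U) (hq : (∃ c, σ c = c ∧ c ≠ 0 ∧ c ≠ 1) ∨
      ((∀ x z, ∃ c, c ≠ 0 ∧ B c c = 0 ∧ B x c = 0 ∧ B z c = 0) ∧ 4 ≤ finrank F U ∧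
        (5 ≤ finrank F U ∨ ∃ ω, σ ω ≠ ω))) : Y ≤ h.Wr := by
  by_cases h2 : (2 : F) = 0
  swap
  · exact G.le (G.rec_odd h2) fun _ _ _ C => C.le_odd h2 h3 S.span
  by_cases hc : ∃ c, σ c = c ∧ c ≠ 0 ∧ c ≠ 1
  · obtain ⟨c, h4, h5, h6⟩ := hc
    obtain ⟨x, h0, hx⟩ := S.iso
    refine G.le (G.rec_two h2 h3 fun _ => ⟨x, _, _, PF.of h0 hx, ⟨h0, hx, c, h5, h4, rfl⟩, fun e => ?_⟩)
      fun _ _ _ C => C.le_two_big h2 h3 h4 h5 h6
    obtain ⟨y, -, hy⟩ := S.partner h0 hx
    exact h6 (by have := LinearMap.congr_fun e y; simp [hy] at this; linear_combination this - h2)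
  · obtain ⟨o2, h4, h5⟩ := hq.resolve_left hc
    exact G.le (G.rec_two h2 h3 fun _ => by omega) fun _ hY _ C => C.le_two_small S hY h2 h3
      (fun c h6 => by by_contra h7; push Not at h7; exact hc ⟨c, h6, h7⟩) o2 h5

section Bridge

open Cfsg Cfsg.Geo Asch Matrix

variable {ι : Type} [Fintype ι] [DecidableEq ι] {k t : ℕ} (e : ι ≃ (Fin t → Fin k)) (P : GL ι F)

/-- Pure tensors in coordinates. -/
noncomputable def pvc (xs : Fin t → Fin k → F) : ι → F := (coordV e P).symm fun p => ∏ i, xs i (p i)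

omit [StarRing (End F V)] in
theorem pv_sl : PV (sl e P) (pvc e P) where
  act i a xs := by
    obtain ⟨a, rfl⟩ := Matrix.toLinAlgEquiv'.surjective a
    rw [sl_apply, Matrix.toLinAlgEquiv'_apply, Matrix.toLinAlgEquiv'_apply, pvc, coord_mulVec_symm, slot,
      NonMax.pure_mulVec_prod]
    congr 1
    funext p
    refine Finset.prod_congr rfl fun j _ => ?_
    by_cases hj : j = i
    · subst hj; simp
    · simp [hj]
  span := by
    rw [eq_top_iff]
    intro v _
    obtain ⟨v, rfl⟩ := (coordV e P).symm.surjective v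
    rw [pi_eq_sum_univ' v, map_sum]
    refine Submodule.sum_mem _ fun p _ => ?_
    rw [map_smul]
    refine Submodule.smul_mem _ _ (Submodule.subset_span ⟨fun i => Pi.single (p i) 1, ?_⟩)
    refine congrArg (coordV e P).symm (funext fun r => ?_)
    simp only [Pi.single_apply, Finset.prod_boole, Finset.mem_univ, true_imp_iff, funext_iff]

variable {e P}

omit [StarRing (End F V)] in
theorem form_pvc {f : (ι → F) → (ι → F) → F} {f₁ : (Fin k → F) → (Fin k → F) → F} (hf : IsSesq0 σ f₁)
    (hT : IsTensorPowerFormStructure σ f f₁ e P) :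
    ∃ c : F, c ≠ 0 ∧ ∀ xs ys, f (pvc e P xs) (pvc e P ys) = c * ∏ i, f₁ (xs i) (ys i) := by
  obtain ⟨c, hc, hT⟩ := hT
  refine ⟨c, hc, fun xs ys => (hT _ _).trans ?_⟩
  congr 1
  simp only [hf.eq_gform (xs _), gform_eq_sum, map_prod, ← Finset.prod_mul_distrib]
  rw [Finset.prod_univ_sum, Fintype.piFinset_univ]
  refine Finset.sum_congr rfl fun p _ => ?_
  rw [Finset.prod_univ_sum, Fintype.piFinset_univ]

end Bridge

end CfsgLib.C7
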