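import Mathlib
import Cfsg.Agent.Lib.C7.Adj

/-!
Tensor powers of a symplectic space: rigidity of the unipotent radicals.
-/

set_option autoImplicit false

namespace CfsgLib.C7

open Module CfsgLib.ClMax

variable {F U V : Type*} [Field F] [AddCommGroup U] [Module F U] [AddCommGroup V] [Module F V]
  {σ : F →+* F} {T : Type*} {s : T → End F U →ₐ[F] End F V} {Y : Subgroup (V ≃ₗ[F] V)}

theorem comm_of_conj {N C : End F V} {c : F} (h0 : N * N = 0) (hC : C ≠ 0)
    (h : (1 + N) * C * (1 - N) = c • C) : N * C = C * N := by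
  have h1 : (c - 1) • (N * C * N) = 0 := by
    have := congrArg (N * · * N) h
    simp only [mul_add, add_mul, mul_sub, sub_mul, mul_assoc, h0, ← mul_assoc N N, mul_smul_comm,
      smul_mul_assoc, zero_mul, mul_zero, one_mul, mul_one] at this
    simp [sub_smul, mul_assoc, ← this]
  have h2 : c = 1 := by
    by_contra h2
    have h3 := sub_ne_zero.2 h2
    rw [smul_eq_zero_iff_right h3] at h1
    have h4 : N * C = 0 := (smul_eq_zero_iff_right h3).1 (by
      have := congrArg (N * ·) h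
      simp only [← mul_assoc, mul_add, mul_sub, add_mul, h0, mul_one, zero_mul, h1, mul_smul_comm] at this
      simp [sub_smul, ← this])
    have h5 : C * N = 0 := (smul_eq_zero_iff_right h3).1 (by
      have := congrArg (· * N) h
      simp only [add_mul, one_mul, h4, add_zero, mul_sub, sub_mul, mul_assoc, h0, smul_mul_assoc] at this
      simp [sub_smul, ← this])
    exact hC ((smul_eq_zero_iff_right h3).1 (by simp [sub_smul, ← h, add_mul, mul_sub, h4, h5]))
  rw [h2, one_smul] at h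
  linear_combination (norm := noncomm_ring) h * (1 + N) + (1 + N) * C * h0

variable [FiniteDimensional F U] [StarRing (End F V)]

theorem St.tt_of_qt {B : U →ₛₗ[σ] Dual F U} (S : St σ B s Y) {i : T} {x d : U} (h0 : x ≠ 0)
    (hx : B x x = 0) {N : End F V} (hN : UIn Y N) (h : Qt B (s i) x N) {θ : Dual F U} (hθ : θ x = 1)
    (hd : B x d = 0) (hdd : B d d = 0) : TT B s Y i x d (co (s i) N θ d) := by
  have hβ := co_mem (s := s i) N θ d
  have h1 := S.qt_star (d := d) h0 hx hN h hβ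
  have h2 := congrArg star (h1 x (h.beta hθ hd _))
  have h3 := congrArg star (S.qt_left h0 hx hN h d)
  simp only [star_mul, S.str, star_neg, star_star, mul_neg, neg_neg, star_zero, neg_eq_zero] at h2 h3
  rw [← neg_neg (co _ _ _ _)]
  refine S.tt_neg ⟨neg_mem hβ, _, mul_mem hβ (S.star_Cm hβ),
    ((S.un hN).1.mul (hN.conj_uni (S.one' i hdd) (r_sq hdd))).of_eq ?_⟩
  have h4 := (S.un hN).2
  simp only [mul_sub, add_mul, mul_add, one_mul, mul_one, mul_assoc, h.beta hθ hd, r_mul', S.orth hd,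
    h1 d (h.beta hθ hd _), mul_neg, ← mul_assoc (star N), h3, neg_eq_iff_eq_neg.1 h2, star_neg,
    Cm_r hβ, zero_smul, zero_mul, neg_mul, Cm_r (S.star_Cm hβ), Cm_r' hβ, hd, mul_zero]
  linear_combination (norm := noncomm_ring) h4

variable {B : U →ₗ[F] Dual F U}

theorem Ad.cliff [FiniteDimensional F V] (A : Ad (RingHom.id F) B s) (alt : ∀ x, B x x = 0) (h : TP s)
    (h3 : 3 ≤ finrank F U) (hk : (2 : F) ≠ 0 ∨ 5 ≤ finrank F U) {S : Submodule F (End F V)}
    (hS : Inv s (PF (RingHom.id F) B) S) (h1 : 1 ∈ S)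
    (pair : ∀ G ∈ S, ∀ H ∈ S, ∃ c : F, G * star H + H * star G = c • 1) {E : End F V} (hE : E ∈ S) :
    ∃ c : F, E = c • 1 := by
  have := h.nt
  refine h.scalar fun l => by_contra fun hl => ?_
  obtain ⟨a, b, C, hC, D, hD, ha, -, -, hab, hn, hC0, h2⟩ := A.exists_two (fun x z =>
    let ⟨c, h4, h5, h6⟩ := exists_ker_two h3 (B x) (B z); ⟨c, h4, alt c, h5, h6⟩)
    (A := S.toAddSubgroup) hS hE hl
  have hb : b ≠ 0 := by rintro rfl; simp at hn
  obtain ⟨a', h4, h5⟩ := A.exists_dual (not_mem_span_symm' ha hn)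
  obtain ⟨b', h6, h7, h8⟩ : ∃ b', B a b' = 0 ∧ B b b' = 1 ∧ B a' b' = 0 :=
    let ⟨w, h6, h7⟩ := A.exists_dual hn
    ⟨w + B a' w • a, by simp [h6, alt], by simp [h7, A.orth hab], by simp [A.sk a a', h5]⟩
  have sk : ∀ x y, B y x = -B x y := A.sk
  have st : ∀ {l E}, E ∈ Cm (s l) → star E ∈ Cm (s l) := fun h => mem_Cm_of_r fun u φ => by
    obtain ⟨y, rfl⟩ := A.sj φ
    simpa [A.str] using congrArg star (Cm_r h y (B u))
  have sc : ∀ {c : F} {E z}, z ≠ 0 → E = c • 1 → E * r (s l) z (B z) = 0 → c = 0 := fun hz e h => by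
    simpa [e, r_ne_zero hz (A.ne hz)] using h
  have cj : ∀ {a b y C D}, B y a = -1 → B y b = 0 → C ∈ Cm (s l) → D ∈ Cm (s l) →
      r (s l) b (B a) * C + r (s l) a (B b) * D ∈ S → r (s l) b (B y) * C + r (s l) y (B b) * D ∈ S :=
    fun {_ _ y _ _} h7 h6 hC hD h2 => by
      have h8 := hS.pf l (alt y) rfl (t := 1) h2
      rw [mul_add, add_mul, A.conj_r (alt _) rfl _ _ hC, A.conj_r (alt _) rfl _ _ hD] at h8
      convert S.sub_mem h2 h8 using 1
      simp [h7, h6, add_mul]; abel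
  have eq : ∀ {C D}, C ∈ Cm (s l) → D ∈ Cm (s l) → r (s l) b (B a) * C + r (s l) a (B b) * D ∈ S →
      D = star C := fun {C D} hC hD h2 => by
    obtain ⟨c, hc⟩ := pair _ h2 1 h1
    rw [sc ha hc (by simp [add_mul, mul_assoc, A.str, Cm_r hC, Cm_r hD, alt, A.orth hab]),
      zero_smul] at hc
    refine r_mul_cancel (s := s l) ha (A.ne ha) hD (st hC) (sub_eq_zero.1 ?_)
    simpa [add_mul, mul_assoc, A.str, Cm_r hC, Cm_r hD, Cm_r (st hC), h6, h7, sub_eq_add_neg] using
      congrArg (· * r (s l) b' (B a)) hc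
  have inv := hS.sub (fun _ _ => PF.zero) h l ((B a).smulRight b) ((B b).smulRight a)
  have key : ∀ G ∈ {C | C ∈ Cm (s l) ∧ ∃ D ∈ Cm (s l), s l ((B a).smulRight b) * C +
      s l ((B b).smulRight a) * D ∈ S}, ∃ c : F, star C * G = c • 1 ∧ (5 ≤ finrank F U → c = 0) := by
    rintro G ⟨hG, G', hG', h9⟩
    obtain ⟨c, hc⟩ := pair _ h2 _ (cj (y := b') (by simp [sk b b', h7]) (A.orth h8) hG' hG
      (add_comm (r (s l) b (B a') * G) _ ▸ cj (by simp [sk a a', h5]) (A.orth h4) hG hG' h9))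
    simp only [eq hC hD h2, eq hG hG' h9, star_add, star_mul, star_star, A.str, mul_add, add_mul,
      mul_assoc, mul_neg, Cm_r hC, Cm_r hG, Cm_r (st hC), Cm_r (st hG), Cm_r' hC, Cm_r' hG,
      Cm_r' (st hC), Cm_r' (st hG), r_mul', h4, h5, h6, h7, sk a a', sk b b', sk b a', sk a b'] at hc
    refine ⟨c, r_mul_cancel (s := s l) ha (A.ne ha) (mul_mem (st hC) hG)
      (Subalgebra.smul_mem _ (one_mem _) _) ?_, fun h10 => ?_⟩
    · simpa [add_mul, mul_assoc, Cm_r hC, Cm_r hG, Cm_r (st hC), Cm_r (st hG), Cm_r' hC, Cm_r' hG,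
        Cm_r' (st hC), Cm_r' (st hG), alt, A.orth hab, sk a a', sk a b', h5, h6] using
        congrArg (· * r (s l) a (B a)) hc
    · obtain ⟨z, hz, h11⟩ := exists_ne_zero_map_eq_zero (LinearMap.pi ![B a, B b, B a', B b'])
        (by simp; omega)
      have h12 : B a z = 0 := congrFun h11 0
      have h13 : B b z = 0 := congrFun h11 1
      have h14 : B a' z = 0 := congrFun h11 2
      have h15 : B b' z = 0 := congrFun h11 3
      exact sc hz hc (by simp [add_mul, mul_assoc, Cm_r hC, Cm_r hG, Cm_r (st hC), Cm_r (st hG),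
        Cm_r' hC, Cm_r' hG, Cm_r' (st hC), Cm_r' (st hG), h12, h13, h14, h15])
  obtain ⟨G, hG, h9⟩ : ∃ G ∈ {C | C ∈ Cm (s l) ∧ ∃ D ∈ Cm (s l), s l ((B a).smulRight b) * C +
      s l ((B b).smulRight a) * D ∈ S}, star C * G ≠ 0 := by
    by_contra h'
    push Not at h'
    exact hC0 (star_eq_zero.1 (h.sandwich (fun _ _ => PF.zero) A.sp2 inv ⟨hC, D, hD, h2⟩ hC0 h'))
  obtain ⟨c, hc, h10⟩ := key G hG
  have hc0 : c ≠ 0 := by rintro rfl; simp [hc] at h9
  have h11 : (c⁻¹ • G) * star C = 1 := mul_eq_one_comm.1 (by simp [hc, hc0])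
  obtain ⟨d, hd⟩ := h.scalar (E := G) fun j => A.sp2.mem_Cm fun u φ p => by
    obtain ⟨e, he, -⟩ := key _ (inv j u φ p G hG)
    refine comm_of_conj (r_sq p.zero) (by rintro rfl; simp at h9) (c := e * c⁻¹) ?_
    have h12 := congrArg (c⁻¹ • G * ·) he
    simp only [← mul_assoc (c⁻¹ • G), h11, one_mul] at h12
    simpa [smul_smul] using h12
  obtain ⟨hG, G', hG', h12⟩ := hG
  have h13 : ((2 : F) * d) • r (s l) b (B b) ∈ S := by
    have h13 := eq hG hG' h12
    convert S.sub_mem (cj (y := a' + b) (by simp [sk a a', h5, A.orth hab]) (by simp [alt, A.orth h4])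
      hG hG' h12) (cj (by simp [sk a a', h5]) (A.orth h4) hG hG' h12) using 1
    simp only [h13, hd, A.smul, star_one, map_add, LinearMap.add_apply, mul_smul_comm, mul_one,
      RingHom.id_apply]
    module
  rw [S.smul_mem_iff (mul_ne_zero (hk.resolve_right fun h => hc0 (h10 h))
    (by rintro rfl; simp [hd] at h9))] at h13
  have h14 := hS.pf l (alt b') rfl (t := 1) h13
  rw [← mul_one (r (s l) b (B b)), A.conj_r (alt _) rfl _ _ (one_mem _)] at h14
  obtain ⟨e, he⟩ := pair _ h13 _ h14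
  rw [sc ha he (by simp [A.str, A.smul, add_mul, mul_add, mul_assoc, alt, A.orth hab, A.orth h6])] at he
  exact r_ne_zero (s := s l) hb (A.ne hb) (by
    simpa [A.str, add_mul, mul_add, sub_mul, mul_sub, mul_assoc, alt, sk b b', h7] using
      congrArg (· * r (s l) b (B b)) he)

theorem St.qs_sp [FiniteDimensional F V] (S : St (RingHom.id F) B s Y) (alt : ∀ x, B x x = 0) (h : TP s)
    (h3 : 3 ≤ finrank F U) (hk : (2 : F) ≠ 0 ∨ 5 ≤ finrank F U) (hZ : Zs B s Y) : Qs B s Y := by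
  intro i x N h0 hx hN hQ θ d hθ hd
  by_cases h1 : d ∈ Submodule.span F {x}
  · obtain ⟨c, rfl⟩ := Submodule.mem_span_singleton.1 h1
    exact ⟨0, by simp [co_def, mul_assoc, S.qt_x h0 hx hQ]⟩
  have mv : ∀ {c c' G} t, B x c = 0 → B x c' = 0 → TT B s Y i x c G →
      TT B s Y i x c' ((t * B c' c) • G) := fun {c c' G} t hc hc' h2 => by
    refine S.tt_smul _ ?_
    obtain ⟨hG, e, he, h4⟩ := S.tt_neg h2
    obtain ⟨-, e', he', h5⟩ := h2
    have h6 := h5.conj_uni (S.one i c' t (alt _) rfl) (by simp [alt])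
    rw [mul_add, mul_add, add_mul, add_mul, S.conj_r (alt _) rfl _ _ (neg_mem_iff.1 hG),
      S.conj_r (alt _) rfl _ _ (S.star_Cm (neg_mem_iff.1 hG)), S.conj_r (alt _) rfl _ _ he'] at h6
    replace hG := neg_mem_iff.1 hG
    refine ⟨hG, e + e' - (t * B c' c * B c c') • (G * star G), sub_mem (add_mem he he')
      (Subalgebra.smul_mem _ (mul_mem hG (S.star_Cm hG)) _), (h4.mul h6).of_eq ?_⟩
    simp only [mul_add, add_mul, mul_sub, mul_assoc, Cm_r' hG, Cm_r' he, Cm_r' (S.star_Cm hG), r_mul',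
      alt, hc, hc', S.orth hc, S.orth hc', map_add, map_smul, LinearMap.add_apply, LinearMap.smul_apply,
      star_neg, mul_neg, neg_mul, mul_zero, zero_smul, add_zero, smul_mul_assoc, mul_smul_comm,
      RingHom.id_apply, smul_eq_mul]
    module
  obtain ⟨c, h4, h5⟩ := S.exists_dual h1
  have h6 : B c d = -1 := by simp [S.sk d c, h5]
  exact Ad.cliff ⟨S.toFm, S.smul, S.str⟩ alt h h3 hk (S :=
    { carrier := {G | TT B s Y i x d G}
      add_mem' := S.tt_add hx hd
      zero_mem' := ⟨zero_mem _, 0, zero_mem _, by simpa using uIn_zero⟩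
      smul_mem' a _ h := by simpa [h5, h6] using mv a h4 hd (mv (-1) hd h4 h) })
    (S.inv_of_conj h (fun _ h => h.1) fun g hg hg' E hE => S.uni g hg ▸
      S.tt_conj hg hg' hg' (Cm_r hg' x) (Cm_r hg' d) hE) (S.tt_one i hx hd) (fun G hG H hH =>
      hZ i x _ h0 hx (add_mem (mul_mem hG.1 (S.star_Cm hH.1)) (mul_mem hH.1 (S.star_Cm hG.1))) (by
        simpa [h5, h6, S.smul] using S.tt_pair h0 hx hd h4 hG (mv (-1) hd h4 hH)))
    (S.tt_of_qt h0 hx hN hQ hθ hd (alt d))

end CfsgLib.C7
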