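import Mathlib
import Cfsg.Agent.Lib.C7.Adj
import Cfsg.Agent.Lib.SUMax.TenM

/-!
The stabiliser of a tensor power decomposition is maximal in the special unitary group.
-/

set_option autoImplicit false

namespace CfsgLib.C7

open Module CfsgLib.ClMax CfsgLib.Forms CfsgLib.SUMax

variable {F U V : Type*} [Field F] [AddCommGroup U] [Module F U] [AddCommGroup V] [Module F V]
  {σ : F →+* F} {B : U →ₛₗ[σ] Dual F U} {T : Type*} {s : T → End F U →ₐ[F] End F V}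
  {Y : Subgroup (V ≃ₗ[F] V)} [FiniteDimensional F U]

theorem Fm.mem_of_L (M : Fm σ B) {s : End F U →ₐ[F] End F V} {Z : Submodule F V}
    (h : ∀ x, x ≠ 0 → B x x = 0 → L s x ≤ Z) (v : V) : v ∈ Z := by
  obtain ⟨x, h0, hx⟩ := M.iso
  rw [show v = _ from (LinearMap.congr_fun (sum_r s) v).symm, LinearMap.sum_apply]
  exact Z.sum_mem fun j _ => M.mem_of_nonorth h0 hx (A := Z.comap
    (LinearMap.applyₗ v ∘ₗ (r s).flip ((finBasis F U).coord j)))
    (fun y hy h1 => h y (by rintro rfl; simp at h1) hy (r_mem_L _ _ _)) _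

variable [StarRing (End F V)] [FiniteDimensional F V]

omit [FiniteDimensional F V] in
theorem Ad.iso_L (A : Ad σ B s) {H : V →ₛₗ[σ] Dual F V}
    (hs : ∀ (E : End F V) x y, H (star E x) y = H x (E y)) {i : T} {x : U} (h0 : x ≠ 0)
    (hx : B x x = 0) {v w : V} (hv : v ∈ L (s i) x) (hw : w ∈ L (s i) x) : H v w = 0 := by
  obtain ⟨y, -, h1⟩ := A.partner h0 hx
  rw [← r_eq_of_mem_L (φ := B (-y)) (by simp [A.sk x y, h1]) hw, ← hs, A.str]
  simp [hv _ hx]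

theorem Ad.tf_all (A : Ad σ B s) (S : St σ B s Y) {P : PQ σ V} (hH : P.IsHerm) (hP : P.Nondeg)
    (hs : ∀ (E : End F V) x y, P.B (star E x) y = P.B x (E y)) (hX : Y ≤ P.isom) [Nontrivial V]
    (h3 : 3 ≤ finrank F U) (hq : 4 ≤ finrank F U ∨ ∃ c, σ c = c ∧ c ≠ 0 ∧ c ≠ 1) {i : T}
    (big : ∀ G ∈ Cm (s i), G + star G ∈ RR σ B s Y i) : TFOn P Y ⊤ := by
  obtain ⟨θ, hθ⟩ := hH.exists_trace_one
  obtain ⟨ω, hω⟩ := hH.exists_ne_conj
  have h1 : ∀ x, x ≠ 0 → B x x = 0 → ∀ v ∈ L (s i) x, TF P Y v := fun x h0 hx v hv d hd => by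
    have e : star ((d • P.B v).smulRight v) = -(d • P.B v).smulRight v :=
      LinearMap.ext fun a => herm_ext hP fun b => by
        rw [← hH.conj, hs]
        simp [hH.conj, eq_neg_of_add_eq_zero_right hd]; ring
    obtain ⟨g, hg, h1⟩ := ((S.uin_of_big big h0 hx (M := θ • (d • P.B v).smulRight v)
      (fun _ => Submodule.smul_mem _ _ (Submodule.smul_mem _ _ hv)) fun _ => by
        rw [S.smul, e]
        exact Submodule.smul_mem _ _ (neg_mem (Submodule.smul_mem _ _ hv))).of_eq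
      (M := (d • P.B v).smulRight v) (by rw [S.smul, e, smul_neg, sub_neg_eq_add, ← add_smul, hθ,
        one_smul])).exists
    exact ⟨g, hg, h1⟩
  obtain ⟨x, h0, hx⟩ := S.iso
  obtain ⟨v, hv⟩ : ∃ v, P.B v (r (s i) x (B x) v) ≠ 0 := by
    by_contra h'
    push Not at h'
    refine r_ne_zero (s := s i) h0 (S.ne h0) (LinearMap.ext fun w => herm_ext hP fun u => ?_)
    have h2 := h' (u + w)
    have h4 := h' (ω • u + w)
    simp only [map_add, LinearMap.add_apply, h', map_smul, LinearMap.map_smulₛₗ, LinearMap.smul_apply,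
      smul_eq_mul] at h2 h4
    simpa [sub_eq_zero, hω] using show (σ ω - ω) * P.B u (r (s i) x (B x) w) = 0 by
      linear_combination h4 - ω * h2
  let j : U →ₗ[F] V := LinearMap.applyₗ v ∘ₗ (r (s i)).flip (B x)
  have hj : ∀ a b, P.B (j a) (j b) = -B a b * P.B v (r (s i) x (B x) v) := fun a b => by
    have := hs (star (r (s i) a (B x))) v (j b)
    rw [star_star, S.str] at this
    simpa [j] using this
  have inj : ∀ a, (∀ b, P.B (j a) (j b) = 0) → a = 0 := fun a ha =>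
    S.nd a (LinearMap.ext fun b => by simpa [hj, hv] using ha b)
  have hW : Disjoint (LinearMap.range j) (P.perp (LinearMap.range j)) := by
    rw [P.disjoint_perp_iff]
    rintro _ ⟨a, rfl⟩ ha
    rw [inj a fun b => ha _ ⟨b, rfl⟩, map_zero]
  have hd : finrank F (LinearMap.range j) = finrank F U := LinearMap.finrank_range_of_inj
    ((injective_iff_map_eq_zero j).2 fun a ha => inj a (by simp [ha]))
  have hT : TFOn P Y (LinearMap.range j) := by
    rintro _ ⟨a, rfl⟩ ha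
    by_cases h2 : a = 0
    · simpa [h2] using tf_zero
    exact h1 a h2 (by simpa [hj, hv] using ha) _ (r_mem_L _ _ _)
  obtain ⟨Z, h2, h4, h5, h6⟩ := exists_dichotomy hH hP hX (fun v hv => by
    by_contra hcon
    push Not at hcon
    exact hv (hP v (S.mem_of_L (s := s i) (Z := LinearMap.ker (P.B v)) fun x h0 hx w hw =>
      hcon _ (A.iso_L hs h0 hx hw hw) (h1 x h0 hx w hw)))) hW (by omega) hT
    (trOn_of_tfOn hH hW (by omega) (hd ▸ hq) hT)
  rwa [show Z = ⊤ from eq_top_iff.2 fun u _ => S.mem_of_L (s := s i) (fun a h0 ha w hw => ?_) u] at h5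
  refine (h6 _ (A.iso_L hs h0 ha hw hw) (h1 a h0 ha w hw)).elim id fun h7 => ?_
  have h8 : j a ∈ Z := h2 ⟨a, rfl⟩
  have h9 : w + j a ∈ L (s i) a := add_mem hw (r_mem_L (s := s i) a (B x) v)
  rcases h6 _ (A.iso_L hs h0 ha h9 h9) (h1 a h0 ha _ h9) with h10 | h10
  · simpa using Z.sub_mem h10 h8
  · have h11 : j a = 0 := Submodule.disjoint_def.1 h4 _ h8 (by
      simpa using (P.perp Z).sub_mem h10 h7)
    exact (h0 (inj a (by simp [h11]))).elim

theorem Ad.su_key [Finite F] [Finite T] (A : Ad σ B s) (h : TP s)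
    (hY : ∀ g ∈ h.Wr, g ∈ UG F V ⊓ SLV F V → g ∈ Y) (hU : Y ≤ UG F V) (h3 : 3 ≤ finrank F U) {ω : F}
    (hω : σ ω ≠ ω) (hq : 4 ≤ finrank F U ∨ ∃ c, σ c = c ∧ c ≠ 0 ∧ c ≠ 1)
    (o2 : 4 ≤ finrank F U → ∀ x z, ∃ c, c ≠ 0 ∧ B c c = 0 ∧ B x c = 0 ∧ B z c = 0)
    (ns : ∀ c, σ c = c → ∃ μ, σ μ * μ = c) (hne : ¬ Y ≤ h.Wr) :
    ∃ i, ∀ G ∈ Cm (s i), G + star G ∈ RR σ B s Y i := by
  have := h.nt
  have S := A.st h hY hU
  refine S.big h h3 ?_ ?_ (A.cyc h (fun _ _ _ => A.swap h) fun g h1 h2 =>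
    hY g h1 (commutator_le_SLV _ h2)) fun hZ => hne (S.le_of_glob h ?_ h3 ?_)
  · exact hq.elim (fun h4 => A.one_big h (o2 h4)) fun ⟨c, h4, h5, h6⟩ =>
      A.one_small (Or.inl ⟨ω, hω⟩) h4 h5 h6
  · exact hq.elim (fun h4 => A.nil_big (o2 h4)) fun ⟨c, h4, h5, h6⟩ =>
      A.nil_small (Or.inl ⟨ω, hω⟩) h4 h5 h6
  · by_cases h4 : 4 ≤ finrank F U
    · exact S.glob_big hZ (S.qs_unitary hZ hω) h (o2 h4)
    obtain ⟨c, h5, h6, h7⟩ := hq.resolve_left h4
    obtain ⟨l, h8, h9, h10⟩ : ∃ l, l ≠ 0 ∧ σ l * l ≠ 1 ∧ σ l * σ l ≠ l := by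
      by_cases h8 : c * c = 1
      · obtain ⟨l, hl⟩ := ns c h5
        refine ⟨l, by rintro rfl; simp [eq_comm, h6] at hl, hl ▸ h7, fun h9 => h7 ?_⟩
        have h10 := congrArg σ h9
        rw [map_mul, A.σσ] at h10
        refine mul_left_cancel₀ h6 ?_
        rw [h8, ← hl, ← h10]
        have h11 : l ≠ 0 := by rintro rfl; simp [eq_comm, h6] at hl
        refine (mul_left_cancel₀ h11 ?_).symm
        linear_combination h9 + (σ l + l * l) * h10
      · exact ⟨c, h6, by rwa [h5], fun h9 => h7 (mul_left_cancel₀ h6 (by simpa [h5] using h9))⟩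
    have h11 : σ l ≠ 0 := by simpa using h8
    refine S.glob_tor hZ (S.qs_unitary hZ hω) h (l := l) (μ := σ l / l) (ν := (σ l)⁻¹)
      (fun e => h9 (by rw [← mul_inv_cancel₀ h11, e])) (fun e => h10 (by field_simp at e; linear_combination -e))
      (A.tor h hY (by omega) (mul_inv_cancel₀ h11) (by simp [A.σσ]; field_simp) (by field_simp))
  · exact hq.symm.imp_right fun h4 => ⟨o2 h4, h4, Or.inr ⟨ω, hω⟩⟩

theorem Ad.exists_not_mem [Finite T] (A : Ad σ B s) (h : TP s) {i j : T} (hij : i ≠ j) {δ : F}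
    (h1 : δ ≠ 0) (hδ : σ δ = -δ) : ∃ g ∈ UG F V ⊓ SLV F V, g ∉ h.Wr := by
  obtain ⟨x, h0, hx⟩ := A.iso
  have h2 := Cm_r (h.r_mem hij x (B x))
  have h3 : r (s i) x (B x) * r (s j) (δ • x) (B x) * (r (s i) x (B x) * r (s j) (δ • x) (B x)) = 0 := by
    simp [mul_assoc, Cm_r' (h.r_mem hij _ _), hx]
  exact ⟨uni _ h3, ⟨uni_mem_UG _ (by simp [A.str, A.smul, hδ, h2]), uni_mem_SLV _ _⟩,
    h.not_mem_Wr hij h0 (A.ne h0) hx (smul_ne_zero h1 h0) (A.ne h0) (by simp [hx]) rfl⟩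

section Bridge

open Cfsg Cfsg.Geo Asch Matrix CfsgLib.Unitary

omit [StarRing (End F V)] in
theorem su_tensorWreath [Fintype F] {n q k t : ℕ} (hF : Fintype.card F = q ^ 2) (hk : 3 ≤ k)
    (ht : 2 ≤ t) (hex : ¬ (q = 2 ∧ k = 3)) (e : Fin n ≃ (Fin t → Fin k)) (P : GL (Fin n) F)
    {f₁ : (Fin k → F) → (Fin k → F) → F} (hf : IsUnitaryFormPow q f₁)
    (hT : IsTensorPowerFormStructure (fun x : F => x ^ q) (hermForm n F q) f₁ e P) :
    IsMaximalIn (GU n F q ⊓ specialLinear (Fin n) F)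
      (tensorWreathSubgroup k t e P ⊓ (GU n F q ⊓ specialLinear (Fin n) F)) := by
  have hH := uPQ_isHerm hF n
  have hP := uPQ_nondeg hF n
  have hn : n = k ^ t := by simpa using Fintype.card_congr e
  have h1 : ∀ v w, f₁ v w = conj hF (f₁ w v) := hf.herm
  obtain ⟨c, -, hc⟩ := form_pvc (σ := conj hF) ⟨hf.add_left, hf.smul_left, fun v x y => by
    rw [h1, hf.add_left, map_add, ← h1, ← h1], fun t v x => by
      rw [h1, hf.smul_left, map_mul, ← h1]⟩ hT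
  obtain ⟨P₁, a1, a2, a3⟩ := exists_pq_of_unitaryFormPow hF hf one_ne_zero (map_one _)
  obtain ⟨δ, hδ0, hδ⟩ := hH.exists_trace_zero
  obtain ⟨θ, hθ⟩ := hH.exists_trace_one
  obtain ⟨ω, hω⟩ := hH.exists_ne_conj
  have hδ' := eq_neg_of_add_eq_zero_right hδ
  have nd : ∀ x, (δ • P₁.B) x = 0 → x = 0 := fun x hx => a2 x fun y => by
    simpa [hδ0] using LinearMap.congr_fun hx y
  have hB : Fm (conj hF) (δ • P₁.B) := ⟨P₁.σσ, fun x y => by simp [hδ', a1.conj], nd, sj_of_nd nd,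
    fun c => ⟨θ * (δ * P₁.B c c), by simp [hδ', a1.conj]; linear_combination δ * P₁.B c c * hθ⟩,
    let ⟨x, h0, hx⟩ := exists_iso a1 (by simp; omega); ⟨x, h0, by simp [hx]⟩⟩
  have nd' : ∀ x, (uPQ hF n).B x = 0 → x = 0 := fun x hx => hP x fun y => by simp [hx]
  have M : Hm (conj hF) (uPQ hF n).B 1 := ⟨P₁.σσ, fun x y => by simp [hH.conj], nd', sj_of_nd nd'⟩
  let _ := M.starRing
  have hs : ∀ (E : End F (Fin n → F)) x y, (uPQ hF n).B (star E x) y = (uPQ hF n).B x (E y) :=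
    M.adj_apply
  have A := M.ad hs hB (pv_sl e P) (c := c * (δ ^ t)⁻¹) fun xs ys => (hc ys xs).trans (by
    simp [Finset.prod_mul_distrib, a3, mul_assoc, hδ0])
  have hU : ∀ g, g ∈ UG F (Fin n → F) ↔ g ∈ (uPQ hF n).isom := fun g =>
    (M.mem_UG hs).trans (hH.isIso_iff g).symm
  have h := tp_sl e P (k := k) (by omega)
  have := h.nt
  have hq : 4 ≤ finrank F (Fin k → F) ∨ ∃ c, conj hF c = c ∧ c ≠ 0 ∧ c ≠ 1 := by
    by_cases h2 : q = 2
    · left; simp; omega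
    · exact Or.inr (exists_fixed_ne_zero_one hF h2)
  refine isMaximalIn_su hF (hn ▸ le_trans (by nlinarith) (Nat.pow_le_pow_right (by omega) ht)) _
    (· ∈ h.Wr) (fun g _ => mem_Wr_sl e P (by omega) (by omega) g) ?_ fun X hX hM g hg hgs x hx => ?_
  · obtain ⟨g, h2, h3⟩ := A.exists_not_mem h (i := ⟨0, by omega⟩) (j := ⟨1, by omega⟩) (by simp) hδ0 hδ'
    exact ⟨g, ⟨(hU g).1 h2.1, h2.2⟩, h3⟩
  · have hY : ∀ g ∈ h.Wr, g ∈ UG F (Fin n → F) ⊓ SLV F (Fin n → F) → g ∈ X := fun g h1 h2 =>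
      hM g ⟨(hU g).1 h2.1, h2.2⟩ h1
    have hX' : X ≤ UG F (Fin n → F) := fun g hg => (hU g).2 (hX hg).1
    obtain ⟨i, hi⟩ := A.su_key h hY hX' (by simpa using hk) hω hq (fun h4 x z =>
      let ⟨c, h5, h6, h7, h8⟩ := exists_iso_orth a1 a2 h4 x z
      ⟨c, h5, by simp [h6], by simp [h7], by simp [h8]⟩) hH.norm_surj fun h1 => hgs (h1 hg)
    exact A.tf_all (A.st h hY hX') hH hP hs (fun g hg => (hX hg).1) (by simpa using hk) hq hi x trivial hx

end Bridge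

end CfsgLib.C7
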