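import Mathlib
import Cfsg.Agent.Lib.C7.Cliff

/-!
Tensor powers of a symplectic plane: the non-rigid case.
-/

set_option autoImplicit false

namespace CfsgLib.C7

open Module CfsgLib.ClMax

variable {F U V : Type*} [Field F] [AddCommGroup U] [Module F U] [AddCommGroup V] [Module F V]
  {B : U →ₗ[F] Dual F U} {T : Type*} {s : T → End F U →ₐ[F] End F V} {Y : Subgroup (V ≃ₗ[F] V)}
  [FiniteDimensional F U]

theorem TP.exists_cycle' [Finite T] (h : TP s) {i j k : T} (hij : i ≠ j) (hik : i ≠ k) (hjk : j ≠ k)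
    {X : Subgroup (V ≃ₗ[F] V)} (hX : ∀ σ a b, a ≠ b → Sw s σ a b → σ ∈ X) :
    ∃ g ∈ ⁅X, X⁆, g ∈ h.Wr ∧ Nma g (s i) (s k) 1 ∧ Nma g (s j) (s i) 1 ∧
      ∀ l, l ≠ i → l ≠ j → l ≠ k → (g : End F V) ∈ Cm (s l) := by
  obtain ⟨σ, h1⟩ := h.exists_swap hij
  obtain ⟨τ, h2⟩ := h.exists_swap hik
  have mul : ∀ {g g' : V ≃ₗ[F] V} {a b c}, Nma g (s b) (s c) 1 → Nma g' (s a) (s b) 1 →
      Nma (g * g') (s a) (s c) 1 := fun e1 e2 u φ => by
    rw [LinearEquiv.coe_toLinearMap_mul, mul_assoc, e2, ← mul_assoc, e1, mul_assoc]; rfl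
  have w : ∀ {g a b}, Sw s g a b → g ∈ h.Wr := fun {g a b} e l => by
    by_cases ha : l = a
    · exact ⟨b, ha ▸ e.ab.nm⟩
    by_cases hb : l = b
    · exact ⟨a, hb ▸ e.ba.nm⟩
    · exact ⟨l, nm_of_Cm (e.cm l ha hb)⟩
  refine ⟨τ * (σ * (τ * σ)), ?_, mul_mem (w h2) (mul_mem (w h1) (mul_mem (w h2) (w h1))),
    mul h2.ab (mul h1.ba (mul (Cm_r (h2.cm j hij.symm hjk)) h1.ab)),
    mul h2.ba (mul (Cm_r (h1.cm k hik.symm hjk.symm)) (mul h2.ab h1.ba)), fun l a b c =>
      mul_mem (h2.cm l a c) (mul_mem (h1.cm l a b) (mul_mem (h2.cm l a c) (h1.cm l a b)))⟩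
  have := Subgroup.commutator_mem_commutator (hX _ _ _ hik h2) (hX _ _ _ hij h1)
  rwa [commutatorElement_def, inv_eq_of_mul_eq_one_right h1.sq, inv_eq_of_mul_eq_one_right h2.sq,
    mul_assoc, mul_assoc] at this

variable (B s) in
/-- The coefficients of the roots of a factor. -/
def Dv (A : Submodule F (End F V)) (l : T) : Submodule F (End F V) where
  carrier := {C | C ∈ Cm (s l) ∧ ∀ u, r (s l) u (B u) * C ∈ A}
  add_mem' ha hb := ⟨add_mem ha.1 hb.1, fun u => mul_add (r (s l) u (B u)) _ _ ▸ add_mem (ha.2 u) (hb.2 u)⟩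
  zero_mem' := ⟨zero_mem _, by simp⟩
  smul_mem' c _ h := ⟨Subalgebra.smul_mem _ h.1 c, fun u => by simpa using A.smul_mem c (h.2 u)⟩

omit [FiniteDimensional F U] in
theorem Inv.dv (h : TP s) {A : Submodule F (End F V)} (hA : Inv s (PF (RingHom.id F) B) A) (l : T) :
    Inv s (PF (RingHom.id F) B) (Dv B s A l) := fun i u φ p C hC => by
  have := fun w => hA.sub (fun _ _ => PF.zero) h l ((B w).smulRight w) 0 i u φ p C
    ⟨hC.1, 0, zero_mem _, by simpa [r_def] using hC.2 w⟩
  exact ⟨(this 0).1, fun w => let ⟨_, _, h1⟩ := (this w).2; by simpa [r_def] using h1⟩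

namespace Fm

variable (M : Fm (RingHom.id F) B) (alt : ∀ x, B x x = 0) (hk : finrank F U = 2) (h2 : (2 : F) ≠ 0)
include M alt

omit [FiniteDimensional F U] in
theorem mem_Dv {A : Submodule F (End F V)} (hA : Inv s (PF (RingHom.id F) B) A) {l : T} {C : End F V}
    (hC : C ∈ Cm (s l)) {a : U} (h0 : a ≠ 0) (h : r (s l) a (B a) * C ∈ A) : C ∈ Dv B s A l :=
  ⟨hC, fun u => by
    by_cases hu : u = 0
    · simp [hu]
    exact M.move (p := fun u => r (s l) u (B u) * C ∈ A)
      (fun u y t h hy ht => M.conj_r hy ht u u hC ▸ hA.pf l hy ht h) (fun u c hc h => by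
        simpa [smul_smul, A.smul_mem_iff, hc] using h) h h0 (alt a) hu (alt u)⟩

include hk

theorem eq_two {x y : U} (h : B x y = 1) (u : U) : u = B x u • y - B y u • x := by
  by_contra h1
  have h3 : B y x = -1 := by simp [M.sk x y, h]
  have : LinearIndependent F ![x, y, u - (B x u • y - B y u • x)] := by
    rw [Fintype.linearIndependent_iff]
    intro g hg
    simp only [Fin.sum_univ_three, Matrix.cons_val] at hg
    have h4 : g 1 = 0 := by simpa [alt, h] using congrArg (B x) hg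
    have h5 : g 0 = 0 := by simpa [alt, h3] using congrArg (B y) hg
    have h6 : g 2 = 0 := by simpa [h4, h5, sub_eq_zero, h1] using hg
    intro i; fin_cases i <;> assumption
  have := this.fintype_card_le_finrank
  simp at this; omega

theorem mem_span {x d : U} (h0 : x ≠ 0) (h : B x d = 0) : d ∈ Submodule.span F {x} := by
  obtain ⟨y, -, hy⟩ := M.partner h0 (alt x)
  exact Submodule.mem_span_singleton.2 ⟨-B y d, by simpa [h] using (M.eq_two alt hk hy d).symm⟩

theorem one_eq {x y : U} (h : B x y = 1) (s : End F U →ₐ[F] End F V) :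
    r s y (B x) - r s x (B y) = 1 := by
  rw [r_def, r_def, ← map_sub, ← map_one s]
  exact congrArg s (LinearMap.ext fun u => (M.eq_two alt hk h u).symm)

include h2

theorem exists_Dv {A : Submodule F (End F V)} (hA : Inv s (PF (RingHom.id F) B) A) {l : T}
    {E : End F V} (hE : E ∈ A) (hl : E ∉ Cm (s l)) : ∃ C ∈ Dv B s A l, C ≠ 0 := by
  obtain ⟨a, C, hC, h0, -, h1, h3⟩ := M.exists_one (Or.inr hk) (c := -1) rfl (by simp)
    (fun e => h2 (by linear_combination -e)) (A := A.toAddSubgroup) hA (fun c _ _ h => A.smul_mem c h)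
    hE hl
  exact ⟨C, M.mem_Dv alt hA hC h0 h3, h1⟩

theorem split {A : Submodule F (End F V)} (hA : Inv s (PF (RingHom.id F) B) A) {l : T} {ε : F}
    (hb : ∀ C ∈ Dv B s A l, ∀ D ∈ Dv B s A l, ∀ u w, r (s l) u (B u) * C * (r (s l) w (B w) * D) +
      ε • (r (s l) w (B w) * D * (r (s l) u (B u) * C)) ∈ A) {C D : End F V} (hC : C ∈ Dv B s A l)
    (hD : D ∈ Dv B s A l) : C * D + ε • (D * C) ∈ A ∧ C * D - ε • (D * C) ∈ Dv B s A l := by
  obtain ⟨a, h0, -⟩ := M.iso
  obtain ⟨b, -, h1⟩ := M.partner h0 (alt a)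
  have h3 : B b a = -1 := by simp [M.sk a b, h1]
  have h4 := hb C hC D hD a b
  have h5 := mul_mem hC.1 hD.1
  have h6 := mul_mem hD.1 hC.1
  rw [mul_assoc, mul_assoc, Cm_r' hC.1, Cm_r' hD.1, r_mul', r_mul', h1, h3] at h4
  have h7 : _ ∈ A := t_one (A := A.toAddSubgroup) (c := -1) h4 (fun _ h => A.smul_mem _ h)
    (hA l _ _ (PF.of (u := a + b) (fun e => by simpa [alt, h1] using congrArg (B a) e) (alt _)) _ h4)
    (hA.pf l (alt (a + b)) rfl h4)
  have h8 : C * D - ε • (D * C) ∈ Dv B s A l := M.mem_Dv alt hA (sub_mem h5 (Subalgebra.smul_mem _ h6 _))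
    (a := a + b) (fun e => by simpa [alt, h1] using congrArg (B a) e) (by
      refine (A.smul_mem_iff (neg_ne_zero.2 h2)).1 ?_
      convert h7 using 1
      generalize hc : a + b = c
      have e1 : B c a = -1 := by simp [← hc, alt, h3]
      have e2 : B c b = 1 := by simp [← hc, alt, h1]
      have e3 : B a c = 1 := by simp [← hc, alt, h1]
      have e4 : B b c = -1 := by simp [← hc, alt, h3]
      simp only [mul_add, add_mul, mul_sub, mul_assoc, mul_smul_comm, smul_mul_assoc, r_mul', r_mul,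
        Cm_r hC.1, Cm_r hD.1, Cm_r' hC.1, Cm_r' hD.1, e1, e2, e3, e4]
      module)
  refine ⟨neg_mem_iff.1 ?_, h8⟩
  convert sub_mem (A.smul_mem 2 h4) (sub_mem (sub_mem (h8.2 (a + b)) (h8.2 a)) (h8.2 b)) using 1
  rw [← one_mul (C * D + _), ← M.one_eq alt hk h1 (s l)]
  simp only [mul_add, add_mul, mul_sub, sub_mul, mul_smul_comm, map_add, LinearMap.add_apply]
  module

theorem jordan [Finite T] (h : TP s) (S : Finset T) : ∀ A : Submodule F (End F V),
    (∀ E ∈ A, ∀ G ∈ A, E * G + G * E ∈ A) → Inv s (PF (RingHom.id F) B) A →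
      (∀ E ∈ A, ∀ l ∉ S, E ∈ Cm (s l)) → ∀ E ∈ A, E ≠ 0 → 1 ∈ A := by
  classical
  have := Fintype.ofFinite T
  have := h.nt
  induction S using Finset.strongInduction with | H S ih => ?_
  intro A hm hA hS E hE h0
  by_cases h1 : ∀ l, E ∈ Cm (s l)
  · obtain ⟨c, rfl⟩ := h.scalar h1
    exact (A.smul_mem_iff (left_ne_zero_of_smul h0)).1 hE
  push Not at h1
  obtain ⟨l, hl⟩ := h1
  obtain ⟨C, hC, h3⟩ := M.exists_Dv alt hk h2 hA hE hl
  have sp := fun {C D} => M.split alt hk h2 hA (l := l) (ε := 1) (C := C) (D := D)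
    fun C hC D hD u w => by simpa using hm _ (hC.2 u) _ (hD.2 w)
  simp only [one_smul] at sp
  obtain ⟨C, hC, D, hD, h4⟩ : ∃ C ∈ Dv B s A l, ∃ D ∈ Dv B s A l, C * D + D * C ≠ 0 := by
    by_contra h'
    push Not at h'
    have h4 := h.one_mem_alg (fun _ _ => PF.zero) M.sp2 (M.one_small (Or.inr hk) (c := -1) rfl (by simp)
      fun e => h2 (by linear_combination -e)) Finset.univ _ (fun C hC D hD => by
        refine ((Dv B s A l).smul_mem_iff h2).1 ?_
        simpa [eq_neg_of_add_eq_zero_right (h' C hC D hD), two_smul] using (sp hC hD).2)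
      (hA.dv h l) (by simp) C hC h3
    exact h2 (by simpa [← two_smul F] using h' 1 h4 1 h4)
  exact (ih _ (Finset.erase_ssubset (by_contra fun h7 => hl (hS E hE l h7)))
    (A ⊓ Subalgebra.toSubmodule (Cm (s l))) (fun E hE G hG => ⟨hm E hE.1 G hG.1,
      add_mem ((Cm _).mul_mem hE.2 hG.2) ((Cm _).mul_mem hG.2 hE.2)⟩) (fun j u φ p G hG => ⟨hA j u φ p G hG.1, by
        by_cases hj : j = l
        · subst hj; rw [conj_Cm p.zero hG.2]; exact hG.2
        · have := h.r_mem (Ne.symm hj) u φ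
          exact (Cm _).mul_mem (mul_mem (add_mem (one_mem _) this) hG.2) (sub_mem (one_mem _) this)⟩)
    (fun G hG j hj => by
      by_cases hjl : j = l
      · exact hjl ▸ hG.2
      · exact hS G hG.1 j (by simpa [hjl] using hj)) _
    ⟨(sp hC hD).1, (Cm _).add_mem (mul_mem hC.1 hD.1) (mul_mem hD.1 hC.1)⟩ h4).1

end Fm

variable [StarRing (End F V)]

theorem St.big_two [Finite F] [Finite T] (S : St (RingHom.id F) B s Y) (h : TP s) (alt : ∀ x, B x x = 0)
    (hk : finrank F U = 2) (h2 : (2 : F) ≠ 0) (cyc : ∀ i j k, i ≠ j → i ≠ k → j ≠ k →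
      ∃ g ∈ Y, Nma g (s i) (s k) 1 ∧ Nma g (s j) (s i) 1 ∧
        ∀ l, l ≠ i → l ≠ j → l ≠ k → (g : End F V) ∈ Cm (s l)) (hZ : ¬ Zs B s Y) :
    ∃ i, ∀ G ∈ Cm (s i), G + star G ∈ RR (RingHom.id F) B s Y i := by
  classical
  have := Fintype.ofFinite T
  have := h.nt
  simp only [Zs, not_forall] at hZ
  obtain ⟨i, x, E, h0, hx, hE, h1, h3⟩ := hZ
  obtain ⟨l, hl⟩ : ∃ l, E ∉ Cm (s l) := by
    by_contra h'; push Not at h'; exact h3 (h.scalar h')
  have hil : i ≠ l := by rintro rfl; exact hl hE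
  let R : Submodule F (End F V) :=
    { (RR (RingHom.id F) B s Y i).toAddSubmonoid with smul_mem' c _ h := RR_smul h rfl }
  have inv : Inv s (PF (RingHom.id F) B) R :=
    S.inv_of_conj h (fun _ h => h.1) fun g hg hg' E => RR_conj hg hg'
  obtain ⟨y, hy, hxy⟩ := S.partner h0 hx
  have J : ∀ n ∈ R, n * n = 0 → ∀ E ∈ R, n * E + E * n ∈ R := fun n hn h4 E hE => by
    have key : ∀ n ∈ R, n * n = 0 → (1 + n) * E * (1 + n) ∈ R := fun n hn h4 => by
      obtain ⟨a, ha, -, h11, -⟩ := S.exists_weyl hx hy hxy (add_mem (S.one_RR i) hn)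
        (sub_mem (S.one_RR i) hn) (by simp [add_mul, mul_sub, h4]) (by simp [sub_mul, mul_add, h4])
      obtain ⟨b, hb, h13, -⟩ := S.exists_weyl hx hy hxy (neg_mem (S.one_RR i)) (neg_mem (S.one_RR i))
        (by simp) (by simp)
      have h5 := add_mem (one_mem _) hn.1
      have h6 := S.piece (mul_mem ha hb) h5 h5 (a := x) (b := x) (fun φ => by simp [mul_assoc, h11, h13])
        (fun φ => by simp [mul_assoc, h11, h13]) hE.1
      rw [S.RR_star (add_mem (S.one_RR i) hn)] at h6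
      exact S.mem_RR (mul_mem (mul_mem h5 hE.1) h5) h0 hx (h6 ▸ (RR_uin hE hx).conj (mul_mem ha hb))
    refine (R.smul_mem_iff h2).1 ?_
    convert sub_mem (key n hn h4) (key (-n) (neg_mem hn) (by simpa)) using 1
    rw [two_smul]; noncomm_ring
  obtain ⟨C, hC, h4⟩ := S.exists_Dv alt hk h2 inv (S.mem_RR hE h0 hx h1) hl
  obtain ⟨m, hm⟩ : ∃ m, C ∉ Cm (s m) := by
    by_contra h'
    push Not at h'
    obtain ⟨c, rfl⟩ := h.scalar h'
    refine r_ne_zero (s := s l) h0 (S.ne h0) ((smul_eq_zero_iff_right (mul_ne_zero h2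
      (left_ne_zero_of_smul h4))).1 ?_)
    have := S.RR_star (hC.2 x)
    simp only [mul_smul_comm, mul_one, S.smul, S.str, RingHom.id_apply] at this
    linear_combination (norm := module) -this
  have hlm : l ≠ m := by rintro rfl; exact hm hC.1
  have him : m ≠ i := by
    rintro rfl
    refine hm (mem_Cm.2 fun a => r_mul_cancel (s := s l) h0 (S.ne h0) (mul_mem (h.comm hil.symm a) hC.1)
      (mul_mem hC.1 (h.comm hil.symm a)) ?_)
    rw [← mul_assoc, ← Cm_r (h.comm hil.symm a), mul_assoc, mem_Cm.1 (hC.2 x).1, mul_assoc]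
  obtain ⟨D, hD, h5⟩ := S.exists_Dv alt hk h2 (inv.dv h l) hC hm
  have h6 := S.jordan alt hk h2 h Finset.univ _ (fun C hC D hD => by
    simpa using (S.split alt hk h2 (inv.dv h l) (ε := -1) (fun C hC D hD u w =>
      by simpa [sub_eq_add_neg] using (S.split alt hk h2 inv (ε := 1) (fun C hC D hD u w => by
        simpa using J _ (hC.2 u) (by simp [mul_assoc, Cm_r' hC.1, alt]) _ (hD.2 w))
        (hC.2 u) (hD.2 w)).2) hC hD).2) ((inv.dv h l).dv h m) (by simp) D hD h5
  let tri : T → T → Prop := fun l m => ∀ u w, r (s l) u (B u) * r (s m) w (B w) ∈ R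
  have sym : ∀ {l m}, l ≠ m → tri l m → tri m l := fun hlm h7 u w => Cm_r (h.r_mem hlm _ _) _ _ ▸ h7 w u
  have step : ∀ {l m n}, l ≠ i → m ≠ i → n ≠ i → l ≠ m → l ≠ n → tri l m → tri l n :=
    fun {l m n} h7 h8 h9 h10 h11 h12 u w => by
    by_cases h13 : m = n
    · exact h13 ▸ h12 u w
    obtain ⟨g, hg, e1, e2, e3⟩ := cyc l m n h10 h11 h13
    have := RR_conj hg (e3 i h7.symm h8.symm h9.symm) (sym h10 h12 u w)
    rwa [← mul_assoc, e2, mul_assoc _ (g : End F V), e1, ← mul_assoc, mul_assoc _ (g : End F V),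
      coe_mul_inv, mul_one] at this
  have h7 : tri l m := fun u w => by simpa using (h6.2 w).2 u
  have all : ∀ {a b}, a ≠ i → b ≠ i → a ≠ b → tri a b := fun {a b} ha hb hab => by
    by_cases h8 : a = l
    · exact h8 ▸ step hil.symm him hb hlm (h8 ▸ hab) h7
    · exact step ha hil.symm hb h8 hab (sym (Ne.symm h8) (step hil.symm him ha hlm (Ne.symm h8) h7))
  have key : ∀ K : Finset T, i ∉ K → ∀ G, (∀ l ∉ K, G ∈ Cm (s l)) → G + star G ∈ R ∧
      ∀ l ∉ K, l ≠ i → ∀ u, r (s l) u (B u) * (G - star G) ∈ R := fun K => by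
    induction K using Finset.induction_on with
    | empty =>
      intro _ G hG
      obtain ⟨c, rfl⟩ := h.scalar fun l => hG l (by simp)
      exact ⟨by simpa [S.smul] using add_mem (R.smul_mem c (S.one_RR i)) (R.smul_mem c (S.one_RR i)),
        by simp [S.smul]⟩
    | insert m K hm ih =>
      intro hi G hG
      have him : m ≠ i := fun e => hi (by simp [e])
      let A : Submodule F (End F V) :=
        { carrier := {G | G + star G ∈ R ∧ ∀ l ∉ insert m K, l ≠ i → ∀ u,
            r (s l) u (B u) * (G - star G) ∈ R}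
          add_mem' ha hb := ⟨by simpa [add_add_add_comm] using add_mem ha.1 hb.1, fun l h1 h2 u => by
            simpa [add_sub_add_comm, mul_add] using add_mem (ha.2 l h1 h2 u) (hb.2 l h1 h2 u)⟩
          zero_mem' := by simp
          smul_mem' c _ ha := ⟨by simpa [S.smul] using R.smul_mem c ha.1, fun l h1 h2 u => by
            simpa [S.smul, ← smul_sub] using R.smul_mem c (ha.2 l h1 h2 u)⟩ }
      have k1 : ∀ H ∈ Cm (s m), (∀ l ∉ insert m K, H ∈ Cm (s l)) → ∀ u φ, r (s m) u φ * H ∈ A :=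
        fun H h8 h9 u φ => by
        obtain ⟨h10, h11⟩ := ih (fun e => hi (by simp [e])) H fun l hl => by
          by_cases h10 : l = m
          · exact h10 ▸ h8
          · exact h9 l (by simp [h10, hl])
        have k2 : ∀ u, r (s m) u (B u) * H ∈ A := fun u => ⟨by
          simpa [S.str, Cm_r (S.star_Cm h8), mul_add, sub_eq_add_neg] using h11 m hm him u,
          fun l h12 h13 w => by
            have h14 : l ≠ m := fun e => h12 (by simp [e])
            have h15 := add_mem h8 (S.star_Cm h8)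
            have h16 := add_mem (h9 l h12) (S.star_Cm (h9 l h12))
            refine (R.smul_mem_iff h2).1 ?_
            convert J _ (all h13 him h14 w u) (by simp [mul_assoc, Cm_r' (h.r_mem h14 _ _), alt]) _ h10
              using 1
            rw [Cm_r' h16, Cm_r h15, star_mul, S.str, mul_neg, sub_neg_eq_add, Cm_r (S.star_Cm h8),
              ← mul_add, two_smul, mul_assoc]⟩
        obtain ⟨w, rfl⟩ := S.sj φ
        have k3 : (r (s m) u (B w) + r (s m) w (B u)) * H ∈ A := by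
          convert sub_mem (sub_mem (k2 (u + w)) (k2 u)) (k2 w) using 1
          simp only [map_add, LinearMap.add_apply, add_mul]; abel
        have k4 : r (s m) u (B w) - r (s m) w (B u) = B w u • 1 := by
          by_cases h12 : B w u = 0
          · by_cases h13 : w = 0
            · simp [h13]
            obtain ⟨c, rfl⟩ := Submodule.mem_span_singleton.1 (S.mem_span alt hk h13 h12)
            simp [alt]
          · rw [← S.one_eq alt hk (x := w) (y := (B w u)⁻¹ • u) (by simp [h12]) (s m)]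
            simp [smul_sub, smul_smul, h12]
        refine (A.smul_mem_iff h2).1 ?_
        convert add_mem k3 (A.smul_mem (B w u) (show H ∈ A from
          ⟨h10, fun l h12 => h11 l fun e => h12 (by simp [e])⟩)) using 1
        rw [← smul_one_mul (B w u), ← k4, two_smul]; noncomm_ring
      rw [eq_sum_co (s := s m) G]
      exact A.sum_mem fun _ _ => A.sum_mem fun _ _ => k1 _ (co_mem _ _ _) (fun l hl => mem_Cm.2 fun a =>
        co_comm (h.comm (fun e => hl (by simp [e])) a) (mem_Cm.1 (hG l hl) a) _ _) _ _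
  exact ⟨i, fun G hG => (key (Finset.univ.erase i) (by simp) G fun l hl => by
    rwa [show l = i by simpa using hl]).1⟩

end CfsgLib.C7
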