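import Mathlib
import Cfsg.Agent.Lib.C7.Main

/-!
Pairs of quadratic elements on the part of the space where their anticommutator is invertible.
-/

set_option autoImplicit false

namespace CfsgLib.C7

open Module CfsgLib.ClMax
open scoped MatrixGroups

theorem exists_pgrp {G : Type*} [Group G] [Finite G] {p : ℕ} [Fact p.Prime] {P : Subgroup G}
    {x w : G} (hx : x ∈ P) (hw : w ∈ P) {m n : ℕ} (h1 : x ^ p ^ m = 1) (h2 : w ^ p ^ n = 1) :
    ∃ k ∈ P, ∃ Q ≤ P, IsPGroup p Q ∧ x ∈ Q ∧ k * w * k⁻¹ ∈ Q := by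
  have key : ∀ (a : P) (n : ℕ), a ^ p ^ n = 1 → ∃ S : Sylow p P, a ∈ S := fun a n h => by
    have : IsPGroup p (Subgroup.zpowers a) := by
      rintro ⟨_, z, rfl⟩
      refine ⟨n, Subtype.ext ?_⟩
      change (a ^ z) ^ p ^ n = 1
      rw [← zpow_natCast, ← zpow_mul, mul_comm, zpow_mul, zpow_natCast, h, one_zpow]
    obtain ⟨S, hS⟩ := this.exists_le_sylow
    exact ⟨S, hS (Subgroup.mem_zpowers a)⟩
  obtain ⟨S, hS⟩ := key ⟨x, hx⟩ m (Subtype.ext h1)
  obtain ⟨S', hS'⟩ := key ⟨w, hw⟩ n (Subtype.ext h2)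
  obtain ⟨k, rfl⟩ := MulAction.exists_smul_eq P S' S
  exact ⟨k, k.2, _, Subgroup.map_subtype_le _, (k • S').isPGroup'.map P.subtype, ⟨_, hS, rfl⟩,
    ⟨_, ⟨_, hS', rfl⟩, rfl⟩⟩

theorem exists_ppart {G : Type*} [Group G] [Finite G] (p : ℕ) [hp : Fact p.Prime] (g : G) :
    ∃ m n, ¬ p ∣ m ∧ (g ^ m) ^ p ^ n = 1 := by
  obtain ⟨n, m, h1, h2⟩ := Nat.exists_eq_pow_mul_and_not_dvd (orderOf_pos g).ne' p hp.out.ne_one
  exact ⟨m, n, h1, by rw [← pow_mul, mul_comm, ← h2, pow_orderOf_eq_one]⟩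

variable {F V : Type*} [Field F] [AddCommGroup V] [Module F V]

theorem exists_schur [FiniteDimensional F V] {Z : End F V} {P₀ : Submodule F V} (h0 : P₀ ≠ ⊥)
    (hZ : ∀ l ∈ P₀, Z l ∈ P₀) : ∃ P ≤ P₀, P ≠ ⊥ ∧ ∃ hP : ∀ l ∈ P, Z l ∈ P, ∀ k : End F P,
      k * Z.restrict hP = Z.restrict hP * k → ∀ x, k x = 0 → k = 0 ∨ x = 0 := by
  obtain ⟨P, ⟨hP0, hPle, hPZ⟩, hmin⟩ := IsArtinian.set_has_minimal
    {P : Submodule F V | P ≠ ⊥ ∧ P ≤ P₀ ∧ ∀ l ∈ P, Z l ∈ P} ⟨P₀, h0, le_rfl, hZ⟩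
  refine ⟨P, hPle, hP0, hPZ, fun k hk x hx => ?_⟩
  by_contra h
  push Not at h
  refine hmin ((LinearMap.ker k).map P.subtype) ⟨fun e => h.2 ?_,
    (Submodule.map_subtype_le _ _).trans hPle, ?_⟩
    (lt_of_le_of_ne (Submodule.map_subtype_le _ _) fun e => h.1 ?_)
  · have : (x : V) ∈ (LinearMap.ker k).map P.subtype := ⟨x, hx, rfl⟩
    rw [e] at this
    exact Subtype.ext this
  · rintro _ ⟨y, hy, rfl⟩
    refine ⟨Z.restrict hPZ y, ?_, rfl⟩
    change (k * Z.restrict hPZ) y = 0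
    rw [hk, End.mul_apply, show k y = 0 from hy, map_zero]
  · ext y
    obtain ⟨y', hy', e'⟩ : (y : V) ∈ (LinearMap.ker k).map P.subtype := e.symm ▸ y.2
    rw [← show y' = y from Subtype.ext e', show k y' = 0 from hy']; rfl

/-- Dickson's theorem on two transvections, on an irreducible constituent. -/
theorem uu_of_schur [Finite F] [FiniteDimensional F V] (h2 : (2 : F) ≠ 0) {N₁ N₂ : End F V}
    (h22 : N₂ * N₂ = 0) {P : Submodule F V} [Nontrivial P] {Z : End F P}
    (hs : ∀ k : End F P, k * Z = Z * k → ∀ x, k x = 0 → k = 0 ∨ x = 0)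
    (h1 : ∀ l ∈ P, N₁ l = 0) (hZ : ∀ l : P, N₁ (N₂ l) = Z l) (h0 : Z ≠ 0) (h4 : Z * Z ≠ -1)
    {Y : Subgroup (V ≃ₗ[F] V)} (hY1 : UIn Y N₁) (hY2 : UIn Y N₂) :
    ∃ y ∈ Y, ∀ l ∈ P, y l = l ∧ y (N₂ l) = l + N₂ l := by
  have : Finite V := Module.finite_of_finite F
  have : Finite (End F P) := Finite.of_injective _ DFunLike.coe_injective
  have hcomm : ∀ x ∈ ({Z} : Set (End F P)), ∀ y ∈ ({Z} : Set (End F P)), x * y = y * x := by
    rintro _ rfl _ rfl; rfl
  let K := Subring.closure ({Z} : Set (End F P))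
  have hKZ : ∀ k ∈ K, k * Z = Z * k := fun k hk =>
    (Subring.closure_le (t := Subring.centralizer {Z})).2 (by rintro _ rfl _ rfl; rfl) hk Z rfl |>.symm
  letI : CommRing K := Subring.closureCommRingOfComm hcomm
  have : NoZeroDivisors K := ⟨fun {a b} hab => by
    by_contra h
    push Not at h
    refine h.2 (Subtype.ext (LinearMap.ext fun x => ?_))
    exact (hs a.1 (hKZ _ a.2) (b.1 x) (LinearMap.congr_fun (congrArg Subtype.val hab) x)).resolve_left
      fun e => h.1 (Subtype.ext e)⟩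
  have : IsDomain K := NoZeroDivisors.to_isDomain K
  letI : Field K := (Finite.isField_of_domain K).toField
  have := Fintype.ofFinite K
  let lam : K := ⟨Z, Subring.subset_closure rfl⟩
  obtain ⟨x₀, hx₀⟩ := exists_ne (0 : P)
  have h2K : (2 : K) ≠ 0 := fun e => by
    have e' : ((2 : K) : End F P) x₀ = 0 := by rw [e]; rfl
    have e'' : ((2 : K) : End F P) = 1 + 1 := by rw [← one_add_one_eq_two]; rfl
    rw [e'', LinearMap.add_apply, End.one_apply, ← two_smul F, smul_eq_zero] at e'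
    exact e'.elim h2 hx₀
  have hgen : Subfield.closure ({lam} : Set K) = ⊤ := by
    rw [eq_top_iff]
    rintro ⟨k, hk⟩ -
    induction hk using Subring.closure_induction with
    | mem x hx => subst hx; exact Subfield.subset_closure rfl
    | zero => exact zero_mem _
    | one => exact one_mem _
    | add x y _ _ hx hy => exact add_mem hx hy
    | neg x _ hx => exact neg_mem hx
    | mul x y _ _ hx hy => exact mul_mem hx hy
  let Act : (V ≃ₗ[F] V) → SL(2, K) → Prop := fun y A => ∀ a b : P, y (a + N₂ b) =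
    ((A 0 0).1 a + (A 0 1).1 b : P) + N₂ ((A 1 0).1 a + (A 1 1).1 b : P)
  have key : ∀ A ∈ Subgroup.closure ({SL2.ll 1, SL2.uu lam} : Set SL(2, K)), ∃ y ∈ Y, Act y A := by
    intro A hA
    rw [← Subgroup.mem_toSubmonoid, Subgroup.closure_toSubmonoid_of_finite] at hA
    induction hA using Submonoid.closure_induction with
    | mem x hx =>
      rcases hx with rfl | rfl
      · obtain ⟨y, hy, hy'⟩ := hY2.exists
        refine ⟨y, hy, fun a b => ?_⟩
        have := LinearMap.congr_fun h22 b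
        change _ = ((a + 0 : P) : V) + N₂ (a + b : P)
        simp only [End.mul_apply, LinearMap.zero_apply] at this
        simp [hy', this]; abel
      · obtain ⟨y, hy, hy'⟩ := hY1.exists
        refine ⟨y, hy, fun a b => ?_⟩
        change _ = ((a + Z b : P) : V) + N₂ (0 + b : P)
        simp [hy', h1 a a.2, hZ]; abel
    | one =>
      refine ⟨1, one_mem _, fun a b => ?_⟩
      change _ = ((a + 0 : P) : V) + N₂ (0 + b : P)
      simp
    | mul A A' _ _ h h' =>
      obtain ⟨y, hy, h⟩ := h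
      obtain ⟨y', hy', h'⟩ := h'
      refine ⟨y * y', mul_mem hy hy', fun a b => ?_⟩
      rw [LinearEquiv.mul_apply, h', h]
      have e : ∀ i j k l (x : P), (A i j * A' k l).1 x = (A i j).1 ((A' k l).1 x) :=
        fun _ _ _ _ _ => rfl
      have e' : ∀ (s t : K) (x : P), (s + t).1 x = s.1 x + t.1 x := fun _ _ _ => rfl
      simp only [SL2.mul_ap, e, e', map_add, Submodule.coe_add]
      abel
  rcases Dickson.two_transvections h2K (lam := lam) (fun e => h0 (congrArg Subtype.val e)) hgen with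
    ⟨h, -⟩ | ⟨-, h, -⟩
  · obtain ⟨y, hy, h⟩ := key (SL2.uu 1) (h ▸ Subgroup.mem_top _)
    have h' : ∀ a b : P, y (a + N₂ b) = (a + b : P) + N₂ (0 + b : P) := h
    exact ⟨y, hy, fun l hl => ⟨by simpa using h' ⟨l, hl⟩ 0, by simpa using h' 0 ⟨l, hl⟩⟩⟩
  · exact absurd (congrArg Subtype.val ((pow_two lam).symm.trans h)) h4

/-- The centraliser of an endomorphism. -/
def Cz (E : End F V) : Subgroup (V ≃ₗ[F] V) where
  carrier := {g | g * E = E * g}
  mul_mem' {a b} ha hb := by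
    change (a * b : End F V) * E = E * (a * b)
    rw [mul_assoc, hb, ← mul_assoc, ha, mul_assoc]
  one_mem' := (one_mul E).trans (mul_one E).symm
  inv_mem' {a} ha := by
    change _ * E = E * _
    rw [← mul_one (_ * E), ← coe_mul_inv a, ← mul_assoc, mul_assoc _ E, ← ha, ← mul_assoc,
      coe_inv_mul, one_mul]

theorem mem_Cz {E : End F V} {g : V ≃ₗ[F] V} : g ∈ Cz E ↔ g * E = E * g := Iff.rfl

variable {A B e E : End F V} {x y g : V ≃ₗ[F] V}

theorem mem_Cz_of (ex : (x : End F V) = 1 + A) (h : A * E = E * A) : x ∈ Cz E := by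
  rw [mem_Cz, ex, add_mul, mul_add, h, one_mul, mul_one]

theorem closure_le_Cz (ex : (x : End F V) = 1 + A) (ey : (y : End F V) = 1 + B) (h : A * E = E * A)
    (h' : B * E = E * B) : Subgroup.closure {x, y} ≤ Cz E := by
  rw [Subgroup.closure_le]
  rintro _ (rfl | rfl)
  exacts [mem_Cz_of ex h, mem_Cz_of ey h']

theorem pow_char (ex : (x : End F V) = 1 + A) (h : A * A = 0) : x ^ ringChar F ^ 1 = 1 := by
  have key : ∀ n : ℕ, ((x ^ n : V ≃ₗ[F] V) : End F V) = 1 + (n : F) • A := fun n => by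
    induction n with
    | zero => simp; rfl
    | succ n ih =>
      rw [pow_succ, LinearEquiv.coe_toLinearMap_mul, ih, ex, add_mul, one_mul, mul_add, mul_one,
        smul_mul_assoc, h]
      push_cast
      module
  exact LinearEquiv.toLinearMap_injective (by rw [key]; simp; rfl)

variable (A B e) in
/-- A pair of square-zero endomorphisms whose anticommutator is invertible on the image of `e`. -/
structure Pr : Prop where
  AA : A * A = 0
  BB : B * B = 0
  ee : e * e = e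
  e0 : e ≠ 0
  eA : A * e = e * A
  eB : B * e = e * B
  ez : ∃ ζ, ζ * (A * B + B * A) = e

namespace Pr

variable (R : Pr A B e)
include R

theorem smul {c : F} (hc : c ≠ 0) : Pr (c • A) B e :=
  ⟨by simp [R.AA], R.BB, R.ee, R.e0, by simp [R.eA], R.eB, let ⟨ζ, h⟩ := R.ez
    ⟨c⁻¹ • ζ, by simp [← smul_add, h, hc]⟩⟩

theorem kill (hA : A * E = 0) (hB : B * E = E * B) (he : e * E = E) : E = 0 := by
  obtain ⟨ζ, h⟩ := R.ez
  rw [← he, ← h, mul_assoc, add_mul, mul_assoc, mul_assoc, hB, ← mul_assoc A, hA]; simp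

variable (ex : (x : End F V) = 1 + A) (ey : (y : End F V) = 1 + B)
include ex ey

theorem trace (hg : g ∈ Subgroup.closure {x, y}) :
    B * (g + (g⁻¹ : V ≃ₗ[F] V)) = (g + (g⁻¹ : V ≃ₗ[F] V)) * B := by
  obtain ⟨p₀, p₁, p₂, p₃, h⟩ := QuadPair.exists_nf
    (ρ := LinearEquiv.automorphismGroup.toLinearMapMonoidHom) R.AA R.BB ex ey hg
  have h1 : (g + (g⁻¹ : V ≃ₗ[F] V) : End F V) = _ := h.trace
  have c := QuadPair.comm_z_right (A := A) R.BB
  rw [h1]
  exact ((Commute.ofNat_left 2 B).add_left (c.mul_left (QuadPair.comm_aeval c _))).symm.eq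

theorem cent (hg : g ∈ Subgroup.closure {x, y}) (h : g ∈ Cz (A * e)) :
    A * e * (g - (g⁻¹ : V ≃ₗ[F] V)) = 0 := by
  have h1 := R.trace ex ey (mul_mem (Subgroup.subset_closure (by simp)) hg : x * g ∈ _)
  have h3 := closure_le_Cz ex ey R.eA R.eB hg
  have h4 := mem_Cz.1 (inv_mem h3)
  have h5 : A * e * (g - (g⁻¹ : V ≃ₗ[F] V)) = (A * g - (g⁻¹ : V ≃ₗ[F] V) * A) * e := by
    rw [sub_mul, mul_sub, mul_assoc _ A, mem_Cz.1 (inv_mem h), mul_assoc A g, h3, mul_assoc]
  rw [mul_inv_rev, LinearEquiv.coe_toLinearMap_mul, LinearEquiv.coe_toLinearMap_mul,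
    show ((x⁻¹ : V ≃ₗ[F] V) : End F V) = 1 - A from QuadPair.inv_of_sq
      (ρ := LinearEquiv.automorphismGroup.toLinearMapMonoidHom) R.AA ex, ex] at h1
  refine R.kill (by rw [← mul_assoc, ← mul_assoc, R.AA, zero_mul, zero_mul]) ?_
    (by rw [← mul_assoc, ← mul_assoc, ← R.eA, mul_assoc A, R.ee])
  rw [h5, mul_assoc, ← R.eB, ← mul_assoc, ← mul_assoc]
  congr 1
  linear_combination (norm := noncomm_ring) h1 - R.trace ex ey hg

end Pr

end CfsgLib.C7
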