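import Mathlib
import Cfsg.Agent.Lib.C7.TwoA
import Cfsg.Agent.Lib.C7.Big

/-!
The inductive step for factors of dimension two.
-/

set_option autoImplicit false

namespace CfsgLib.C7

open Module CfsgLib.ClMax

variable {F U V : Type*} [Field F] [AddCommGroup U] [Module F U] [AddCommGroup V] [Module F V]
  {T : Type*} {s : T → End F U →ₐ[F] End F V} [FiniteDimensional F U]

theorem ker_two (hk : finrank F U = 2) {u d : U} {φ : Dual F U} (hu : u ≠ 0) (hφ : φ ≠ 0)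
    (h0 : φ u = 0) (hd : φ d = 0) : d ∈ Submodule.span F {u} := by
  have h1 := Module.Dual.finrank_ker_add_one_of_ne_zero hφ
  exact (Submodule.eq_of_le_of_finrank_eq (S₁ := Submodule.span F {u}) (S₂ := LinearMap.ker φ)
    (by simpa using h0) (by rw [finrank_span_singleton hu]; omega)).ge hd

theorem eq_smulRight (hk : finrank F U = 2) {u v : U} {φ : Dual F U} (hu : u ≠ 0) (h0 : φ u = 0)
    (hv : φ v = 1) {W : Type*} [AddCommGroup W] [Module F W] {γ : U →ₗ[F] W} (h : γ u = 0) :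
    γ = φ.smulRight (γ v) := LinearMap.ext fun a => by
  obtain ⟨c, hc⟩ := Submodule.mem_span_singleton.1 (ker_two hk hu (by rintro rfl; simp at hv) h0
    (d := a - φ a • v) (by simp [hv]))
  have := congrArg γ hc
  simp only [map_smul, h, smul_zero, map_sub] at this
  exact (sub_eq_zero.1 this.symm)

omit [FiniteDimensional F U] in
theorem coe_pow (g : V ≃ₗ[F] V) (n : ℕ) : ((g ^ n : V ≃ₗ[F] V) : End F V) = (g : End F V) ^ n :=
  map_pow LinearEquiv.automorphismGroup.toLinearMapMonoidHom g n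

variable [Finite T] {h : TP s} {Y : Subgroup (V ≃ₗ[F] V)} {P : U → Dual F U → Prop} {J : Set T}
  {i : T} {u : U} {φ : Dual F U} {B e : End F V} {g x y : V ≃ₗ[F] V}

theorem TP.comm_decomp (h : TP s) (hk : finrank F U = 2) (hg : g ∈ h.Wr) (hu : u ≠ 0) (hφ : φ ≠ 0)
    (h0 : φ u = 0) (hc : g ∈ Cz (r (s i) u φ)) :
    ∃ c : F, ∃ β ∈ Cm (s i), (g : End F V) = (1 + c • r (s i) u φ) * β := by
  have := h.nt
  have := h.ntU
  have e1 : g * r (s i) u φ * (g⁻¹ : V ≃ₗ[F] V) = r (s i) u φ := by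
    rw [hc, mul_assoc, coe_mul_inv, mul_one]
  obtain ⟨α, hα⟩ := (h.nm_of_comm hg hu hφ h0 e1).nma
  obtain ⟨β, hβ, e2, -⟩ := hα.exists_Cm
  obtain ⟨v, hv⟩ := exists_apply_eq_one hφ
  have e3 : α u - φ (α v) • u = 0 := by
    by_contra h1
    refine r_ne_zero (s := s i) h1 hφ ?_
    simpa [hv, sub_eq_zero] using congrArg (· * r (s i) (α v) φ) ((hα.conj u φ).symm.trans e1)
  have e4 := eq_smulRight hk hu h0 hv (γ := (α - φ (α v) • 1 : End F U)) e3
  obtain ⟨d, hd⟩ := Submodule.mem_span_singleton.1 (ker_two hk hu hφ h0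
    (d := (α - φ (α v) • 1 : End F U) v) (by simp [hv]))
  have h1 : φ (α v) ≠ 0 := fun h1 => hu (by simpa [h1] using e3)
  refine ⟨d / φ (α v), φ (α v) • β, Subalgebra.smul_mem _ hβ _, ?_⟩
  rw [e2, sub_eq_iff_eq_add'.1 e4, ← hd, map_add, ← r_def]
  simp [add_mul, smul_smul, mul_div_cancel₀, h1]

theorem TP.same_slot (h : TP s) (hg : g ∈ h.Wr) (hu : u ≠ 0) (hφ : φ ≠ 0) (he : e ∈ Cm (s i))
    (e0 : e ≠ 0) (hc : g ∈ Cz e) (H : g * r (s i) u φ * (g⁻¹ : V ≃ₗ[F] V) ∈ Cm (s i) →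
      r (s i) u φ * e * (g * r (s i) u φ * (g⁻¹ : V ≃ₗ[F] V)) = 0) :
    ∃ α, Nma g (s i) (s i) α := by
  have := h.nt
  have := h.ntU
  obtain ⟨j, hj⟩ := hg i
  obtain ⟨α, hα⟩ := hj.nma
  by_cases hji : i = j
  · exact ⟨α, hji ▸ hα⟩
  rw [hα.conj, mul_assoc] at H
  have h1 := r_mul_eq_zero hu hφ (mul_mem he (h.r_mem hji _ _)) (H (h.r_mem hji _ _))
  rw [Cm_r (hj.conj_Cm he hc)] at h1
  exact absurd (r_mul_eq_zero (by simpa using hu) (fun h1 => hφ (by
    ext v; simpa using LinearMap.congr_fun h1 (α v))) (hj.conj_Cm he hc) h1) e0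

variable [Finite F] [FiniteDimensional F V]

namespace Core

variable (C : Core h Y P J) (hi : i ∈ J) (hP : P u φ) (ex : (x : End F V) = 1 + r (s i) u φ)
include C hi hP ex

theorem pgrp_le {Q : Subgroup (V ≃ₗ[F] V)} (hQ : IsPGroup (ringChar F) Q) (hQY : Q ≤ Y)
    (hx : x ∈ Q) : Q ≤ h.Wr := fun g hg => by
  have := finite_equiv (F := F) (V := V)
  have hp : Fact (ringChar F).Prime := ⟨CharP.char_is_prime F _⟩
  have := hQ.isNilpotent
  have h1 := normalizerCondition_iff_only_full_group_self_normalizing.1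
    (Group.normalizerCondition_of_isNilpotent (G := Q)) (h.Wr.subgroupOf _)
    (le_antisymm (fun (k : Q) hk => C.rig (hQY k.2) (hQY hx) hi hP ex (by
      exact (Subgroup.mem_normalizer_iff.1 hk ⟨x, hx⟩).1 (h.mem_Wr_of_eq (coe_eq_s ex))))
      Subgroup.le_normalizer)
  exact (h1 ▸ Subgroup.mem_top _ : (⟨g, hg⟩ : Q) ∈ h.Wr.subgroupOf _)

variable (hk : finrank F U = 2) (h2 : (2 : F) ≠ 0) (R : Pr (r (s i) u φ) B e) (he : e ∈ Cm (s i))
  (ey : (y : End F V) = 1 + B) (hD : Subgroup.closure {x, y} ≤ Y)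
include hk h2 R he ey hD

theorem syl {Q : Subgroup (V ≃ₗ[F] V)} (hQ : IsPGroup (ringChar F) Q)
    (hQD : Q ≤ Subgroup.closure {x, y}) (hx : x ∈ Q) (hg : g ∈ Q) :
    ∃ c : F, g * e = (1 + c • r (s i) u φ) * e := by
  have := h.nt
  have hp : Fact (ringChar F).Prime := ⟨CharP.char_is_prime F _⟩
  have : CharP (End F V) (ringChar F) :=
    charP_of_injective_algebraMap (FaithfulSMul.algebraMap_injective F _) _
  obtain ⟨hu, hφ, h0⟩ := C.nz hP
  have hW := C.pgrp_le hi hP ex hQ (hQD.trans hD) hx hg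
  have hx' := mul_mem (mul_mem hg hx) (inv_mem hg)
  have ex' := coe_conj g ex
  have ce := fun {k} (hk : k ∈ Q) => closure_le_Cz ex ey R.eA R.eB (hQD hk)
  obtain ⟨α, hα⟩ := h.same_slot hW hu hφ he R.e0 (ce hg) fun h1 => by
    have h3 := R.cent ex ey (hQD hx') (mem_Cz_of ex' (by
      rw [← mul_assoc, Cm_r h1, mul_assoc, mul_assoc (r _ _ _)]
      simpa [mem_Cz, ex', add_mul, mul_add] using congrArg (r (s i) u φ * ·) (mem_Cz.1 (ce hx'))))
    rw [coe_inv_of_sq ex' (conj_sq g R.AA), ex', add_sub_sub_cancel, ← two_smul F,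
      mul_smul_comm] at h3
    exact (smul_eq_zero_iff_right h2).1 h3
  have e1 := hα.conj u φ
  rw [e1] at ex'
  have h3 : φ (α u) * φ (α.symm u) = 0 := by
    obtain ⟨n, hn⟩ := hQ ⟨_, mul_mem hx hx'⟩
    replace hn : (x * (g * x * g⁻¹)) ^ _ = 1 := congrArg Subtype.val hn
    generalize g * x * g⁻¹ = x' at ex' hn
    have hN : IsNilpotent ((x * x' : V ≃ₗ[F] V) - 1 : End F V) := ⟨ringChar F ^ n, by
      rw [sub_pow_char_pow_of_commute _ _ (Commute.one_right _), one_pow, ← coe_pow, hn]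
      exact sub_self _⟩
    obtain ⟨m, hm⟩ := Commute.isNilpotent_mul_right (y := ((x * x' : V ≃ₗ[F] V) - 1 : End F V) *
      ((x * x')⁻¹ : V ≃ₗ[F] V)) ((Commute.refl _).mul_right
        (Commute.sub_left ((coe_mul_inv _).trans (coe_inv_mul _).symm) (Commute.one_left _))) hN
    rw [← mul_assoc, show ((x * x' : V ≃ₗ[F] V) - 1 : End F V) * ((x * x' : V ≃ₗ[F] V) - 1) =
      (r (s i) u φ * r (s i) (α u) (φ ∘ₗ α.symm) + r (s i) (α u) (φ ∘ₗ α.symm) * r (s i) u φ) *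
        (x * x' : V ≃ₗ[F] V) by
      simp [ex, ex', add_mul, mul_add, mul_sub, sub_mul, h0, mul_assoc]; module, mul_assoc,
      coe_mul_inv, mul_one] at hm
    have key : ∀ m : ℕ, (r (s i) u φ * r (s i) (α u) (φ ∘ₗ α.symm) + r (s i) (α u) (φ ∘ₗ α.symm) *
        r (s i) u φ) ^ m * r (s i) u φ = (φ (α u) * φ (α.symm u)) ^ m • r (s i) u φ := fun m => by
      induction m with
      | zero => simp
      | succ m ih =>
        rw [pow_succ', mul_assoc, ih]
        simp [add_mul, h0, smul_smul, pow_succ]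
    exact pow_eq_zero_iff'.1 ((smul_eq_zero_iff_left (r_ne_zero hu hφ)).1
      (by rw [← key, hm, zero_mul])) |>.1
  obtain ⟨κ, hκ⟩ : ∃ κ : F, α u = κ • u := by
    rcases mul_eq_zero.1 h3 with h4 | h4
    · exact (Submodule.mem_span_singleton.1 (ker_two hk hu hφ h0 h4)).imp fun _ => Eq.symm
    · obtain ⟨c, hc⟩ := Submodule.mem_span_singleton.1 (ker_two hk hu hφ h0 h4)
      have h5 : c • α u = u := by simpa using congrArg α hc
      exact ⟨c⁻¹, (eq_inv_smul_iff₀ (by rintro rfl; exact hu (by simpa using h5.symm))).2 h5⟩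
  obtain ⟨v, hv⟩ := exists_apply_eq_one hφ
  have h4 : φ ∘ₗ (α.symm : End F U) = φ (α.symm v) • φ := by
    rw [eq_smulRight hk hu h0 hv (γ := φ ∘ₗ (α.symm : End F U)) (by
      have h5 : κ ≠ 0 := by rintro rfl; exact hu (by simpa using hκ)
      simpa [h0, h5] using (congrArg (fun a => φ (α.symm a)) hκ).symm)]
    ext; simp [mul_comm]
  obtain ⟨n, hn⟩ := hQ ⟨g, hg⟩
  replace hn : g ^ _ = 1 := congrArg Subtype.val hn
  have h5 : g ∈ Cz (r (s i) u φ) := by
    replace e1 : g * r (s i) u φ = (κ * φ (α.symm v)) • (r (s i) u φ * g) := by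
      rw [← mul_one (_ * _), ← coe_inv_mul g, ← mul_assoc, e1, hκ, h4]; simp [smul_smul, mul_comm]
    generalize κ * φ (α.symm v) = μ at e1
    have key : ∀ m : ℕ, (g : End F V) ^ m * r (s i) u φ = μ ^ m • (r (s i) u φ * g ^ m) := fun m => by
      induction m with
      | zero => simp
      | succ m ih => rw [pow_succ', mul_assoc, ih, mul_smul_comm, ← mul_assoc, e1, smul_mul_assoc,
          smul_smul, mul_assoc, pow_succ]
    have h6 := key (ringChar F ^ n)
    rw [← coe_pow, hn, LinearEquiv.coe_toLinearMap_one, ← End.one_eq_id, one_mul, mul_one] at h6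
    have h7 : (μ - 1) ^ ringChar F ^ n = 0 := by
      rw [sub_pow_char_pow, one_pow, sub_eq_zero]
      exact smul_left_injective F (r_ne_zero hu hφ) (h6.symm.trans (one_smul _ _).symm)
    rw [mem_Cz, e1, sub_eq_zero.1 (pow_eq_zero_iff'.1 h7).1, one_smul]
  obtain ⟨c, β, hβ, e2⟩ := h.comm_decomp hk hW hu hφ h0 h5
  have h6 := congrArg (· * (g : End F V)) (R.cent ex ey (hQD hg) (by
    rw [mem_Cz, ← mul_assoc, h5, mul_assoc, ce hg, mul_assoc]))
  simp only [zero_mul] at h6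
  rw [mul_assoc, sub_mul, coe_inv_mul, mul_sub, mul_one, sub_eq_zero] at h6
  have key : ∀ m : ℕ, r (s i) u φ * e * g ^ (2 * m) = r (s i) u φ * e := fun m => by
    induction m with
    | zero => simp
    | succ m ih => rw [mul_add, pow_add, ← mul_assoc, ih, mul_one, pow_two, h6]
  obtain ⟨m, hm⟩ := (hp.out.odd_of_ne_two fun h1 => h2 (by
    simpa [h1] using ringChar.Nat.cast_ringChar (R := F))).pow (n := n)
  have h7 := key (m + 1)
  rw [show 2 * (m + 1) = 2 * m + 1 + 1 by ring, ← hm, pow_succ, ← coe_pow, hn,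
    LinearEquiv.coe_toLinearMap_one, ← End.one_eq_id, one_mul, mul_assoc, ← ce hg, e2] at h7
  refine ⟨c, ?_⟩
  rw [e2, mul_assoc, r_mul_cancel hu hφ (mul_mem hβ he) he (by
    simpa [add_mul, mul_add, h0, mul_assoc] using h7)]

theorem syl' {D : Subgroup (V ≃ₗ[F] V)} (hD' : D ≤ Subgroup.closure {x, y}) (hx : x ∈ D) (hg : g ∈ D) :
    ∃ m : ℕ, (m : F) ≠ 0 ∧ ∃ k ∈ D, ∃ c : F,
      (k * g ^ m * k⁻¹ : V ≃ₗ[F] V) * e = (1 + c • r (s i) u φ) * e := by
  have := finite_equiv (F := F) (V := V)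
  have hp : Fact (ringChar F).Prime := ⟨CharP.char_is_prime F _⟩
  obtain ⟨m, n, h3, h4⟩ := exists_ppart (ringChar F) g
  obtain ⟨k, h5, Q, h6, hQ, h7, h8⟩ := exists_pgrp hx (pow_mem hg m) (pow_char ex R.AA) h4
  exact ⟨m, fun h9 => h3 ((ringChar.spec F m).1 h9), k, h5,
    C.syl hi hP ex hk h2 R he ey hD hQ (h6.trans hD') h7 h8⟩

theorem eigen {W : Submodule F V} [Nontrivial W] {Z : End F W}
    (hs : ∀ k : End F W, k * Z = Z * k → ∀ x, k x = 0 → k = 0 ∨ x = 0)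
    (h1 : ∀ l ∈ W, r (s i) u φ l = 0 ∧ e l = l) (hZ : ∀ l : W, r (s i) u φ (B l) = Z l)
    (h4 : Z * Z ≠ -1) : ∃ v, ∃ z : F, v ≠ 0 ∧ r (s i) u φ v = 0 ∧ e v = v ∧
      r (s i) u φ (B v) = z • v := by
  obtain ⟨v, hv⟩ := exists_ne (0 : W)
  have hx : x ∈ Subgroup.closure {x, y} := Subgroup.subset_closure (by simp)
  obtain ⟨g, hg, h5⟩ := uu_of_schur h2 R.BB hs (fun l hl => (h1 l hl).1) hZ (by
    rintro rfl
    obtain ⟨ζ, h5⟩ := R.ez
    refine hv (Subtype.ext ?_)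
    rw [← (h1 v v.2).2, ← h5]
    simp [hZ, (h1 v v.2).1]) h4 ⟨x, hx, ex⟩ ⟨y, Subgroup.subset_closure (by simp), ey⟩
  let D : Subgroup (V ≃ₗ[F] V) :=
    { carrier := {g | (∀ l ∈ W, g l = l) ∧ ∃ l ∈ W, g (B v) = l + B v}
      mul_mem' := fun ⟨h1, l, h2, h3⟩ ⟨h4, l', h5, h6⟩ => ⟨fun l hl => by simp [h1 l hl, h4 l hl],
        l' + l, add_mem h5 h2, by simp [h6, h3, h1 _ h5, add_assoc]⟩
      one_mem' := ⟨fun _ _ => rfl, 0, zero_mem _, by simp⟩
      inv_mem' := fun {a} ⟨h1, l, h2, h3⟩ => ⟨fun l hl => a.injective (by simp [h1 l hl]),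
        -l, neg_mem h2, a.injective (by simp [h3, h1 _ h2])⟩ }
  have ex' : ∀ w, x w = w + r (s i) u φ w := fun w => LinearMap.congr_fun ex w
  obtain ⟨m, hm, k, ⟨-, h6, l, h7, h8⟩, c, h9⟩ := C.syl' hi hP ex hk h2 R he ey hD
    (D := Subgroup.closure {x, y} ⊓ D) inf_le_left ⟨hx, fun l hl => by simp [ex', (h1 l hl).1],
      Z v, (Z v).2, by rw [ex', hZ, add_comm]⟩
    ⟨hg, fun l hl => (h5 l hl).1, v, v.2, (h5 v v.2).2⟩
  have key : ∀ m : ℕ, (∀ l ∈ W, (g ^ m) l = l) ∧ (g ^ m) (B v) = (m : F) • v + B v := fun m => by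
    induction m with
    | zero => simp
    | succ m ih =>
      refine ⟨fun l hl => by simp [pow_succ, (h5 l hl).1, ih.1 l hl], ?_⟩
      simp only [pow_succ', LinearEquiv.mul_apply, ih.2, map_add, map_smul, h5 v v.2]
      push_cast; module
  have h10 : e (B v) = B v := by rw [← End.mul_apply, ← R.eB, End.mul_apply, (h1 v v.2).2]
  have h11 := LinearMap.congr_fun h9 (B v)
  have h12 : k⁻¹ (B v) = B v - l := k.injective (by simp [h8, h6 l h7])
  simp only [End.mul_apply, h10, LinearEquiv.coe_coe, LinearEquiv.mul_apply, h12, map_sub, key m,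
    (key m).1 l h7, map_add, map_smul, h8, h6 l h7, h6 v v.2, LinearMap.add_apply, End.one_apply,
    LinearMap.smul_apply] at h11
  replace h11 : c • r (s i) u φ (B v) = (m : F) • v := by linear_combination (norm := module) -h11
  have hc : c ≠ 0 := by rintro rfl; simp [eq_comm (a := (0 : V)), hm, hv] at h11
  exact ⟨v, _, by simpa using hv, (h1 v v.2).1, (h1 v v.2).2,
    ((eq_inv_smul_iff₀ hc).2 h11).trans (smul_smul _ _ _)⟩

theorem scalar {v : V} (h0 : v ≠ 0) (h1 : r (s i) u φ v = 0) (h3 : e v = v)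
    (h4 : r (s i) u φ (B v) = (-4 : F) • v) :
    (r (s i) u φ * B + B * r (s i) u φ) * e = (-4 : F) • e := by
  have hx : x ∈ Subgroup.closure {x, y} := Subgroup.subset_closure (by simp)
  have hg : x * y ∈ Subgroup.closure {x, y} := mul_mem hx (Subgroup.subset_closure (by simp))
  obtain ⟨m, hm, k, h5, c, h6⟩ := C.syl' hi hP ex hk h2 R he ey hD le_rfl hx hg
  generalize r (s i) u φ = A at *
  have ce := fun {k} (hk : k ∈ Subgroup.closure {x, y}) => closure_le_Cz ex ey R.eA R.eB hk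
  have BB : B (B v) = 0 := LinearMap.congr_fun R.BB v
  have ex' : ∀ w, x w = w + A w := fun w => LinearMap.congr_fun ex w
  have ey' : ∀ w, y w = w + B w := fun w => LinearMap.congr_fun ey w
  have key : ∀ m : ℕ, ((x * y) ^ m) v = (-1 : F) ^ m • (v - (m : F) • (B v - (2 : F) • v)) :=
    fun m => by
    induction m with
    | zero => simp
    | succ m ih =>
      simp only [pow_succ', LinearEquiv.mul_apply, ih, map_smul, map_sub, map_add, ex', ey', h1, h4,
        BB, map_zero]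
      push_cast; module
  have h44 : (4 : F) ≠ 0 := by
    rw [show (4 : F) = 2 * 2 by norm_num]; simpa using h2
  have hc : c ≠ 0 := by
    rintro rfl
    have h7 := congrArg (fun E => A (((k⁻¹ : V ≃ₗ[F] V) * E * k : End F V) v)) h6
    simp only [zero_smul, add_zero, one_mul, LinearEquiv.coe_toLinearMap_mul, mul_assoc,
      ← mem_Cz.1 (ce h5), ← mul_assoc _ (k : End F V), coe_inv_mul] at h7
    simp [h3, key, h1, h4, hm, h0, h44] at h7
  have h7 : k * (x * y) * k⁻¹ ∈ _ := mul_mem (mul_mem h5 hg) (inv_mem h5)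
  have h8 := R.cent ex ey h7 (by
    have h8 := congrArg (fun a : V ≃ₗ[F] V => (a : End F V) * e) (show k * (x * y) * k⁻¹ *
      (k * (x * y) ^ m * k⁻¹) = k * (x * y) ^ m * k⁻¹ * (k * (x * y) * k⁻¹) by
        rw [conj_mul, conj_mul, pow_mul_comm'])
    generalize k * (x * y) * k⁻¹ = a at h7 h8
    generalize k * (x * y) ^ m * k⁻¹ = b at h6 h8
    simp only [LinearEquiv.coe_toLinearMap_mul] at h8
    rw [mul_assoc, h6, mul_assoc, ce h7, ← mul_assoc (b : End F V), h6] at h8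
    simpa [add_mul, mul_add, mem_Cz.1 (ce h7), hc, mem_Cz, smul_right_inj] using h8)
  have cZ := closure_le_Cz ex ey (QuadPair.comm_z_left (B := B) R.AA).symm.eq
    (QuadPair.comm_z_right R.BB).symm.eq h5
  have h9 : (k * (x * y) * k⁻¹ : V ≃ₗ[F] V) + ((k * (x * y) * k⁻¹)⁻¹ : V ≃ₗ[F] V) =
      2 + (A * B + B * A) := by
    rw [conj_inv, mul_inv_rev]
    simp only [LinearEquiv.coe_toLinearMap_mul]
    rw [← add_mul, ← mul_add, coe_inv_of_sq ex R.AA, coe_inv_of_sq ey R.BB, ex, ey,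
      show (1 + A) * (1 + B) + (1 - B) * (1 - A) = 2 + (A * B + B * A) by
        rw [← one_add_one_eq_two]; noncomm_ring, mul_add, cZ,
      ← (Commute.ofNat_left 2 _).eq, ← add_mul, mul_assoc, coe_mul_inv, mul_one]
  have cA := (QuadPair.comm_z_left (B := B) R.AA).eq
  have cB := (QuadPair.comm_z_right (A := A) R.BB).eq
  obtain ⟨ζ, hζ⟩ := R.ez
  have eZ : (A * B + B * A) * e = e * (A * B + B * A) := by
    rw [add_mul, mul_assoc, mul_assoc, R.eA, R.eB, ← mul_assoc, ← mul_assoc, R.eA, R.eB, mul_add,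
      mul_assoc, mul_assoc]
  generalize k * (x * y) * k⁻¹ = a at h8 h9
  generalize A * B + B * A = Z at *
  have h10 : Z * (Z + 4) * e = 0 := R.kill (by
    have h10 : (a - (a⁻¹ : V ≃ₗ[F] V)) * (a - (a⁻¹ : V ≃ₗ[F] V)) = Z * (Z + 4) := by
      linear_combination (norm := (noncomm_ring; norm_num)) congrArg₂ (· * ·) h9 h9 - 2 * coe_mul_inv a -
        2 * coe_inv_mul a
    have h11 := congrArg (· * (a - (a⁻¹ : V ≃ₗ[F] V) : End F V)) h8
    simp only [mul_assoc, h10, zero_mul] at h11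
    linear_combination (norm := noncomm_ring) h11 + A * Z * eZ + A * eZ * (Z + 4))
    (by linear_combination (norm := noncomm_ring) -cB * (Z + 4) * e - Z * cB * e + Z * (Z + 4) * R.eB)
    (by linear_combination (norm := noncomm_ring) -eZ * (Z + 4) * e - Z * eZ * e + Z * (Z + 4) * R.ee)
  rw [neg_smul, ofNat_smul_eq_nsmul]
  linear_combination (norm := noncomm_ring) congrArg (ζ * ·) h10 - hζ * (Z + 4) * e + eZ * e -
    (Z + 4) * R.ee

omit ex ey hD in
theorem torus (hB : ∀ d : F, UIn Y (d • B)) (hA : ∀ c : F, UIn Y (c • r (s i) u φ))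
    (hZ : (r (s i) u φ * B + B * r (s i) u φ) * e = e) {a : F} (ha : a ≠ 0) (ha1 : a * a ≠ 1) :
    (∃ t : V ≃ₗ[F] V, (∀ E, r (s i) u φ * E = E * r (s i) u φ → B * E = E * B → t ∈ Cz E) ∧
      t * r (s i) u φ = (a * a) • (r (s i) u φ * t)) ∧
      ∃ γ, γ u = 0 ∧ B * r (s i) u φ * e = s i γ * e := by
  have := h.nt
  have := finite_equiv (F := F) (V := V)
  have hp : Fact (ringChar F).Prime := ⟨CharP.char_is_prime F _⟩
  obtain ⟨hu, hφ, h0⟩ := C.nz hP
  obtain ⟨A, hA'⟩ : ∃ A, A = r (s i) u φ := ⟨_, rfl⟩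
  rw [← hA'] at R hA hZ ⊢
  let D := Y ⊓ ⨅ (E : End F V) (_ : A * E = E * A) (_ : B * E = E * B), Cz E
  have mD : ∀ {g}, g ∈ D ↔ g ∈ Y ∧ ∀ E, A * E = E * A → B * E = E * B → g ∈ Cz E := by
    simp [D]
  have ce : ∀ {g}, g ∈ D → (g : End F V) * e = e * g := fun hg => (mD.1 hg).2 e R.eA R.eB
  choose X hX eX using hA
  choose X' hX' eX' using hB
  have XD : ∀ c, X c ∈ D := fun c => mD.2 ⟨hX c, fun E h1 _ => mem_Cz_of (eX c) (by simp [h1])⟩
  have XD' : ∀ c, X' c ∈ D := fun c => mD.2 ⟨hX' c, fun E _ h1 => mem_Cz_of (eX' c) (by simp [h1])⟩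
  have h3 : A * B * A * e = A * e := by
    linear_combination (norm := noncomm_ring) congrArg (A * ·) hZ - R.AA * B * e
  have weyl : ∀ c : F, c ≠ 0 → ∃ w ∈ D, w * e = (c • A - c⁻¹ • B) * e := fun c hc =>
    ⟨X c * X' (-c⁻¹) * X c, mul_mem (mul_mem (XD _) (XD' _)) (XD _), by
      simp only [LinearEquiv.coe_toLinearMap_mul, eX, eX', add_mul, mul_add, sub_mul, one_mul,
        mul_one, smul_mul_assoc, mul_smul_comm, smul_add, smul_smul, R.AA, h3, zero_mul] at hZ ⊢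
      field_simp
      linear_combination (norm := module) -hZ⟩
  obtain ⟨w, hw, ew⟩ := weyl a ha
  obtain ⟨w', hw', ew'⟩ := weyl (-1) (by simp)
  have et : (w * w' : V ≃ₗ[F] V) * e = (a • (A * B) + a⁻¹ • (B * A)) * e := by
    rw [LinearEquiv.coe_toLinearMap_mul, mul_assoc, ce hw', ← mul_assoc, ew, mul_assoc, ← ce hw', ew',
      ← mul_assoc]
    simp [mul_add, sub_mul, add_mul, R.AA, R.BB, add_comm]
  have ht := mul_mem hw hw'
  generalize w * w' = t at et ht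
  have key : ∀ {t}, t ∈ D → t * e = (a • (A * B) + a⁻¹ • (B * A)) * e → t * A * e = a • (A * e) ∧
      t * A * (t⁻¹ : V ≃ₗ[F] V) * e = (a * a) • (A * e) := fun {t} ht et => by
    have h4 : t * A * e = a • (A * e) := by
      rw [mul_assoc, R.eA, ← mul_assoc, et, mul_assoc, ← R.eA, ← mul_assoc]
      simp [add_mul, h3, mul_assoc B, R.AA]
    refine ⟨h4, ?_⟩
    rw [mul_assoc, ce (inv_mem ht), ← mul_assoc, h4, ← mul_one ((a * a) • _), ← coe_mul_inv t,
      ← mul_assoc, smul_mul_assoc (a * a), mul_assoc A, ← ce ht, et, ← mul_assoc]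
    simp [mul_add, ← mul_assoc, R.AA, h3, smul_smul, ha]
  let D' : Subgroup (V ≃ₗ[F] V) :=
    { carrier := {g | g ∈ D ∧ ∃ c : F, g * e = (1 + c • A) * e}
      mul_mem' := fun {g k} ⟨h1, c, h2⟩ ⟨h3, d, h4⟩ => ⟨mul_mem h1 h3, c + d, by
        rw [LinearEquiv.coe_toLinearMap_mul, mul_assoc, ce h3, ← mul_assoc, h2, mul_assoc, ← ce h3,
          h4, ← mul_assoc]
        simp [mul_add, add_mul, R.AA, add_smul, add_assoc]⟩
      one_mem' := ⟨one_mem _, 0, by simp; rfl⟩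
      inv_mem' := fun {g} ⟨h1, c, h2⟩ => ⟨inv_mem h1, -c, by
        have h3 := congrArg (fun E => (g⁻¹ : V ≃ₗ[F] V) * E * (1 + -c • A)) h2
        simp only [← mul_assoc, coe_inv_mul, one_mul] at h3
        rw [add_mul, one_mul, smul_mul_assoc, R.eA, ← mul_smul_comm, ← mul_one_add, h3]
        simp [mul_add, add_mul, mul_assoc, ← R.eA, ← mul_assoc A, R.AA]⟩ }
  have e1 : (X 1 : End F V) = 1 + A := by simpa using eX 1
  obtain ⟨k, ⟨h4, c, h5⟩, Q, h6, hQ, h7, h8⟩ := exists_pgrp (P := D') (w := t * X 1 * t⁻¹)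
    ⟨XD 1, 1, by rw [eX]⟩ ⟨mul_mem (mul_mem ht (XD 1)) (inv_mem ht), a * a, by
      rw [coe_conj t e1, add_mul, (key ht et).2, add_mul, smul_mul_assoc]⟩ (pow_char e1 R.AA)
    (n := 1) (by rw [conj_pow, pow_char e1 R.AA, mul_one, mul_inv_cancel])
  have h9 : X (-c) * (k * t) ∈ h.Wr := mul_mem (h.mem_Wr_of_eq (a := 1 + -c • φ.smulRight u) (by
    rw [eX, hA', map_add, map_one, map_smul, r_def])) (C.rig (mul_mem h4.1 ht.1) (hX 1) hi hP
      (hA' ▸ e1) (C.pgrp_le hi hP (hA' ▸ e1) hQ (fun g hg => (h6 hg).1.1) h7 (by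
        simpa only [mul_assoc, mul_inv_rev] using h8)))
  have h10 : X (-c) * (k * t) ∈ D := mul_mem (XD _) (mul_mem h4 ht)
  have h11 : (X (-c) * (k * t) : V ≃ₗ[F] V) * e = t * e := by
    simp only [LinearEquiv.coe_toLinearMap_mul, mul_assoc, ce ht]
    rw [← mul_assoc (k : End F V), h5, eX, ← mul_assoc, ← mul_assoc]
    simp [mul_add, add_mul, R.AA]
  rw [et] at h11
  generalize X (-c) * (k * t) = t at h9 h10 h11
  obtain ⟨h12, h13⟩ := key h10 h11
  subst hA'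
  obtain ⟨α, hα⟩ := h.same_slot h9 hu hφ he R.e0 (ce h10) fun h1 => by
    rw [mul_assoc, ← mul_assoc e, ← mul_assoc e, ← ce h10, mul_assoc _ e, ← R.eA, ← mul_assoc _ _ e,
      mul_assoc _ e, ← ce (inv_mem h10), ← mul_assoc _ _ e, h13]
    simp [← mul_assoc, h0]
  obtain ⟨β, hβ, e2, e3⟩ := hα.exists_Cm
  obtain ⟨θ, hθ⟩ := exists_dual_one_of_ne (F := F) hu
  have h14 : θ (α u) • (β * e) = a • e := r_mul_cancel hu hφ
    (Subalgebra.smul_mem _ (mul_mem hβ he) _) (Subalgebra.smul_mem _ he _) (by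
      simpa [e3, mul_assoc, hθ] using congrArg (r (s i) u θ * ·) h12)
  have h15 : θ (α u) ≠ 0 := fun h15 => R.e0 (by simpa [h15, ha] using h14.symm)
  have h16 : a - a⁻¹ ≠ 0 := fun h16 => ha1 (by rw [sub_eq_zero.1 h16]; nth_rw 1 [← sub_eq_zero.1 h16]; simp [ha])
  have h17 : B * r (s i) u φ * e = s i ((a - a⁻¹)⁻¹ • (a • 1 - (a / θ (α u)) • (α : End F U))) * e := by
    rw [map_smul, smul_mul_assoc, eq_inv_smul_iff₀ h16, map_sub, map_smul, map_smul, map_one, sub_mul,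
      smul_mul_assoc, smul_mul_assoc, ← mul_smul_comm _ (s i _), div_eq_inv_mul, mul_smul, ← h14,
      inv_smul_smul₀ h15, ← mul_assoc, ← e2, h11, one_mul]
    simp only [add_mul, smul_mul_assoc] at hZ ⊢
    linear_combination (norm := module) a • hZ
  refine ⟨⟨t, (mD.1 h10).2, ?_⟩, _, ?_, h17⟩
  · rw [hα.conj, r_def, r_def, ← smul_mul_assoc, ← map_smul, ← sub_eq_zero, ← sub_mul,
      ← map_sub] at h13
    rw [← mul_one (_ * _), ← coe_inv_mul t, ← mul_assoc, hα.conj, r_def, r_def, ← smul_mul_assoc,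
      ← map_smul, sub_eq_zero.1 (by_contra fun h1 => R.e0 (s_mul_eq_zero h1 he h13))]
  · by_contra h1
    have h18 := congrArg (· * r (s i) u φ) h17
    simp only [mul_assoc, ← R.eA] at h18
    rw [← mul_assoc (r _ _ _), R.AA, ← mul_assoc (s i _), s_mul_r] at h18
    exact R.e0 (r_mul_eq_zero h1 hφ he (by simpa using h18.symm))

omit hP ex R he ey hD in
theorem step (all : ∀ u φ, u ≠ 0 → φ ≠ 0 → φ u = 0 → P u φ) (BB : B * B = 0)
    (hB : ∀ d : F, UIn Y (d • B)) (hy : y ∈ Y) (ey : (y : End F V) = 1 + B) (hH : y ∉ h.Wr) {a : F}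
    (ha : a ≠ 0) (ha1 : a * a ≠ 1) (hP : P u φ) :
    (∃ t : V ≃ₗ[F] V, (∀ E, r (s i) u φ * E = E * r (s i) u φ → B * E = E * B → t ∈ Cz E) ∧
      t * r (s i) u φ = (a * a) • (r (s i) u φ * t)) ∧ ∃ e ∈ Cm (s i), e ≠ 0 ∧ B * e = e * B ∧
      ∃ u' φ', P u' φ' ∧ r (s i) u' φ' * B * e = 0 ∧ B * r (s i) u' φ' * e = 0 := by
  have := h.nt
  have := finite_equiv (F := F) (V := V)
  have hp : Fact (ringChar F).Prime := ⟨CharP.char_is_prime F _⟩
  obtain ⟨hu, hφ, h0⟩ := C.nz hP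
  have hc : ∀ c : F, c ≠ 0 → P u (c • φ) := fun c hc => all _ _ hu (smul_ne_zero hc hφ) (by simp [h0])
  have hA : ∀ c : F, UIn Y (c • r (s i) u φ) := fun c => by
    by_cases h1 : c = 0
    · simpa [h1] using uIn_zero
    · simpa using C.uin (hc c h1) i hi
  obtain ⟨x, hx, ex⟩ := C.uin hP i hi
  obtain ⟨ι, -, h1, h4, h5, ρ, h6, h7, h8⟩ := QuadPair.exists_invol
    (ρ := LinearEquiv.automorphismGroup.toLinearMapMonoidHom) LinearEquiv.toLinearMap_injective
    (p := ringChar F) (fun h1 => h2 (by simpa [h1] using ringChar.Nat.cast_ringChar (R := F)))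
    (by rw [← map_natCast (algebraMap F _), ringChar.Nat.cast_ringChar, map_zero]) (r_sq h0) BB ex ey
    hx hy (h.mem_Wr_of_eq (coe_eq_s ex)) hH fun k hk h1 => inv_mem_iff.1
      (C.rig (inv_mem hk) hx hi hP ex (by rwa [inv_inv]))
  change (ι : End F V) = _ at h6
  have ii : (ι : End F V) * ι = 1 := by rw [← LinearEquiv.coe_toLinearMap_mul, h4]; rfl
  have cA : Commute (ι : End F V) (r (s i) u φ) := h6 ▸ (Commute.one_left _).add_left
    ((QuadPair.comm_z_left (r_sq h0)).mul_left h7)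
  have cB : Commute (ι : End F V) B := h6 ▸ (Commute.one_left _).add_left
    ((QuadPair.comm_z_right BB).mul_left h8)
  have hι : (ι : End F V) ∈ Cm (s i) := by
    obtain ⟨c, β, hβ, e1⟩ := h.comm_decomp hk h1 hu hφ h0 cA
    by_cases h9 : c = 0
    · simpa [e1, h9] using hβ
    refine absurd ?_ (r_not_mem_Cm (s := s i) hu hφ h0)
    have h10 : β * β = 1 - (2 * c) • r (s i) u φ := by
      have h10 := congrArg ((1 - (2 * c) • r (s i) u φ) * ·) ii
      simp only [e1, mul_add, add_mul, sub_mul, one_mul, mul_one, smul_mul_assoc, mul_smul_comm,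
        mul_assoc, Cm_r' hβ, r_mul', h0, zero_smul, smul_zero, mul_zero] at h10
      linear_combination (norm := module) h10
    simpa only [h10, sub_sub_cancel, inv_smul_smul₀ (mul_ne_zero h2 h9)] using
      Subalgebra.smul_mem _ (sub_mem (one_mem _) (mul_mem hβ hβ)) (2 * c)⁻¹
  obtain ⟨e, he'⟩ : ∃ e : End F V, e = (2 : F)⁻¹ • (1 - ι) := ⟨_, rfl⟩
  have he : e ∈ Cm (s i) := he' ▸ Subalgebra.smul_mem _ (sub_mem (one_mem _) hι) _
  have R : Pr (r (s i) u φ) B e := ⟨r_sq h0, BB, by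
      simp only [he', smul_mul_assoc, mul_smul_comm, mul_sub, sub_mul, ii, one_mul, mul_one]
      congr 1
      rw [← smul_sub, inv_smul_eq_iff₀ h2]; module,
    fun h9 => h5 (LinearEquiv.toLinearMap_injective (sub_eq_zero.1
      ((smul_eq_zero_iff_right (inv_ne_zero h2)).1 (he' ▸ h9))).symm),
    (Cm_r he u φ).symm, by simp [he', mul_sub, sub_mul, cB.eq], -(2 : F)⁻¹ • ρ, by
      rw [he', h6, smul_mul_assoc, ((h7.mul_right h8).add_right (h8.mul_right h7)).eq]; simp⟩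
  clear he' hι cA cB ii h6 h7 h8 h5 h4 h1
  have hD : ∀ {c : F} {x}, x ∈ Y → Subgroup.closure {x, y} ≤ Y := fun hx => by
    rw [Subgroup.closure_le]; rintro _ (rfl | rfl) <;> assumption
  obtain ⟨W, h3, h4, hW, h5⟩ := exists_schur (Z := r (s i) u φ * B)
    (P₀ := LinearMap.ker (r (s i) u φ) ⊓ LinearMap.ker (e - 1)) (fun h3 =>
      R.e0 (r_mul_eq_zero hu hφ he (LinearMap.ext fun w => (Submodule.eq_bot_iff _).1 h3 _
        ⟨by simp [h0], by
          change ((e - 1) * (r (s i) u φ * e)) w = 0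
          rw [sub_mul, ← mul_assoc, ← R.eA, mul_assoc, R.ee, one_mul, sub_self]; rfl⟩)))
    fun l hl => ⟨by simp [h0], by
      change ((e - 1) * (r (s i) u φ * B)) l = 0
      rw [sub_mul, ← mul_assoc, ← R.eA, mul_assoc, ← R.eB, one_mul, ← mul_assoc, ← mul_sub_one,
        End.mul_apply, show (e - 1) l = 0 from hl.2, map_zero]⟩
  have := Submodule.nontrivial_iff_ne_bot.2 h4
  obtain ⟨c, h6, h7⟩ : ∃ c : F, c ≠ 0 ∧ (c • (r (s i) u φ * B).restrict hW) *
      (c • (r (s i) u φ * B).restrict hW) ≠ -1 := by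
    by_contra! h6
    have h7 := h6 a ha
    have h8 := h6 1 one_ne_zero
    rw [one_smul] at h8
    rw [smul_mul_smul_comm, h8] at h7
    exact ha1 (smul_left_injective F (neg_ne_zero.2 one_ne_zero) (h7.trans (one_smul _ _).symm))
  have sm : ∀ c : F, r (s i) u (c • φ) = c • r (s i) u φ := fun c => map_smul _ _ _
  obtain ⟨x₁, hx₁, ex₁⟩ := C.uin (hc c h6) i hi
  obtain ⟨v, z, h8, h9, h10, h11⟩ := C.eigen hi (hc c h6) ex₁ hk h2 (sm c ▸ R.smul h6) he ey
    (hD (c := 0) hx₁) (W := W) (Z := c • (r (s i) u φ * B).restrict hW)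
    (fun k hk => h5 k (smul_right_injective _ h6 (by simpa using hk)))
    (fun l hl => ⟨by simp [show r (s i) u φ l = 0 from (h3 hl).1], sub_eq_zero.1 (h3 hl).2⟩)
    (fun l => by simp) h7
  have hz : z ≠ 0 := by
    rintro rfl
    obtain ⟨ζ, h12⟩ := (sm c ▸ R.smul h6 : Pr (r (s i) u (c • φ)) B e).ez
    refine h8 ?_
    rw [← h10, ← h12, End.mul_apply, LinearMap.add_apply, End.mul_apply, End.mul_apply, h9, h11]
    simp
  have h44 : (-4 : F) ≠ 0 := by
    rw [show (-4 : F) = -(2 * 2) by norm_num]; simpa using h2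
  have h12 : -4 / z * c ≠ 0 := mul_ne_zero (div_ne_zero h44 hz) h6
  obtain ⟨x₂, hx₂, ex₂⟩ := C.uin (hc _ h12) i hi
  have h13 := C.scalar hi (hc _ h12) ex₂ hk h2 (sm _ ▸ R.smul h12) he ey (hD (c := 0) hx₂) h8
    (by rw [mul_smul, map_smul, LinearMap.smul_apply, h9, smul_zero]) h10
    (by rw [mul_smul, map_smul, LinearMap.smul_apply, h11, smul_smul, div_mul_cancel₀ _ hz])
  have h14 : c / z ≠ 0 := div_ne_zero h6 hz
  have R' : Pr (r (s i) u φ) ((c / z) • B) e := ⟨R.AA, by simp [BB], R.ee, R.e0, R.eA,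
    by simp [R.eB], let ⟨ζ, h⟩ := R.ez; ⟨(c / z)⁻¹ • ζ, by
      rw [mul_smul_comm, smul_mul_assoc (c / z), ← smul_add, smul_mul_smul_comm, h,
        inv_mul_cancel₀ h14, one_smul]⟩⟩
  have hZ : (r (s i) u φ * (c / z) • B + (c / z) • B * r (s i) u φ) * e = e :=
    smul_right_injective _ h44 (by
      simp only [sm, smul_mul_assoc, mul_smul_comm, ← smul_add, smul_smul] at h13 ⊢
      rw [← h13]; congr 1; ring)
  obtain ⟨⟨t, h15, h16⟩, γ, h17, h18⟩ := C.torus hi hP hk h2 R' he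
    (fun d => by simpa [smul_smul] using hB _) hA hZ ha ha1
  refine ⟨⟨t, fun E h1 h4 => h15 E h1 (by simp [h4]), h16⟩, e, he, R.e0, R.eB, ?_⟩
  obtain ⟨w, hw⟩ := exists_apply_eq_one hφ
  rw [eq_smulRight hk hu h0 hw h17, ← r_def] at h18
  suffices ∃ u' φ', P u' φ' ∧ r (s i) u' φ' * (c / z) • B * e = 0 ∧
      (c / z) • B * r (s i) u' φ' * e = 0 by simpa [h14] using this
  generalize (c / z) • B = B' at R' hZ h18
  have h19 : γ w ≠ 0 := fun h19 => R.e0 (r_mul_eq_zero hu hφ he (by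
    rw [h19, map_zero, LinearMap.zero_apply, zero_mul] at h18
    linear_combination (norm := noncomm_ring) -congrArg (r (s i) u φ * ·) hZ + R.AA * B' * e +
      r (s i) u φ * h18))
  obtain ⟨b, hb, -⟩ := exists_not_mem_two h.two (γ w) (γ w)
  obtain ⟨χ, h20, h21⟩ := exists_dual_one_zero hb
  have h22 : r (s i) (γ w) χ * r (s i) (γ w) φ = 0 := by simp [h21]
  have h23 : r (s i) (γ w) χ = r (s i) (γ w) φ * r (s i) w χ := by simp [hw]
  refine ⟨_, χ, all _ _ h19 (by rintro rfl; simp at h20) h21, ?_, ?_⟩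
  · linear_combination (norm := noncomm_ring) -congrArg (r (s i) (γ w) χ * B' * ·) hZ +
      r (s i) (γ w) χ * (R'.BB * r (s i) u φ * e + h18 * B' + B' * r (s i) u φ * R'.eB) +
        h22 * e * B'
  · rw [h23]
    linear_combination (norm := noncomm_ring) R'.BB * r (s i) u φ * e * r (s i) w χ -
      B' * h18 * r (s i) w χ - B' * r (s i) (γ w) φ * Cm_r he w χ

omit hi hP ex R he ey hD in
theorem le_two (all : ∀ u φ, u ≠ 0 → φ ≠ 0 → φ u = 0 → P u φ) {a : F} (ha : a ≠ 0)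
    (ha1 : a * a ≠ 1) : Y ≤ h.Wr := by
  intro g hg
  by_contra hH
  obtain ⟨u, φ, hP⟩ := C.ex
  obtain ⟨i, hi, -⟩ := C.two
  obtain ⟨hu, hφ, h0⟩ := C.nz hP
  obtain ⟨x, hx, ex⟩ := C.uin hP i hi
  have key := fun {u' φ'} (hP' : P u' φ') => C.step hi hk h2 all (conj_sq g (r_sq h0)) (fun d => by
    by_cases h1 : d = 0
    · simpa [h1] using uIn_zero
    · simpa using (C.uin (all u (d • φ) hu (smul_ne_zero h1 hφ) (by simp [h0])) i hi).conj hg)
    (mul_mem (mul_mem hg hx) (inv_mem hg)) (coe_conj g ex)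
    (fun h1 => hH (C.rig hg hx hi hP ex h1)) ha ha1 hP'
  obtain ⟨-, e, he, e0, eB, u', φ', hP', h3, h4⟩ := key hP
  obtain ⟨⟨t, h5, h6⟩, -⟩ := key hP'
  obtain ⟨hu', hφ', h0'⟩ := C.nz hP'
  have h7 := h5 (r (s i) u' φ' * e) (by simp [mul_assoc, Cm_r he, h0'])
    (by rw [← mul_assoc, h4, mul_assoc, ← eB, ← mul_assoc, h3])
  rw [mem_Cz, ← mul_assoc, h6, smul_mul_assoc, mul_assoc, h5 e (Cm_r he _ _).symm eB,
    ← mul_assoc] at h7
  have h8 := congrArg (· * ((t⁻¹ : V ≃ₗ[F] V) : End F V)) h7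
  simp only [smul_mul_assoc, mul_assoc, coe_mul_inv, mul_one] at h8
  exact e0 (r_mul_eq_zero hu' hφ' he (by_contra fun h9 =>
    ha1 (smul_left_injective F h9 (h8.trans (one_smul _ _).symm))))

end Core

end CfsgLib.C7
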