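import Mathlib
import Cfsg.Agent.Lib.C7.Adj
import Cfsg.Agent.Lib.C7.Cliff
import Cfsg.Agent.Lib.C7.Two
import Cfsg.Agent.Lib.C7.TwoR
import Cfsg.Agent.Lib.ClMax.SpTv
import Cfsg.Agent.Lib.ClMax.SLStab
import Cfsg.Agent.Lib.OMax.Basic

/-!
Tensor powers of a symplectic space: the stabiliser is maximal in the symplectic or orthogonal group.
-/

set_option autoImplicit false

namespace CfsgLib.C7

open Module CfsgLib.ClMax

variable {F U V : Type*} [Field F] [AddCommGroup U] [Module F U] [AddCommGroup V] [Module F V]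
  {B : U →ₗ[F] Dual F U} {T : Type*} {s : T → End F U →ₐ[F] End F V}
  {Y : Subgroup (V ≃ₗ[F] V)} [FiniteDimensional F U]

theorem Fm.mem_of_opp (M : Fm (RingHom.id F) B) {s : End F U →ₐ[F] End F V} {Z : Submodule F V}
    {x : U} (h0 : x ≠ 0) (hx : B x x = 0) (h : ∀ y, B x y = 1 → L s y ≤ Z) (v : V) : v ∈ Z := by
  rw [show v = _ from (LinearMap.congr_fun (sum_r s) v).symm, LinearMap.sum_apply]
  exact Z.sum_mem fun j _ => M.mem_of_nonorth h0 hx (A := Z.comap
    (LinearMap.applyₗ v ∘ₗ (r s).flip ((finBasis F U).coord j)))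
    (fun y _ h1 => h y h1 (r_mem_L _ _ _)) _

theorem TP.not_mem_of_rank [Finite T] [FiniteDimensional F V] (h : TP s) {g : V ≃ₗ[F] V}
    {N : End F V} (e : (g : End F V) = 1 + N) (h0 : N ≠ 0) {i : T} {x : U} (hx : x ≠ 0)
    (h1 : ∀ v, N v ∈ L (s i) x) (h2 : ∀ v ∈ L (s i) x, N v = 0)
    (h3 : finrank F (LinearMap.range N) < dd F U V) : g ∉ h.Wr := fun hg => by
  have := h.nt
  have := h.ntU
  obtain ⟨b, hb, -⟩ := exists_not_mem_two h.two x x
  obtain ⟨φ, h4, h5⟩ := exists_dual_one_zero hb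
  obtain ⟨χ, h6⟩ := exists_dual_one_of_ne (F := F) hx
  have hφ : φ ≠ 0 := by rintro rfl; simp at h4
  have h7 : ∀ θ z, g (r (s i) x θ z) = r (s i) x θ z := fun θ z => by
    simpa [h2 _ (r_mem_L _ _ _)] using LinearMap.congr_fun e (r (s i) x θ z)
  obtain ⟨α, hα⟩ := (h.nm_of_comm hg (i := i) hx hφ h5 (a := φ.smulRight x) (LinearMap.ext fun v => by
    obtain ⟨v, rfl⟩ := g.surjective v
    simpa [h7, ← r_def, h1 v φ h5 x] using (congrArg (r (s i) x φ) (LinearMap.congr_fun e v)).symm)).nma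
  obtain ⟨a, ha⟩ := hα.exists_eq h6 hφ fun z => by simp [h7]
  have h8 : N = s i (a - 1) := by rw [map_sub, ← ha, e, map_one, add_sub_cancel_left]
  obtain ⟨y, hy⟩ : ∃ y, (a - 1) y ≠ 0 := by
    by_contra! hy
    exact h0 (by rw [h8, show a - 1 = 0 from LinearMap.ext hy, map_zero])
  exact h3.not_ge (Submodule.map_top N ▸ dd_le (s := s i) hy hφ (P := N) (T := r (s i) y φ) (Z := ⊤)
    (by rw [h8, s_mul_r]) fun _ => trivial)

variable [StarRing (End F V)] [FiniteDimensional F V]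

theorem St.sp_key [Finite F] [Finite T] (S : St (RingHom.id F) B s Y) (alt : ∀ x, B x x = 0)
    (h : TP s) {X : Subgroup (V ≃ₗ[F] V)} (hX : ∀ g a b, a ≠ b → Sw s g a b → g ∈ X)
    (hY : ∀ g ∈ h.Wr, g ∈ ⁅X, X⁆ → g ∈ Y) (hk : (2 : F) ≠ 0 ∨ 5 ≤ finrank F U)
    (hq : finrank F U = 2 → ∃ a : F, a ≠ 0 ∧ a * a ≠ 1) (hne : ¬ Y ≤ h.Wr) :
    ∃ i, ∀ G ∈ Cm (s i), G + star G ∈ RR (RingHom.id F) B s Y i := by
  have := h.nt
  rcases h.two.eq_or_lt with h3 | h3
  · have h2 : (2 : F) ≠ 0 := hk.resolve_right (by omega)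
    obtain ⟨a, ha, ha1⟩ := hq h3.symm
    refine S.big_two h alt h3.symm h2 (fun i j k hij hik hjk =>
      let ⟨g, h1, h2, h3⟩ := h.exists_cycle' hij hik hjk hX; ⟨g, hY g h2 h1, h3⟩) fun hZ => hne ?_
    have G := S.glob_tor hZ (S.qs_two fun x d => S.mem_span alt h3.symm) h (l := a) (μ := 1)
      (ν := a⁻¹) (fun e => ha1 (by nth_rw 1 [← e]; simp [ha])) (fun e => ha1 (by
        rw [inv_eq_one.1 e, mul_one])) fun i x y hx hy hxy => by
      obtain ⟨g, hg, h4, h5, -⟩ := S.exists_weyl hx hy hxy (RR_smul (S.one_RR i) (c := a) rfl)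
        (RR_smul (S.one_RR i) (c := a⁻¹) rfl) (by simp [ha]) (by simp [ha])
      obtain ⟨k, hk, h6, h7, -⟩ := S.exists_weyl hx hy hxy (neg_mem (S.one_RR i))
        (neg_mem (S.one_RR i)) (by simp) (by simp)
      refine ⟨g * k, mul_mem hg hk, ?_⟩
      rw [LinearEquiv.coe_toLinearMap_mul, ← mul_one (_ * _), ← S.one_eq alt h3.symm hxy (s i)]
      simp only [mul_sub, mul_assoc, h4, h5, h6, h7, mul_neg, mul_one, neg_neg, mul_smul_comm]
      module
    exact G.le (G.rec_odd h2) fun _ _ _ C => C.le_two h3.symm h2 (fun u φ hu hφ h0 => by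
      obtain ⟨x, rfl⟩ := S.sj φ
      obtain ⟨c, rfl⟩ := Submodule.mem_span_singleton.1 (S.mem_span alt h3.symm hu (S.orth h0))
      exact ⟨hu, alt u, c, by rintro rfl; simp at hφ, rfl, map_smul _ _ _⟩) ha ha1
  · have o2 : ∀ x z, ∃ c, c ≠ 0 ∧ B c c = 0 ∧ B x c = 0 ∧ B z c = 0 := fun x z =>
      let ⟨c, h1, h2⟩ := exists_ker_two h3 (B x) (B z); ⟨c, h1, alt c, h2⟩
    exact S.big h h3 (S.one_big h o2) (S.nil_big o2) (fun i j k hij hik hjk =>
      let ⟨g, h1, h2, h3⟩ := h.exists_cycle hij hik hjk hX; ⟨g, hY g h2 h1, h3⟩) fun hZ =>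
      hne (S.le_of_glob h (S.glob_big hZ (S.qs_sp alt h h3 hk hZ) h o2) h3 (hk.imp
        (fun h2 => ⟨-1, rfl, by simp, fun e => h2 (by linear_combination -e)⟩)
        fun h5 => ⟨o2, by omega, Or.inl h5⟩))

omit [FiniteDimensional F V] in
theorem Ad.pair_L (A : Ad (RingHom.id F) B s) {H : V →ₗ[F] Dual F V}
    (hs : ∀ (E : End F V) x y, H (star E x) y = H x (E y)) {i : T} {x : U} (h0 : x ≠ 0) (w : U)
    (z : V) {v : V} (hv : v ∈ L (s i) x) : H (r (s i) w (B x) z) v = B x w * H z v := by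
  obtain ⟨θ, hθ⟩ := exists_dual_one_of_ne (F := F) h0
  have := hs (star (r (s i) w (B x))) z v
  rw [star_star, A.str] at this
  rw [this, ← r_eq_of_mem_L hθ hv]
  simp [A.sk x w]

omit [FiniteDimensional F V] in
theorem Ad.orth_L (A : Ad (RingHom.id F) B s) {H : V →ₗ[F] Dual F V}
    (hs : ∀ (E : End F V) x y, H (star E x) y = H x (E y)) {i : T} {x c : U} (h0 : x ≠ 0)
    (h1 : c ≠ 0) (hx : B x c = 0) {v w : V} (hv : v ∈ L (s i) x) (hw : w ∈ L (s i) c) :
    H w v = 0 := by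
  obtain ⟨z, rfl⟩ := exists_of_mem_L h1 (A.ne h0) hw
  rw [A.pair_L hs h0 _ _ hv, hx, zero_mul]

theorem Ad.full_all (A : Ad (RingHom.id F) B s) (S : St (RingHom.id F) B s Y) (alt : ∀ x, B x x = 0)
    {H : LinearMap.BilinForm F V} (hA : H.IsAlt) (hH : H.Nondegenerate) [Nontrivial V]
    (hs : ∀ (E : End F V) x y, H (star E x) y = H x (E y)) (hY : Y ≤ spIso H) (h2 : (2 : F) ≠ 0)
    {i : T} (big : ∀ G ∈ Cm (s i), G + star G ∈ RR (RingHom.id F) B s Y i) (v : V) : Full H Y v := by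
  have h1 : ∀ x, x ≠ 0 → ∀ v ∈ L (s i) x, Full H Y v := fun x h0 v hv d => by
    have e : star ((d / 2) • (H v).smulRight v) = -(d / 2) • (H v).smulRight v :=
      LinearMap.ext fun a => sub_eq_zero.1 (hH.1 _ fun b => by
        simp [hs, ← hA.neg_eq v a]; ring)
    obtain ⟨g, hg, h1⟩ := (S.uin_of_big big h0 (alt x) (M := (d / 2) • (H v).smulRight v)
      (fun _ => Submodule.smul_mem _ _ (Submodule.smul_mem _ _ hv)) fun _ => by
        rw [e]; exact Submodule.smul_mem _ _ (Submodule.smul_mem _ _ hv)).exists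
    exact ⟨g, hg, fun w => by
      simp only [h1, e, LinearMap.sub_apply, LinearMap.smul_apply, LinearMap.smulRight_apply]
      match_scalars <;> field_simp; ring⟩
  obtain ⟨x, h0, hx⟩ := S.iso
  obtain ⟨y, -, hy⟩ := S.partner h0 hx
  obtain ⟨e, he⟩ : ∃ z, r (s i) x (B x) z ≠ 0 := by
    by_contra! h3
    exact r_ne_zero h0 (S.ne h0) (LinearMap.ext h3)
  obtain ⟨z, hz⟩ : ∃ z, H z (r (s i) x (B x) e) ≠ 0 := by
    by_contra! h3
    exact he (hH.2 _ h3)
  have h3 : ∀ w, B x w = 1 → H (r (s i) w (B x) z) (r (s i) x (B x) e) ≠ 0 := fun w hw => by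
    rwa [A.pair_L hs h0 _ _ (r_mem_L _ _ _), hw, one_mul]
  refine full_of_connected hA hH hY (c := -1) (by simp) (fun e => h2 (by linear_combination -e))
    (h1 y (by rintro rfl; simp at hy) _ (r_mem_L _ _ _)) (h1 x h0 _ (r_mem_L _ _ _)) (h3 y hy)
    (fun Z _ h4 h5 => ?_) v
  by_contra! h6
  refine h5 (eq_top_iff.2 fun a _ => S.mem_of_opp (s := s i) h0 hx (fun w hw a ha => ?_) a)
  have h7 : w ≠ 0 := by rintro rfl; simp at hw
  by_contra h8
  by_cases h9 : r (s i) w (B x) z ∈ Z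
  · have h10 := h6 (a + r (s i) w (B x) z) (h1 w h7 _ (add_mem ha (r_mem_L _ _ _)))
      (fun h => h8 (by simpa using sub_mem h h9)) _ h4
    exact h3 w hw (by simpa [h6 a (h1 w h7 a ha) h8 _ h4] using h10)
  · exact h3 w hw (h6 _ (h1 w h7 _ (r_mem_L _ _ _)) h9 _ h4)

section Orth

open QuadraticMap OrthE OMax

variable {Q : QuadraticForm F V} (A : Ad (RingHom.id F) B s) (alt : ∀ x, B x x = 0) (hQ : Nondeg Q)
  (hs : ∀ (E : End F V) x y, polarBilin Q (star E x) y = polarBilin Q x (E y))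
  (hL : ∀ i x, x ≠ 0 → ∀ v ∈ L (s i) x, Q v = 0)
include A alt hQ hs hL

omit [FiniteDimensional F V] in
theorem Ad.mem_O {g : V ≃ₗ[F] V} (hg : g ∈ UG F V) {i j : T} {α : U ≃ₗ[F] U}
    (h : Nma g (s i) (s j) α) : g ∈ O Q := fun v => by
  have h1 : ∀ a b, polar Q (g a) (g b) = polar Q a b := fun a b => (hs g (g a) b).symm.trans
    (congrArg (polar Q · b) (LinearMap.congr_fun (mem_UG.1 hg) a))
  obtain ⟨x, h0, hx⟩ := A.iso
  refine A.mem_of_opp (s := s i) (Z :=
    { carrier := {v | Q (g v) = Q v}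
      add_mem' := fun ha hb => by simp_all [Q_add]
      zero_mem' := by simp
      smul_mem' := fun c _ ha => by simp_all [Q_smul] }) h0 hx (fun y hy w hw => ?_) v
  have h2 : y ≠ 0 := by rintro rfl; simp at hy
  exact (hL j _ (by simpa using h2) _ (h.mem_L hw)).trans (hL i y h2 w hw).symm

theorem Ad.st_O [Finite F] [Finite T] (h : TP s) (h5 : 5 ≤ finrank F V) {X : Subgroup (O Q)}
    (hX : ∀ g ∈ commutator (O Q), g.1 ∈ h.Wr → g ∈ X) :
    St (RingHom.id F) B s (X.map (O Q).subtype) := by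
  have one : ∀ i x (c : F), UIn (X.map (O Q).subtype) (c • r (s i) x (B x)) := fun i x c => by
    have h1 : c • r (s i) x (B x) * c • r (s i) x (B x) = 0 := by simp [alt]
    have h2 := h.mem_Wr_of_eq (g := uni _ h1) (i := i) (a := 1 + c • (B x).smulRight x)
      (by simp [uni_coe, r_def])
    obtain ⟨j, hj⟩ := h2 i
    have := h.nt
    have := h.ntU
    obtain ⟨α, hα⟩ := hj.nma
    refine ⟨_, ⟨⟨_, A.mem_O alt hQ hs hL (uni_mem_UG h1 (by simp [A.smul, A.str])) hα⟩,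
      hX _ (E_eq hQ h5 ▸ mem_of_refl_of_siegel_fix hQ (LinearMap.ker (r (s i) x (B x))) _
        (fun v hv h3 => (hv ?_).elim) (fun u v _ _ _ _ _ => eich_mem_E _ _) _ fun z hz =>
        mem_fixSp.2 (by simp [uni_apply, show r (s i) x (B x) z = 0 from hz])) h2, rfl⟩, rfl⟩
    by_cases h0 : x = 0
    · rw [hQ v fun z => pc (h3 z (by simp [h0])), map_zero]
    refine hL i x h0 v fun φ h4 w => hQ _ fun z => pc ?_
    obtain ⟨c, rfl⟩ := A.sj φ
    simpa [A.str, h3 (r (s i) c (B w) z) (by simp [A.orth h4])] using (hs (r (s i) w (B c)) z v).symm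
  refine ⟨A.toFm, A.smul, A.str, ?_, fun i x c _ _ => one i x c, fun i x c hx hc => ⟨0, ?_⟩⟩
  · rintro _ ⟨g, -, rfl⟩
    refine LinearMap.ext fun a => sub_eq_zero.1 (hQ _ fun b => ?_)
    rw [polar_sub_left, sub_eq_zero]
    exact (hs g.1 a b).trans (O_polar_inv_left g a b).symm
  · refine (((one i (x + c) 1).sub (one i x 1) (by simp [add_mul, hx, A.orth hc]) (by simp [hx])).sub
      (one i c 1) (by simp [add_mul, sub_mul, alt, hc]) (by simp [alt])).of_eq ?_
    simp; abel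

theorem Ad.E_le [Nontrivial V] {X : Subgroup (O Q)} (S : St (RingHom.id F) B s (X.map (O Q).subtype))
    (h3 : 3 ≤ dd F U V) {i : T}
    (big : ∀ G ∈ Cm (s i), G + star G ∈ RR (RingHom.id F) B s (X.map (O Q).subtype) i) :
    E Q ≤ X := by
  have orth := fun {x c} h0 h1 hx {v w} hv hw => show polar Q w v = 0 from
    A.orth_L hs (i := i) (x := x) (c := c) h0 h1 hx (v := v) (w := w) hv hw
  have pair := fun {x} h0 w z {v} hv => show polar Q _ v = _ * polar Q z v from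
    A.pair_L hs (i := i) (x := x) h0 w z (v := v) hv
  have h1 : ∀ x, x ≠ 0 → ∀ v ∈ L (s i) x, ∀ a ∈ L (s i) x, EA X v a := fun x h0 v hv a ha => by
    have e : star ((polarBilin Q a).smulRight v) = (polarBilin Q v).smulRight a :=
      LinearMap.ext fun z => sub_eq_zero.1 (hQ _ fun b => by
        have := hs ((polarBilin Q a).smulRight v) z b
        simp_all [polar_comm Q z, mul_comm])
    obtain ⟨_, ⟨g, hg, rfl⟩, h1⟩ := (S.uin_of_big big h0 (alt x) (M := (polarBilin Q a).smulRight v)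
      (fun _ => Submodule.smul_mem _ _ hv) fun _ => by rw [e]; exact Submodule.smul_mem _ _ ha).exists
    have h2 := orth h0 h0 (alt x) ha hv
    refine ⟨hL i x h0 v hv, h2, (O_ext fun w => ?_ : g = eich Q v a) ▸ hg⟩
    simpa [eich_ap (hL i x h0 v hv) h2, e, hL i x h0 a ha, add_sub_assoc] using h1 w
  have h2 : ∀ x z, B x z = 1 → ∀ v ∈ L (s i) x, ∀ b ∈ L (s i) z, polar Q v b = 0 → EA X v b :=
    fun x z hz v hv b hb h4 => by
    have h0 : x ≠ 0 := by rintro rfl; simp at hz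
    have hz0 : z ≠ 0 := by rintro rfl; simp at hz
    obtain ⟨a, ha, h5, h6⟩ := OMax.exists_orth_not_mem hQ (L (s i) x) (Submodule.span F {v}) [b]
      (by have := finrank_span_singleton_le (F := F) v; rw [finrank_L h0]; simp; omega)
    obtain ⟨w, h7, h8⟩ := exists_dual_one hQ h5
    simpa [h6 b (by simp), hL i z hz0 b hb, pair h0 _ _ ha, hz, polar_comm Q w, h7] using
      ((h1 x h0 v hv a ha).move (h1 z hz0 _ (r_mem_L _ (B x) w) b hb)
        (by rw [pair h0 _ _ hv, pc h8, mul_zero]) (pc h4)).neg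
  have h4 : ∀ x c, x ≠ 0 → B x c = 0 → ∀ v ∈ L (s i) x, ∀ b ∈ L (s i) c, EA X v b :=
    fun x c h0 hc v hv b hb => by
    by_cases hc0 : c = 0
    · rw [eq_zero_of_r h0 fun φ => hb φ (by simp [hc0]) x]
      exact EA.zero (hL i x h0 v hv)
    obtain ⟨z, -, hz, h4⟩ := A.exists_nonorth h0 (alt x) (A.ne hc0)
    have hz0 : z ≠ 0 := by rintro rfl; simp at hz
    obtain ⟨a, ha, h5, h6⟩ := OMax.exists_orth_not_mem hQ (L (s i) z) ⊥ [v, b]
      (by rw [finrank_L hz0]; simp; omega)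
    obtain ⟨w, h7⟩ := hQ.exists_eq h5 (B z c)⁻¹
    simpa [h6 b (by simp), hL i c hc0 b hb, pair hz0 _ _ ha, h7, A.north h4] using
      ((h2 x z hz v hv a ha (h6 v (by simp))).move (h1 c hc0 _ (r_mem_L _ (B z) w) b hb)
        (orth h0 hc0 hc hv (r_mem_L _ _ _)) (orth h0 hc0 hc hv hb)).neg
  have h5 : ∀ x, x ≠ 0 → ∀ v ∈ L (s i) x, EFull X v := fun x h0 v hv a ha => by
    obtain ⟨y, -, hy⟩ := A.partner h0 (alt x)
    refine ((h2 x y hy v hv _ (r_mem_L _ (B x) a) (pc (by rw [pair h0 _ _ hv, pc ha, mul_zero]))).add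
      (EA.sum (hL i x h0 v hv) Finset.univ fun j _ => h4 x ((1 - (B x).smulRight y : End F U)
        (finBasis F U j)) h0 (by simp [hy]) v hv _ (r_mem_L _ ((finBasis F U).coord j) a))).congr ?_
    rw [← LinearMap.sum_apply, ← eq_sum_r, map_sub, map_one, ← r_def]; simp
  obtain ⟨x, h0, hx⟩ := A.iso
  obtain ⟨y, -, hy⟩ := A.partner h0 hx
  obtain ⟨v, hv, h6, -⟩ := OMax.exists_orth_not_mem hQ (L (s i) x) ⊥ []
    (by rw [finrank_L h0]; simp; omega)
  obtain ⟨w, h7⟩ := hQ.exists_eq h6 1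
  have hy0 : y ≠ 0 := by rintro rfl; simp at hy
  exact E_le_of_two hQ (h3.trans (Nat.div_le_self _ _)) (hL i y hy0 _ (r_mem_L _ (B x) w))
    (hL i x h0 v hv) (h5 y hy0 _ (r_mem_L _ _ _)) (h5 x h0 v hv) (by simp [pair h0 _ _ hv, hy, h7])

end Orth

section Bridge

open Cfsg Cfsg.Geo Asch Matrix CfsgLib.Forms OrthE OMax

omit [StarRing (End F V)]

variable [Fintype F] {k t : ℕ} {f₁ : (Fin k → F) → (Fin k → F) → F}

theorem fm_symp (hf : IsSymplecticForm f₁) (hk : 2 ≤ k) : Fm (RingHom.id F) (bilinOf hf.bilinear) := by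
  have nd : ∀ x, bilinOf hf.bilinear x = 0 → x = 0 := fun x hx => by
    by_contra h
    obtain ⟨y, hy⟩ := (hf.nondegenerate x h).2
    exact hy (LinearMap.congr_fun hx y)
  exact ⟨fun _ => rfl, fun x y => hf.skew y x, nd, sj_of_nd nd,
    fun c => ⟨0, (sub_self _).trans (hf.alternating c).symm⟩,
    Pi.single ⟨0, by omega⟩ 1, by simp, hf.alternating _⟩

theorem exists_sq_ne_one (h2 : (2 : F) ≠ 0) (h3 : Fintype.card F ≠ 3) : ∃ a : F, a ≠ 0 ∧ a * a ≠ 1 := by
  classical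
  by_contra! h
  have h4 : (Finset.univ : Finset F) = {0, 1, -1} := Finset.eq_of_subset_of_card_le (fun a _ => by
    by_cases ha : a = 0 <;> simpa [ha, mul_self_eq_one_iff] using h a) (Finset.card_le_univ _)
  refine h3 ((congrArg Finset.card h4).trans (Finset.card_eq_three.2 ⟨_, _, _, by simp, by simp,
    fun e => h2 (by linear_combination e), rfl⟩))

theorem sp_tensorWreath {m : ℕ} (h2 : (2 : F) ≠ 0) (hk : 2 ≤ k) (ht : 2 ≤ t)
    (hex : ¬ (Fintype.card F = 3 ∧ k = 2)) (e : (Fin m ⊕ Fin m) ≃ (Fin t → Fin k))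
    (P : GL (Fin m ⊕ Fin m) F) (hf : IsSymplecticForm f₁)
    (hT : IsTensorPowerFormStructure id (sympForm m F) f₁ e P) :
    IsMaximalIn (spGL m F) (tensorWreathSubgroup k t e P ⊓ spGL m F) := by
  obtain ⟨c, -, hc⟩ := form_pvc (σ := RingHom.id F) ⟨hf.bilinear.add_left, hf.bilinear.smul_left,
    hf.bilinear.add_right, hf.bilinear.smul_right⟩ hT
  have hA := spB_isAlt (Fin m) F
  have hH := spB_nondegenerate (Fin m) F
  have nd : ∀ x, spB (Fin m) F x = 0 → x = 0 := fun x hx => hH.1 x fun y => by simp [hx]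
  have M : Hm (RingHom.id F) (spB (Fin m) F) (-1) :=
    ⟨fun _ => rfl, fun x y => by simp [hA.neg_eq], nd, sj_of_nd nd⟩
  let _ := M.starRing
  have hs : ∀ (E : End F (Fin m ⊕ Fin m → F)) x y, spB (Fin m) F (star E x) y =
    spB (Fin m) F x (E y) := M.adj_apply
  have A := M.ad hs (fm_symp hf hk) (pv_sl e P) (c := c) fun xs ys =>
    (spB_eq_sympForm _ _ _ _).trans (hc xs ys)
  have hU : ∀ g, g ∈ UG F _ ↔ g ∈ spIso (spB (Fin m) F) := fun g => M.mem_UG hs
  have h := tp_sl e P hk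
  have := h.nt
  refine isMaximalIn_spGL _ (· ∈ h.Wr) (fun g _ => mem_Wr_sl e P hk (by omega) g) ?_
    fun X hX hM g hg hgs => ?_
  · obtain ⟨x, h0, hx⟩ := A.iso
    have hd : 2 ≤ dd F (Fin k → F) (Fin m ⊕ Fin m → F) := by
      simp only [dd, finrank_fintype_fun_eq_card, Fintype.card_congr e, Fintype.card_pi,
        Finset.prod_const, Finset.card_univ, Fintype.card_fin]
      exact (Nat.le_div_iff_mul_le (by omega)).2
        (le_trans (by nlinarith) (Nat.pow_le_pow_right (by omega) ht))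
    obtain ⟨v, hv, h3⟩ := (Submodule.ne_bot_iff (L (sl e P ⟨0, by omega⟩) x)).1 fun h3 => by
      rw [← finrank_L h0, h3] at hd; simp at hd
    refine ⟨tv hA v 1, tv_mem hA v 1, h.not_mem_of_rank (N := (spB (Fin m) F v).smulRight v)
      (LinearMap.ext fun w => by simp [tv_apply]) (smulRight_ne_zero h3 fun h4 => h3 (nd v h4)) h0
      (fun w => Submodule.smul_mem _ _ hv) (fun w hw => by
        simp [A.orth_L hs h0 h0 hx hw hv]) (lt_of_le_of_lt ((Submodule.finrank_mono ?_).trans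
          (finrank_span_singleton_le v)) hd)⟩
    rintro _ ⟨w, rfl⟩
    exact Submodule.smul_mem _ _ (Submodule.mem_span_singleton_self v)
  · have hY : ∀ g ∈ h.Wr, g ∈ UG F _ ⊓ SLV F _ → g ∈ X := fun g h1 h2 => hM g ((hU g).1 h2.1) h1
    have S := A.st h hY fun g hg => (hU g).2 (hX hg)
    obtain ⟨i, hi⟩ := S.sp_key hf.alternating h (fun _ _ _ => A.swap h)
      (fun g h1 h2 => hY g h1 (commutator_le_SLV _ h2)) (Or.inl h2)
      (fun h3 => exists_sq_ne_one h2 fun h4 => hex ⟨h4, by simpa using h3⟩) fun h1 => hgs (h1 hg)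
    exact A.full_all S hf.alternating hA hH hs hX h2 hi

theorem omega_tensorWreath_sp {n : ℕ} (hn : 5 ≤ n) {Q : QuadraticForm F (Fin n → F)} (hQ : Nondeg Q)
    (ht : 2 ≤ t) (h2 : (2 : F) ≠ 0 ∨ 5 ≤ k) (hex : ¬ (Fintype.card F = 3 ∧ k = 2))
    (e : Fin n ≃ (Fin t → Fin k)) (P : GL (Fin n) F) (hf : IsSymplecticForm f₁)
    (hT : IsTensorPowerFormStructure id (QuadraticMap.polar Q) f₁ e P)
    (hp : ∀ xs, Q (pvc e P xs) = 0) :
    IsMaximalIn (omegaGL Q) (tensorWreathSubgroup k t e P ⊓ omegaGL Q) := by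
  have hn' : n = k ^ t := by simpa using Fintype.card_congr e
  have hk : 2 ≤ k := by
    by_contra! h
    interval_cases k <;> simp [show t ≠ 0 by omega] at hn' <;> omega
  obtain ⟨c, -, hc⟩ := form_pvc (σ := RingHom.id F) ⟨hf.bilinear.add_left, hf.bilinear.smul_left,
    hf.bilinear.add_right, hf.bilinear.smul_right⟩ hT
  have nd : ∀ x, Q.polarBilin x = 0 → x = 0 := fun x hx => hQ x (LinearMap.congr_fun hx)
  have M : Hm (RingHom.id F) Q.polarBilin 1 :=
    ⟨fun _ => rfl, fun x y => by simp [QuadraticMap.polar_comm], nd, sj_of_nd nd⟩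
  let _ := M.starRing
  have hs : ∀ (E : End F (Fin n → F)) x y, Q.polarBilin (star E x) y = Q.polarBilin x (E y) :=
    M.adj_apply
  have A := M.ad hs (fm_symp hf hk) (pv_sl e P) (c := c) hc
  have h := tp_sl e P hk
  have := h.nt
  have hL : ∀ i x, x ≠ 0 → ∀ v ∈ L (sl e P i) x, Q v = 0 := fun i x h0 v hv => by
    obtain ⟨θ, hθ⟩ := exists_dual_one_of_ne (F := F) h0
    rw [← r_eq_of_mem_L hθ hv]
    refine (pv_sl e P).ind (Z :=
      { carrier := {v | Q (r (sl e P i) x θ v) = 0}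
        add_mem' := fun {a b} ha hb => by
          have := A.orth_L hs h0 h0 (hf.alternating x) (r_mem_L (s := sl e P i) x θ b) (r_mem_L x θ a)
          simp_all [Q_add]
        zero_mem' := by simp
        smul_mem' := fun c _ ha => by simp_all [Q_smul] }) (fun xs => ?_) v
    exact (congrArg Q ((pv_sl e P).act i _ xs)).trans (hp _)
  have hd : 3 ≤ dd F (Fin k → F) (Fin n → F) := by
    simp only [dd, finrank_fintype_fun_eq_card, Fintype.card_fin]
    refine (Nat.le_div_iff_mul_le (by omega)).2 ?_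
    rcases ht.eq_or_lt with rfl | h3
    · rcases hk.eq_or_lt with rfl | h3
      · omega
      · nlinarith
    · exact hn' ▸ le_trans (by nlinarith [Nat.mul_le_mul hk hk]) (Nat.pow_le_pow_right (by omega) h3)
  refine isMaximalIn_omega hQ (by simpa using hn) _ (·.1 ∈ h.Wr)
    (fun g k e' => e' ▸ mem_Wr_sl e P hk (by omega) g) ?_ fun X _ hM g hg hgs => ?_
  · obtain ⟨x, h0, hx⟩ := A.iso
    obtain ⟨v, hv, h3, -⟩ := OMax.exists_orth_not_mem hQ (L (sl e P ⟨0, by omega⟩) x) ⊥ []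
      (by rw [finrank_L h0]; simp; omega)
    obtain ⟨a, ha, h4, -⟩ := OMax.exists_orth_not_mem hQ (L (sl e P ⟨0, by omega⟩) x)
      (Submodule.span F {v}) [] (by
        have := finrank_span_singleton_le (F := F) v; rw [finrank_L h0]; simp; omega)
    have orth := fun {v w} hv hw => show QuadraticMap.polar Q w v = 0 from
      A.orth_L hs (i := ⟨0, Nat.zero_lt_of_lt ht⟩) h0 h0 hx (v := v) (w := w) hv hw
    obtain ⟨b, h5, h6⟩ := exists_dual_one hQ h4
    refine ⟨v, a, hL _ x h0 v hv, orth ha hv, h.not_mem_of_rank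
      (N := (Q.polarBilin a).smulRight v - (Q.polarBilin v).smulRight a)
      (LinearMap.ext fun w => by simp [eich_ap (hL _ x h0 v hv) (orth ha hv), hL _ x h0 a ha,
        add_sub_assoc]) (fun h7 => h3 (by simpa [h5, h6] using LinearMap.congr_fun h7 b)) h0
      (fun w => sub_mem (Submodule.smul_mem _ _ hv) (Submodule.smul_mem _ _ ha))
      (fun w hw => by simp [orth hw hv, orth hw ha])
      (lt_of_le_of_lt ((Submodule.finrank_mono ?_).trans (finrank_span_pair_le v a)) hd)⟩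
    rintro _ ⟨w, rfl⟩
    exact sub_mem (Submodule.smul_mem _ _ (Submodule.subset_span (by simp)))
      (Submodule.smul_mem _ _ (Submodule.subset_span (by simp)))
  · have S := A.st_O hf.alternating hQ hs hL h (by simpa using hn) hM
    obtain ⟨i, hi⟩ := S.sp_key hf.alternating h (X := O Q)
      (fun _ _ _ hab hg => A.mem_O hf.alternating hQ hs hL (A.swap h hab hg) hg.ab) (fun g h1 h3 => by
        obtain ⟨g, h4, rfl⟩ := (Subgroup.map_subtype_commutator (O Q)).ge h3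
        exact ⟨g, hM g h4 h1, rfl⟩) (by simpa using h2)
      (fun h3 => exists_sq_ne_one (h2.resolve_right (by simp at h3; omega))
        fun h4 => hex ⟨h4, by simpa using h3⟩) fun h1 => hgs (h1 ⟨g, hg, rfl⟩)
    exact A.E_le hf.alternating hQ hs hL S hd hi

end Bridge

end CfsgLib.C7
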